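/-
Project M11 (S3318), definitions: a group `N` with `N / V ≅ M₂₄` acting on `V = 2 ^ 11` as on the Golay code modulo the
all-one word (`ccols`) or on the even cocode (`CL.J4.vcols`).  Vectors are coded by the numbers below `2048`.
-/
import Cfsg.Agent.Spor.J4N
import Cfsg.Agent.Spor.M24Idx
import Cfsg.Agent.L10.DQ

set_option autoImplicit false

namespace CL.M11

open Cfsg Subgroup MulAction CL.Spor CL.Grp CL.Even
open CL.F24 (ap ap_nil ap_cons ap_lt all2 all2_spec)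
open CL.J4 (vcols vc evn wt ap_xor xor_ind xorSel_eq_ap xor_lt12)
open scoped Pointwise

universe u

/-! ### The code modulo the all-one word -/

/-- The representative below `2048` of the information bits modulo `4095`. -/
def nrm (x : ℕ) : ℕ := Nat.xor x (Nat.mul 4095 (Nat.shiftRight x 11))

theorem nrm_spec {x : ℕ} (hx : x < 4096) : nrm x < 2048 ∧ (nrm x = x ∨ nrm x = x ^^^ 4095) ∧ (x < 2048 → nrm x = x) ∧
    nrm (x ^^^ 4095) = nrm x := by
  have : all2 (fun x => decide (nrm x < 2048 ∧ (nrm x = x ∨ nrm x = x ^^^ 4095) ∧ (x < 2048 → nrm x = x) ∧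
    nrm (x ^^^ 4095) = nrm x)) 12 0 = true := by decide +kernel
  exact of_decide_eq_true (all2_spec this x hx)

theorem nrm_xor {x y : ℕ} (hx : x < 4096) (hy : y < 4096) : nrm (x ^^^ y) = nrm x ^^^ nrm y := by
  have e : ∀ z, nrm z = z ^^^ 4095 * (z >>> 11) := fun _ => rfl
  have k : ∀ z, z < 4096 → z >>> 11 = 0 ∨ z >>> 11 = 1 := fun z hz => by rw [Nat.shiftRight_eq_div_pow]; omega
  rw [e, e, e, Nat.shiftRight_xor_distrib]
  rcases k x hx with a | a <;> rcases k y hy with b | b <;> rw [a, b] <;>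
    simp [Nat.xor_assoc, Nat.xor_left_comm (4095 : ℕ), Nat.xor_comm (4095 : ℕ)]

/-- The code of a code word modulo the all-one word. -/
def cc (s : Finset GolayPt) : ℕ := nrm (toMask s % 4096)

/-- The action of a packed permutation on the code modulo the all-one word. -/
noncomputable def ccols (P : ℕ) : List ℕ :=
  List.rec (motive := fun _ => List ℕ) [] (fun b _ ih => nrm (Nat.land (actMask (pf P) b) 4095) :: ih)
    [13062145, 4845570, 13938692, 7221256, 10170384, 11952160, 15515712, 2019456, 4038912, 8077824, 11654144]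

/-- `a` is the class of an octad. -/
def isO (a : ℕ) : Bool := or (Nat.beq (pc24 (enc a)) 8) (Nat.beq (pc24 (enc a)) 16)

theorem cc_lt (s : Finset GolayPt) : cc s < 2048 := (nrm_spec (Nat.mod_lt _ (by norm_num))).1

theorem cc_cw' {x : ℕ} (hx : x < 4096) : cc (cw x) = nrm x := by rw [cc, toMask_cw hx, enc_mod hx]

theorem cc_cw {a : ℕ} (ha : a < 2048) : cc (cw a) = a := by
  rw [cc_cw' (by omega), (nrm_spec (by omega)).2.2.1 ha]

theorem cc_symmDiff (s t : Finset GolayPt) : cc (symmDiff s t) = cc s ^^^ cc t := by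
  rw [cc, cc, cc, toMask_symmDiff, ← nrm_xor (Nat.mod_lt _ (by norm_num)) (Nat.mod_lt _ (by norm_num))]
  exact congrArg nrm (Nat.xor_mod_two_pow (n := 12))

theorem cw_cc {s : Finset GolayPt} (hs : s ∈ GC) : cw (cc s) = s ∨ cw (cc s) = sᶜ := by
  obtain ⟨x, hx, rfl⟩ := exists_cw hs
  rw [cc_cw' hx]
  exact (nrm_spec hx).2.1.imp (fun e => by rw [e]) fun e => by rw [e, cw_compl hx]

theorem cc_compl {s : Finset GolayPt} (hs : s ∈ GC) : cc sᶜ = cc s := by
  obtain ⟨x, hx, rfl⟩ := exists_cw hs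
  rw [← cw_compl hx, cc_cw' hx, cc_cw' (xor_lt12 hx (by norm_num)), (nrm_spec hx).2.2.2]

theorem cc_eq_iff {s t : Finset GolayPt} (hs : s ∈ GC) (ht : t ∈ GC) : cc s = cc t ↔ s = t ∨ s = tᶜ := by
  refine ⟨fun h => ?_, fun h => h.elim (fun e => by rw [e]) fun e => by rw [e, cc_compl ht]⟩
  rcases cw_cc hs with a | a <;> rcases cw_cc ht with b | b <;> rw [h, b] at a
  exacts [.inl a.symm, .inr a.symm, .inr (by rw [a, compl_compl]), .inl (compl_injective a).symm]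

theorem cc_oct0 : cc oct0 = 47 := by rw [oct0_eq_cw, cc_cw (by norm_num)]

theorem ccols_lt (P a : ℕ) : ap (ccols P) a < 2048 := by
  refine ap_lt (k := 11) (fun c hc => ?_) a
  simp only [ccols, List.mem_cons, List.not_mem_nil, or_false] at hc
  rcases hc with h | h | h | h | h | h | h | h | h | h | h <;> rw [h] <;>
    exact (nrm_spec (Nat.and_lt_two_pow (n := 12) _ (by norm_num))).1

theorem ccols_nrm (P : ℕ) {a : ℕ} (ha : a < 2048) : ap (ccols P) a = nrm (lin (cTab P) a) := by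
  have hl : ∀ b ∈ golayBasis.map fun b => Nat.land (actMask (pf P) b) 4095, b < 4096 := fun b hb => by
    obtain ⟨c, -, rfl⟩ := List.mem_map.1 hb
    exact Nat.and_lt_two_pow (n := 12) _ (by norm_num)
  rw [cTab, lin_linTab (by simp [golayBasis]) hl (by omega), (xorSel_map (φ := nrm) (Q := (· < 4096)) rfl (by norm_num)
    (fun _ _ => xor_lt12) (fun _ _ => nrm_xor) _ hl a).1]
  have := xorSel_append (ccols P) [nrm (Nat.land (actMask (pf P) 14919680) 4095)] a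
  rw [show (ccols P).length = 11 from rfl, Nat.mod_eq_of_lt (by omega), Nat.div_eq_of_lt (by omega), xorSel_cons,
    xorSel_nil, xorSel_eq_ap (ccols P)] at this
  exact (this.trans (by simp)).symm

theorem ccols_cc {P : ℕ} {x : M24} (hP : Rep P x) {s : Finset GolayPt} (hs : s ∈ GC) :
    ap (ccols P) (cc s) = cc (x • s) := by
  rw [ccols_nrm P (cc_lt s), ← cc_cw' (lin_lt _ _), ← hP.smul_cw ((cc_lt s).trans (by norm_num))]
  rcases cw_cc hs with e | e <;> rw [e]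
  rw [smul_finset_compl', cc_compl ((smul_mem_GC_iff x).2 hs)]

theorem mem_stab_oct0 {P : ℕ} {x : M24} (hP : Rep P x) : x ∈ stabilizer M24 oct0 ↔ ap (ccols P) 47 = 47 := by
  rw [mem_stabilizer_iff, ← cc_oct0, ccols_cc hP oct0_mem.1, cc_eq_iff ((smul_mem_GC_iff x).2 oct0_mem.1) oct0_mem.1]
  refine ⟨.inl, fun h => h.resolve_right fun e => ?_⟩
  have := congrArg Finset.card e
  rw [Finset.card_smul_finset, Finset.card_compl, oct0_mem.2, card_golayPt] at this
  omega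

/-! ### The interface -/

variable {G : Type*} [Group G]

/-- `N / V ≅ M₂₄` acts on `V` by the matrices `cols` -/
structure MS (cols : ℕ → List ℕ) (V N : Subgroup G) (v : ℕ → G) (p : G → M24) : Prop where
  lt : ∀ P a, ap (cols P) a < 2048
  v_xor : ∀ {a b}, a < 2048 → b < 2048 → v (a ^^^ b) = v a * v b
  v_inj : ∀ {a}, a < 2048 → v a = 1 → a = 0
  mem_V : ∀ {x}, x ∈ V ↔ ∃ a < 2048, v a = x
  le : V ≤ N
  p_mul : ∀ {x y}, x ∈ N → y ∈ N → p (x * y) = p x * p y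
  p_surj : ∀ g, ∃ x ∈ N, p x = g
  p_ker : ∀ {x}, x ∈ N → (p x = 1 ↔ x ∈ V)
  conj : ∀ {x P}, x ∈ N → Rep P (p x) → ∀ {a}, a < 2048 → x * v a * x⁻¹ = v (ap (cols P) a)

theorem xor_lt11 {a b : ℕ} (ha : a < 2048) (hb : b < 2048) : a ^^^ b < 2048 := Nat.xor_lt_two_pow (n := 11) ha hb

namespace MS
variable {cols : ℕ → List ℕ} {V N : Subgroup G} {v : ℕ → G} {p : G → M24} (h : MS cols V N v p)
include h

theorem v_zero : v 0 = 1 := by simpa using h.v_xor (a := 0) (b := 0) (by norm_num) (by norm_num)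
theorem v_V {a : ℕ} (ha : a < 2048) : v a ∈ V := h.mem_V.2 ⟨a, ha, rfl⟩
theorem v_N {a : ℕ} (ha : a < 2048) : v a ∈ N := h.le (h.v_V ha)
theorem v_sq {a : ℕ} (ha : a < 2048) : v a * v a = 1 := by rw [← h.v_xor ha ha, Nat.xor_self, h.v_zero]
theorem v_inv {a : ℕ} (ha : a < 2048) : (v a)⁻¹ = v a := inv_eq_of_mul_eq_one_left (h.v_sq ha)
theorem v_comm {a b : ℕ} (ha : a < 2048) (hb : b < 2048) : v a * v b = v b * v a := by
  rw [← h.v_xor ha hb, Nat.xor_comm, h.v_xor hb ha]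
theorem v_eq {a b : ℕ} (ha : a < 2048) (hb : b < 2048) (e : v a = v b) : a = b :=
  Nat.xor_eq_zero_iff.1 (h.v_inj (xor_lt11 ha hb) (by rw [h.v_xor ha hb, e, h.v_sq hb]))
theorem sq {x : G} (hx : x ∈ V) : x * x = 1 := by obtain ⟨a, ha, rfl⟩ := h.mem_V.1 hx; exact h.v_sq ha
theorem comm {x y : G} (hx : x ∈ V) (hy : y ∈ V) : x * y = y * x := by
  obtain ⟨a, ha, rfl⟩ := h.mem_V.1 hx; obtain ⟨b, hb, rfl⟩ := h.mem_V.1 hy; exact h.v_comm ha hb
theorem p_v {a : ℕ} (ha : a < 2048) : p (v a) = 1 := (h.p_ker (h.v_N ha)).2 (h.v_V ha)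
theorem p_one : p 1 = 1 := (h.p_ker (one_mem _)).2 (one_mem _)
theorem p_inv {x : G} (hx : x ∈ N) : p x⁻¹ = (p x)⁻¹ :=
  eq_inv_of_mul_eq_one_left (by rw [← h.p_mul (inv_mem hx) hx, inv_mul_cancel, h.p_one])
theorem mul_v {x : G} {P : ℕ} (hx : x ∈ N) (hP : Rep P (p x)) {a : ℕ} (ha : a < 2048) :
    x * v a = v (ap (cols P) a) * x := by rw [← h.conj hx hP ha]; group
theorem comm_iff {x : G} {P : ℕ} (hx : x ∈ N) (hP : Rep P (p x)) {a : ℕ} (ha : a < 2048) :
    x * v a = v a * x ↔ ap (cols P) a = a := by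
  rw [h.mul_v hx hP ha, mul_left_inj]
  exact ⟨h.v_eq (h.lt _ _) ha, fun e => by rw [e]⟩
theorem p_eq {x y : G} (hx : x ∈ N) (hy : y ∈ N) (e : p x = p y) : ∃ a < 2048, y = x * v a := by
  obtain ⟨a, ha, k⟩ := h.mem_V.1 ((h.p_ker (mul_mem (inv_mem hx) hy)).1
    (by rw [h.p_mul (inv_mem hx) hy, h.p_inv hx, e, inv_mul_cancel]))
  exact ⟨a, ha, by rw [k]; group⟩
theorem conj_V {x y : G} (hx : x ∈ N) (hy : y ∈ V) : x * y * x⁻¹ ∈ V := by
  obtain ⟨a, ha, rfl⟩ := h.mem_V.1 hy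
  obtain ⟨P, hP⟩ := exists_rep (p x)
  rw [h.conj hx hP ha]; exact h.v_V (h.lt _ _)
theorem lift {P : ℕ} (hP : inM24 P = true) : ∃ x ∈ N, Rep P (p x) := by
  obtain ⟨x, hx, e⟩ := h.p_surj (m24 P); exact ⟨x, hx, e ▸ rep_m24 hP⟩

theorem card_V : Nat.card V = 2048 := by
  refine (Nat.card_congr (Equiv.ofBijective (fun a : Fin 2048 => (⟨v a, h.v_V a.2⟩ : V)) ⟨fun a b e => ?_,
    fun x => ?_⟩)).symm.trans (by simp)
  · exact Fin.ext (h.v_eq a.2 b.2 (congrArg Subtype.val e))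
  · obtain ⟨a, ha, e⟩ := h.mem_V.1 x.2
    exact ⟨⟨a, ha⟩, Subtype.ext e⟩

/-- `p` as a homomorphism -/
def hom : N →* M24 := MonoidHom.mk' (fun x => p x) fun x y => h.p_mul x.2 y.2

theorem hom_surj : Function.Surjective h.hom := fun g => let ⟨x, hx, e⟩ := h.p_surj g; ⟨⟨x, hx⟩, e⟩

theorem hom_ker : h.hom.ker = V.subgroupOf N := by ext x; exact h.p_ker x.2

/-- the preimage of a subgroup of `M₂₄` -/
def pre (K : Subgroup M24) : Subgroup G := (K.comap h.hom).map N.subtype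

theorem mem_pre {K : Subgroup M24} {x : G} : x ∈ h.pre K ↔ x ∈ N ∧ p x ∈ K :=
  ⟨fun ⟨c, k, e⟩ => e ▸ ⟨c.2, k⟩, fun ⟨a, k⟩ => ⟨⟨x, a⟩, k, rfl⟩⟩

theorem pre_le (K : Subgroup M24) : h.pre K ≤ N := fun _ hx => (h.mem_pre.1 hx).1

theorem V_le_pre (K : Subgroup M24) : V ≤ h.pre K := fun _ hx =>
  h.mem_pre.2 ⟨h.le hx, (h.p_ker (h.le hx)).2 hx ▸ one_mem _⟩

theorem pre_mono {K L : Subgroup M24} (e : K ≤ L) : h.pre K ≤ h.pre L := map_mono (comap_mono e)

theorem card_pre (K : Subgroup M24) : Nat.card (h.pre K) = 2048 * Nat.card K := by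
  have e1 := card_mul_index (K.comap h.hom)
  have e2 := card_mul_index K
  have e3 := card_mul_index h.hom.ker
  rw [index_ker, MonoidHom.range_eq_top.2 h.hom_surj, card_top, h.hom_ker,
    Nat.card_congr (subgroupOfEquivOfLe h.le).toEquiv, h.card_V] at e3
  rw [index_comap_of_surjective _ h.hom_surj, ← e3, ← e2, ← mul_assoc] at e1
  rw [pre, card_map_of_injective N.subtype_injective]
  exact Nat.eq_of_mul_eq_mul_right (Nat.pos_of_ne_zero index_ne_zero_of_finite) e1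

theorem card_N : Nat.card N = 2048 * 244823040 := by
  have e : h.pre ⊤ = N := le_antisymm (h.pre_le _) fun x hx => h.mem_pre.2 ⟨hx, trivial⟩
  rw [← card_M24, ← card_top (G := M24), ← h.card_pre, e]

/-- the standard Sylow 2-subgroup of `N` -/
noncomputable def T : Subgroup G := h.pre P2

theorem card_T : Nat.card h.T = 2 ^ 21 := by rw [T, h.card_pre, card_P2]; norm_num

theorem sylT [Finite G] : IsSylowIn 2 h.T N := by
  refine ⟨h.pre_le _, IsPGroup.of_card h.card_T, fun k => ?_⟩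
  have e := card_mul_index (h.T.subgroupOf N)
  rw [Nat.card_congr (subgroupOfEquivOfLe (show h.T ≤ N from h.pre_le P2)).toEquiv, h.card_T, h.card_N] at e
  change 2 ∣ (h.T.subgroupOf N).index at k
  omega

theorem mem_T {x : G} : x ∈ h.T ↔ x ∈ N ∧ p x ∈ P2 := h.mem_pre
theorem V_le_T : V ≤ h.T := h.V_le_pre _
theorem T_le : h.T ≤ N := h.pre_le _

end MS

theorem MS.cent_oct {V N : Subgroup G} {v : ℕ → G} {p : G → M24} (h : MS ccols V N v p) {x : G} (hx : x ∈ N) :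
    x * v 47 = v 47 * x ↔ p x ∈ stabilizer M24 oct0 :=
  let ⟨_, hP⟩ := exists_rep (p x); (h.comm_iff hx hP (by norm_num)).trans (mem_stab_oct0 hP).symm

theorem MS.cent_sext {V N : Subgroup G} {v : ℕ → G} {p : G → M24} (h : MS vcols V N v p) {x : G} (hx : x ∈ N) :
    x * v 1441 = v 1441 * x ↔ p x ∈ stabilizer M24 sext0 :=
  let ⟨_, hP⟩ := exists_rep (p x); (h.comm_iff hx hP (by norm_num)).trans (J4.mem_stab_sext0 hP).symm

/-- the module is one of the two -/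
def MOD : Prop := ∀ (G : Type u) [Group G] [Finite G] (V : Subgroup G), IsElementaryAbelian 2 V → Nat.card V = 2 ^ 11 →
  𝒞(V) = V → Spor.IsoM24 (𝒩(V) ⧸ V.subgroupOf 𝒩(V)) → ∃ v p, MS ccols V 𝒩(V) v p ∨ MS vcols V 𝒩(V) v p

/-- `V` is the only large elementary abelian subgroup of `N` -/
def UNQ (cols : ℕ → List ℕ) : Prop := ∀ (G : Type u) [Group G] [Finite G] (V N : Subgroup G) v p, MS cols V N v p →
  ∀ E ≤ N, (∀ x ∈ E, x * x = 1) → 2048 ≤ Nat.card E → E = V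

/-- a Sylow 2-subgroup of `N` is one of `G` -/
def SYL (cols : ℕ → List ℕ) : Prop := ∀ (G : Type u) [Group G] [Finite G] (V : Subgroup G) v p
  (h : MS cols V 𝒩(V) v p), IsSylowIn 2 h.T ⊤

/-- the code case; `v 47` is the class of the octad `oct0` -/
def CodeThm : Prop := UNQ.{u} ccols → SYL.{u} ccols → ∀ (G : Type u) [Group G] [Finite G] (V : Subgroup G) v p,
  MS ccols V 𝒩(V) v p → 𝒞(V) = V → pPrimeCore 2 (centralizer ({v 47} : Set G)) = ⊥ → V.Normal ∨ Spor.IsoCo1 G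

/-- the cocode case; `v 1441` is the class of the sextet `sext0` -/
def CocodeThm : Prop := UNQ.{u} vcols → SYL.{u} vcols → ∀ (G : Type u) [Group G] [Finite G] (V : Subgroup G) v p,
  MS vcols V 𝒩(V) v p → 𝒞(V) = V → pPrimeCore 2 (centralizer ({v 1441} : Set G)) = ⊥ →
  V.Normal ∨ IsOfJankoFourType G ∨ IsFi24' G

/-- the hypothesis on the centralisers for an involution in the centre of `T` -/
theorem MS.hO {cols : ℕ → List ℕ} {V N : Subgroup G} {v : ℕ → G} {p : G → M24} [Finite G] (h : MS cols V N v p)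
    (hO : ∀ T : Sylow 2 N, ∀ s : N, s ∈ (T : Subgroup N) → orderOf s = 2 → (∀ y ∈ (T : Subgroup N), y * s = s * y) →
      pPrimeCore 2 (centralizer ({(s : G)} : Set G)) = ⊥) {a : ℕ} (ha : a < 2048) (h0 : a ≠ 0)
    (hc : ∀ x ∈ h.T, x * v a = v a * x) : pPrimeCore 2 (centralizer ({v a} : Set G)) = ⊥ := by
  refine hO h.sylT.toSylow ⟨v a, h.v_N ha⟩ (h.V_le_T (h.v_V ha)) (orderOf_eq_prime (Subtype.ext ?_) fun e => ?_)
    fun y hy => Subtype.ext (hc _ hy)
  · exact (pow_two _).trans (h.v_sq ha)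
  · exact h0 (h.v_inj ha (congrArg Subtype.val e))

theorem top_of (m : MOD.{u}) (u1 : UNQ.{u} ccols) (u2 : UNQ.{u} vcols) (s1 : SYL.{u} ccols) (s2 : SYL.{u} vcols)
    (c1 : CodeThm.{u}) (c2 : CocodeThm.{u}) {G : Type u} [Group G] [Finite G] (V : Subgroup G)
    (hV : IsElementaryAbelian 2 V) (hcard : Nat.card V = 2 ^ 11) (hC : 𝒞(V) = V)
    (hM : Spor.IsoM24 (𝒩(V) ⧸ V.subgroupOf 𝒩(V)))
    (hO : ∀ T : Sylow 2 𝒩(V), ∀ s : 𝒩(V), s ∈ (T : Subgroup 𝒩(V)) → orderOf s = 2 →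
      (∀ y ∈ (T : Subgroup 𝒩(V)), y * s = s * y) → pPrimeCore 2 (centralizer ({(s : G)} : Set G)) = ⊥) :
    V.Normal ∨ IsOfJankoFourType G ∨ IsFi24' G ∨ Spor.IsoCo1 G := by
  obtain ⟨v, p, h | h⟩ := m G V hV hcard hC hM
  · exact (c1 u1 s1 G V v p h hC (h.hO hO (by norm_num) (by norm_num) fun x hx =>
      (h.cent_oct (h.T_le hx)).2 (P2_le_oct0 (h.mem_T.1 hx).2))).imp_right fun k => .inr (.inr k)
  · exact (c2 u2 s2 G V v p h hC (h.hO hO (by norm_num) (by norm_num) fun x hx =>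
      (h.cent_sext (h.T_le hx)).2 (P2_le_sext0 (h.mem_T.1 hx).2))).imp_right fun k => k.imp_right .inl

end CL.M11
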