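/-
Project M11 (S3318), the code case (helper88): definitions and statements of the steps.
-/
import Cfsg.Agent.M11.D
import Cfsg.Agent.Spor.M24Octad
import Cfsg.Agent.Cls.OrthMaxBridge
import Cfsg.Agent.Even.XS2

set_option autoImplicit false

namespace CL.M11.C

open Cfsg Subgroup MulAction CL.Spor CL.Grp CL.Even QuadraticMap
open CL.F24 (ap all2 all2_spec)
open CL.L10 (QP QM KK F)
open CL.Cls (OG qfPlus)
open CL.Known (stabOG)
open scoped commutatorElement Pointwise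

universe u

/-! ### Part K: a subgroup which is not strongly closed, in presence of a weakly closed abelian subgroup -/

section
variable {G : Type*} [Group G]

structure KH (X S V D : Subgroup G) : Prop where
  syl : IsSylowIn 2 S X
  VS : V ≤ S
  DS : D ≤ S
  nV : S ≤ 𝒩(V)
  nD : S ≤ 𝒩(D)
  sq : ∀ a ∈ V, a * a = 1
  wc : ∀ g ∈ X, cj g V ≤ S → g ∈ 𝒩(V)
  nn : X ⊓ 𝒩(V) ≤ 𝒩(D)

/-- `X ⊓ N(P) ⊓ N(P ⊓ D)` is strongly embedded modulo `P` -/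
structure SE (X S V D P : Subgroup G) : Prop where
  PS : P ≤ S
  VP : ¬ V ≤ P
  se : ∀ y ∈ X ⊓ 𝒩(P), ∀ u ∈ X ⊓ 𝒩(P), u ∈ 𝒩(P ⊓ D) → y⁻¹ * u * y ∈ 𝒩(P ⊓ D) → u ∉ P → u * u ∈ P →
    y ∈ 𝒩(P ⊓ D)
  ex : ∃ g ∈ X ⊓ 𝒩(P), g ∉ 𝒩(P ⊓ D)

/-- an odd element inverted by `v` -/
structure KA (X S V D P : Subgroup G) (v w : G) : Prop where
  PS : P ≤ S
  vV : v ∈ V
  vP : v ∉ P
  vN : v ∈ 𝒩(P)
  wX : w ∈ X
  wN : w ∈ 𝒩(P)
  odd : Odd (orderOf w)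
  inv : v * w * v = w⁻¹
  nD : w ∉ 𝒩(P ⊓ D)

structure KB (X S V D P : Subgroup G) (v w : G) : Prop extends KA X S V D P v w where
  wI : ∀ i ∈ V, i ∈ cj w (V ⊓ P) → w * i = i * w
  wR : ∀ x ∈ P, ⁅w, x⁆ ∈ (V ⊓ P) ⊔ cj w (V ⊓ P)
  inj : ∀ y ∈ V, y ∈ 𝒩(P) → y ∉ P → ∀ x ∈ cj w (V ⊓ P), ⁅x, y⁆ ∈ cj w (V ⊓ P) → x ∈ V

/-- the configuration `J = (V ⊓ P) ^ w`, `V0 = V ⊓ P` -/
structure VH (S V J V0 : Subgroup G) (t y0 : G) : Prop where
  JS : J ≤ S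
  sq : ∀ x ∈ J, x * x = 1
  le : V0 ≤ V
  I : J ⊓ V ≤ V0
  card : Nat.card V0 = Nat.card J
  cm : ∀ y ∈ V0, ∀ x ∈ J, ⁅y, x⁆ ∈ J
  tJ : t ∈ J
  tV : t ∉ V
  tY : ∀ y ∈ V, ⁅y, t⁆ ∈ J → y ∈ V0
  yV : y0 ∈ V
  y0V : y0 ∉ V0
  inj : ∀ x ∈ J, ⁅x, y0⁆ ∈ J → x ∈ V

end

def KEY1 : Prop := ∀ (G : Type u) [Group G] [Finite G] (X S V D : Subgroup G), KH X S V D →
  ∀ g ∈ X, ∀ a ∈ D, g * a * g⁻¹ ∈ S → g * a * g⁻¹ ∉ D → ∃ P, SE X S V D P

def DIH : Prop := ∀ (G : Type u) [Group G] [Finite G] (P : Subgroup G) (a b : G), a * a = 1 → b * b = 1 →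
  (∃ c ∈ zpowers (a * b), c ∉ P ∧ c * c ∈ P) ∨
    ∃ w ∈ zpowers (a * b), Odd (orderOf w) ∧ w * a * w⁻¹ * b ∈ P

def KEY2 : Prop := DIH.{u} → ∀ (G : Type u) [Group G] [Finite G] (X S V D P : Subgroup G), KH X S V D →
  SE X S V D P → ∃ v w, KB X S V D P v w

def KEY3 : Prop := ∀ (G : Type u) [Group G] [Finite G] (X S V D P : Subgroup G) (v w : G), KH X S V D →
  KB X S V D P v w → ∃ t, VH S V (cj w (V ⊓ P)) (V ⊓ P) t v

/-! ### The model -/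

/-- the normal subgroup of order 64 of the stabiliser of `sext0` -/
def levHX : List (ℕ × List ℕ) := [(0, [984818244535754528103549039458486304, 111890735759189500967275039606037505, 70399228063273750146191920654811874, 29340620570662517957029049942508631]), (3, [984818244535754528103549039458486304, 984202951082164080105044112956360736, 984724508489452699215480746259449888, 984235865005994746954145143334668320]), (4, [984818244535754528103549039458486304, 976448692869377735270425038196672544, 972512676110088067912772961567868960, 961365507626256404119956257276790816])]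
/-- the translations (pointwise stabiliser of `oct0`) -/
def levKT : List (ℕ × List ℕ) := [(4, [984818244535754528103549039458486304, 965128854020860192151391391390468128, 963721886883755259286232606933354528, 979121071158219704299181131031480352, 968708902336673183175954409307867168, 967812279691448225500382947153381408, 971592882964418941354553515258775584, 970499966350631336865513127433832480, 976448692869377735270425038196672544, 981818691054096003685363657089320992, 972512676110088067912772961567868960, 966182099583441531322624363496310816, 983548720921252936276249910206105632, 975346028712660580592452217730074656, 980224387687010295957922729495201824, 961365507626256404119956257276790816])]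
/-- the normal subgroup of order 64 of the stabiliser of `trio0` -/
def levTR : List (ℕ × List ℕ) := [(0, [984818244535754528103549039458486304, 112424983097229755092343687492459521, 70351105155508323366877919011341026, 236664407677519277425755142460815907, 154011290965101378516425393633478085, 735343378606643913461687753973501102, 610467988597677537367918574735234161, 28854523491105362182008475499005015]), (4, [984818244535754528103549039458486304, 979121071158219704299181131031480352, 971592882964418941354553515258775584, 970499966350631336865513127433832480, 976448692869377735270425038196672544, 972512676110088067912772961567868960, 966182099583441531322624363496310816, 961365507626256404119956257276790816])]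

noncomputable def HX : Subgroup M24 := gen (levelEls levHX)
noncomputable def TR : Subgroup M24 := gen (levelEls levTR)
abbrev KT : Subgroup M24 := fixS oct0

theorem chainHX : SChain HX levHX := sChain_gen (by decide +kernel)
theorem chainTR : SChain TR levTR := sChain_gen (by decide +kernel)
theorem chainKT : SChain KT levKT :=
  sChain_of_card (good_fixS_all (good_top_of_all (by decide +kernel)) (by decide +kernel)) e16G_eq.2.le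
    (by decide +kernel)
theorem card_HX : Nat.card HX = 64 := chainHX.card_eq.trans (by decide +kernel)
theorem card_TR : Nat.card TR = 64 := chainTR.card_eq.trans (by decide +kernel)
theorem card_KT : Nat.card KT = 16 := e16G_eq.2
theorem HX_le : HX ≤ P2 := gen_le (chainP2.good_of_sift chainHX.1 (by decide +kernel))
theorem KT_le : KT ≤ P2 := chainKT.eq_gen ▸ gen_le (chainP2.good_of_sift chainKT.1 (by decide +kernel))

/-- `B = [V, KT]`, `U = C_V(HX)`, `W = [V, HX]` are the kernels of these matrices -/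
def mB : List ℕ := [15, 1, 2, 4, 48, 8, 32, 16, 0, 16, 32]
def mU : List ℕ := [99, 1, 2, 100, 96, 4, 104, 8, 16, 32, 64]
def mW : List ℕ := [0, 1, 0, 0, 1, 1, 1, 0, 0, 0, 1]
def BL : List ℕ := [0, 47, 208, 255, 256, 303, 464, 511, 592, 639, 640, 687, 848, 895, 896, 943, 1088, 1135, 1168,
  1215, 1344, 1391, 1424, 1471, 1552, 1599, 1728, 1775, 1808, 1855, 1984, 2031]
def UL : List ℕ := [0, 23, 47, 56, 199, 208, 232, 255, 1543, 1552, 1576, 1599, 1728, 1751, 1775, 1784]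

theorem mB_iff {a : ℕ} (ha : a < 2048) : ap mB a = 0 ↔ a ∈ BL :=
  of_decide_eq_true (all2_spec (f := fun a => decide (ap mB a = 0 ↔ a ∈ BL)) (k := 11) (by decide +kernel) a ha)
theorem mU_iff {a : ℕ} (ha : a < 2048) : ap mU a = 0 ↔ a ∈ UL :=
  of_decide_eq_true (all2_spec (f := fun a => decide (ap mU a = 0 ↔ a ∈ UL)) (k := 11) (by decide +kernel) a ha)

/-- a Singer cycle on `KT` -/
def g15 : ℕ := 140855339018520700189059107361292353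

structure Dat (G : Type u) [Group G] where
  V : Subgroup G
  v : ℕ → G
  p : G → M24
  ms : MS ccols V 𝒩(V) v p

variable {G : Type u} [Group G]

namespace Dat
variable (D : Dat G)

abbrev N : Subgroup G := 𝒩(D.V)
def z : G := D.v 47
def u : G := D.v 23
abbrev Z : Subgroup G := zpowers D.z
/-- the kernel of a matrix -/
def ks (M : List ℕ) : Subgroup G where
  carrier := {x | ∃ a < 2048, ap M a = 0 ∧ D.v a = x}
  one_mem' := ⟨0, by norm_num, by simpa using (J4.ap_xor M 0 0), D.ms.v_zero⟩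
  mul_mem' := by
    rintro _ _ ⟨a, ha, e, rfl⟩ ⟨b, hb, f, rfl⟩
    exact ⟨a ^^^ b, xor_lt11 ha hb, by rw [J4.ap_xor, e, f]; rfl, D.ms.v_xor ha hb⟩
  inv_mem' := by
    rintro _ ⟨a, ha, e, rfl⟩
    exact ⟨a, ha, e, (D.ms.v_inv ha).symm⟩
abbrev B : Subgroup G := D.ks mB
abbrev U : Subgroup G := D.ks mU
abbrev W : Subgroup G := D.ks mW
noncomputable abbrev O : Subgroup G := D.ms.pre KT
noncomputable abbrev R : Subgroup G := D.ms.pre HX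
noncomputable abbrev H : Subgroup G := D.ms.pre (stabilizer M24 oct0)
noncomputable abbrev T : Subgroup G := D.ms.T

theorem mem_ks {M : List ℕ} {x : G} : x ∈ D.ks M ↔ ∃ a < 2048, ap M a = 0 ∧ D.v a = x := Iff.rfl
theorem v_mem_ks {M : List ℕ} {a : ℕ} (ha : a < 2048) : D.v a ∈ D.ks M ↔ ap M a = 0 :=
  ⟨fun ⟨_, hb, e, f⟩ => D.ms.v_eq hb ha f ▸ e, fun e => ⟨a, ha, e, rfl⟩⟩
theorem ks_le (M : List ℕ) : D.ks M ≤ D.V := fun _ ⟨_, ha, _, e⟩ => e ▸ D.ms.v_V ha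
theorem zz : D.z * D.z = 1 := D.ms.v_sq (by norm_num)
theorem z1 : D.z ≠ 1 := fun e => absurd (D.ms.v_inj (by norm_num) e) (by norm_num)
theorem uu : D.u * D.u = 1 := D.ms.v_sq (by norm_num)
theorem mem_Z {x : G} : x ∈ D.Z ↔ x = 1 ∨ x = D.z := by
  refine ⟨fun ⟨k, e⟩ => ?_, fun e => e.elim (fun e => e ▸ one_mem _) fun e => e ▸ mem_zpowers _⟩
  have z2 : D.z ^ (2 : ℤ) = 1 := by rw [zpow_two, D.zz]
  obtain ⟨m, rfl | rfl⟩ := Int.even_or_odd' k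
  · exact .inl (by rw [← e]; simp only; rw [zpow_mul, z2, one_zpow])
  · exact .inr (by rw [← e]; simp only; rw [zpow_add, zpow_mul, z2, one_zpow, one_mul, zpow_one])
theorem v_mem_Z {a : ℕ} (ha : a < 2048) : D.v a ∈ D.Z ↔ a = 0 ∨ a = 47 :=
  D.mem_Z.trans (or_congr ⟨D.ms.v_inj ha, fun e => e ▸ D.ms.v_zero⟩ ⟨D.ms.v_eq ha (by norm_num), fun e => e ▸ rfl⟩)
theorem zB : D.z ∈ D.B := (D.v_mem_ks (by norm_num)).2 (by decide +kernel)
theorem zU : D.z ∈ D.U := (D.v_mem_ks (by norm_num)).2 (by decide +kernel)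
theorem uU : D.u ∈ D.U := (D.v_mem_ks (by norm_num)).2 (by decide +kernel)
theorem uB : D.u ∉ D.B := fun e => absurd ((D.v_mem_ks (by norm_num)).1 e) (by decide +kernel)
theorem O_le_T : D.O ≤ D.T := D.ms.pre_mono KT_le
theorem R_le_T : D.R ≤ D.T := D.ms.pre_mono HX_le
theorem T_le_H : D.T ≤ D.H := D.ms.pre_mono P2_le_oct0
theorem mem_H {x : G} : x ∈ D.H ↔ x ∈ D.N ∧ x * D.z = D.z * x :=
  D.ms.mem_pre.trans (and_congr_right fun hx => (D.ms.cent_oct hx).symm)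
/-- the commutator `⁅v a, x⁆` in coordinates -/
theorem comm_v {x : G} {P a : ℕ} (hx : x ∈ D.N) (hP : Rep P (D.p x)) (ha : a < 2048) :
    ⁅D.v a, x⁆ = D.v (a ^^^ ap (ccols P) a) := by
  rw [D.ms.v_xor ha (D.ms.lt _ _), ← D.ms.conj hx hP ha, commutatorElement_def, D.ms.v_inv ha]; group
theorem comm_v' {x : G} {P a : ℕ} (hx : x ∈ D.N) (hP : Rep P (D.p x)) (ha : a < 2048) :
    ⁅x, D.v a⁆ = D.v (a ^^^ ap (ccols P) a) := by
  rw [← commutatorElement_inv, D.comm_v hx hP ha, D.ms.v_inv (xor_lt11 ha (D.ms.lt _ _))]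

end Dat

/-- facts on the octad stabiliser -/
structure MF1 (D : Dat G) : Prop where
  cB : Nat.card D.B = 32
  cH : Nat.card D.H = 2048 * 322560
  nB : D.H ≤ 𝒩(D.B)
  nO : D.H ≤ 𝒩(D.O)
  sqO : ∀ r ∈ D.O, r * r ∈ D.V
  VO : ∀ y ∈ D.V, ∀ r ∈ D.O, ⁅y, r⁆ ∈ D.B
  BO : ∀ b ∈ D.B, ∀ r ∈ D.O, ⁅b, r⁆ ∈ D.Z
  m5 : ∀ r ∈ D.O, r ∉ D.V → ∀ b ∈ D.B, b * r = r * b → ∃ y ∈ D.V, ⁅y, r⁆ = b
  m6 : ∀ x ∈ D.T, (∀ b ∈ D.B, ⁅b, x⁆ ∈ D.Z) → x ∈ D.O
  m7 : ∀ y ∈ D.V, (∀ r ∈ D.O, ⁅y, r⁆ ∈ D.Z) → y ∈ D.B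
  m8 : ∀ r ∈ D.O, (∀ b ∈ D.B, b * r = r * b) → r ∈ D.V
  m9 : ∀ b ∈ D.B, (∀ r ∈ D.O, b * r = r * b) → b ∈ D.Z

/-- facts on the sextet group -/
structure MF2 (D : Dat G) : Prop where
  BW : D.B ≤ D.W
  UW : D.U ≤ D.W
  cF : Nat.card (D.B ⊓ D.U : Subgroup G) = 8
  cL : Nat.card (D.O ⊓ D.R : Subgroup G) = 2048 * 4
  UR : ∀ y ∈ D.U, ∀ r ∈ D.R, y * r = r * y
  WR : ∀ y ∈ D.W, ∀ r ∈ D.R, ⁅y, r⁆ ∈ D.U
  n1 : ∀ r ∈ D.R, (∀ y ∈ D.W, ⁅y, r⁆ ∈ D.B) → r ∈ D.O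
  n2 : ∀ y ∈ D.V, ∀ r ∈ D.R, r ∉ D.V → ⁅y, r⁆ ∈ D.U → y ∈ D.W
  n3 : ∀ y ∈ D.W, (∀ r ∈ D.R, ⁅y, r⁆ ∈ D.B) → y ∈ D.B ∨ y * D.u ∈ D.B
  n4 : ∀ y ∈ D.V, (∀ r ∈ D.O ⊓ D.R, ⁅y, r⁆ ∈ D.Z) → y ∈ D.B ∨ y * D.u ∈ D.B

/-- orbits and elements of odd order -/
structure MF3 (D : Dat G) : Prop where
  oc : ∀ b ∈ D.B, b ≠ 1 → ∃ n ∈ D.N, n * D.z * n⁻¹ = b
  nd : ∀ b ∈ D.B, b ∉ D.U → ∀ n ∈ D.N, n * D.z * n⁻¹ ≠ b * D.u
  BU : ∃ b ∈ D.B, b ∉ D.U
  m4 : ∀ r ∈ D.O, r ∉ D.V → ∀ s ∈ D.O, s ∉ D.V → ∃ h ∈ D.H, (h * r * h⁻¹)⁻¹ * s ∈ D.V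
  y5 : ∃ y ∈ D.H, y ^ 5 = 1 ∧ (∀ r ∈ D.O, ⁅y, r⁆ ∈ D.V → r ∈ D.V) ∧ ∀ b ∈ D.B, ⁅y, b⁆ ∈ D.Z → b ∈ D.Z
  y23 : ∃ y ∈ D.N, y ^ 23 = 1 ∧ ∀ a ∈ D.V, y * a = a * y → a = 1

structure MF (D : Dat G) : Prop extends MF1 D, MF2 D, MF3 D

/-- a candidate for the extraspecial group -/
structure QS (D : Dat G) (Q : Subgroup G) : Prop where
  le : Q ≤ D.O
  inf : Q ⊓ D.V = D.B
  sur : ∀ r ∈ D.O, ∃ q ∈ Q, q⁻¹ * r ∈ D.V
  sq : ∀ q ∈ Q, q * q ∈ D.Z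

structure QI (D : Dat G) (Q : Subgroup G) : Prop extends QS D Q where
  nH : D.H ≤ 𝒩(Q)

/-- weak closure, fusion -/
structure WF (D : Dat G) : Prop where
  syl : IsSylowIn 2 D.T ⊤
  wc : ∀ g, cj g D.V ≤ D.N → g ∈ D.N
  fus : ∀ g, ∀ a ∈ D.V, g * a * g⁻¹ ∈ D.V → ∃ n ∈ D.N, n * a * n⁻¹ = g * a * g⁻¹

abbrev V8 := Fin 4 ⊕ Fin 4 → F
noncomputable abbrev q8 : QuadraticForm F V8 := qfPlus 4 F

/-- the result of the classification -/
def Cl (D : Dat G) (J V0 : Subgroup G) : Prop := J ⊓ D.V = D.U ∧ V0 = D.W ∧ J ⊔ D.V = D.R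

def FF1 : Prop := ∀ (G : Type u) [Group G] [Finite G] (D : Dat G), MF1 D
def FF2 : Prop := ∀ (G : Type u) [Group G] [Finite G] (D : Dat G), MF2 D
def FF3 : Prop := ∀ (G : Type u) [Group G] [Finite G] (D : Dat G), MF3 D
def FUS : Prop := UNQ.{u} ccols → SYL.{u} ccols → ∀ (G : Type u) [Group G] [Finite G] (D : Dat G), WF D
def VC1 : Prop := ∀ (G : Type u) [Group G] [Finite G] (D : Dat G) J V0 t y, VH D.T D.V J V0 t y →
  64 * Nat.card (J ⊓ D.V : Subgroup G) ≤ Nat.card J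
def VC2 : Prop := ∀ (G : Type u) [Group G] [Finite G] (D : Dat G) J V0 t y, VH D.T D.V J V0 t y →
  64 * Nat.card (J ⊓ D.V : Subgroup G) ≤ Nat.card J → Cl D J V0
def QE1 : Prop := ∀ (G : Type u) [Group G] [Finite G] (D : Dat G), MF D → ∀ r ∈ D.O, r * r ∈ D.B
def QE2 : Prop := ∀ (G : Type u) [Group G] [Finite G] (D : Dat G), MF D → (∀ r ∈ D.O, r * r ∈ D.B) →
  ∃ Q, QS D Q ∧ ∀ x ∈ D.N, Rep g15 (D.p x) → x ∈ 𝒩(Q)
def QE3 : Prop := ∀ (G : Type u) [Group G] [Finite G] (D : Dat G) Q, MF D → (∀ r ∈ D.O, r * r ∈ D.B) →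
  QS D Q → (∀ x ∈ D.N, Rep g15 (D.p x) → x ∈ 𝒩(Q)) → D.H ≤ 𝒩(Q)
def WN1 : Prop := ∀ (G : Type u) [Group G] [Finite G] (D : Dat G) Q X P v w, MF D → WF D → QI D Q →
  KB X D.T D.V Q P v w → Cl D (cj w (D.V ⊓ P)) (D.V ⊓ P) → cj w D.B ≤ Q
def WN2 : Prop := ∀ (G : Type u) [Group G] [Finite G] (D : Dat G) Q X P v w, MF D → QI D Q →
  KB X D.T D.V Q P v w → Cl D (cj w (D.V ⊓ P)) (D.V ⊓ P) → cj w D.B ≤ Q → False
def QPX : Prop := ∀ (G : Type u) [Group G] [Finite G] (D : Dat G) Q, MF D → QI D Q →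
  Nat.card Q = 2 ^ 9 ∧ IsExtraspecial 2 Q ∧ ∃ π, QP q8 D.z Q π
def GO5 : Prop := ∀ (G : Type u) [Group G] [Finite G] (z : G) (Q S : Subgroup G) (π : G → V8) (ρ : KK z Q →* OG q8),
  QM q8 z Q π ρ → IsSylowIn 2 S (centralizer {z}) → Q ≤ S →
  (∃ y : KK z Q, y ^ 5 = 1 ∧ ∀ x, (ρ y).1 x = x → x = 0) → pPrimeCore 2 (centralizer ({z} : Set G)) = ⊥ →
  (∀ g, g * z * g⁻¹ = z → ∀ a ∈ Q, g * a * g⁻¹ ∈ S → g * a * g⁻¹ ∈ Q) → centralizer {z} ≤ 𝒩(Q)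
def GOV : Prop := ∀ (G : Type u) [Group G] [Finite G] (D : Dat G), MF D → WF D →
  pPrimeCore 2 (centralizer ({D.z} : Set G)) = ⊥ →
  (∀ g, ∀ a ∈ D.V, g * a * g⁻¹ ∈ D.T → g * a * g⁻¹ ∈ D.V) → D.V.Normal
def SB8 : Prop := ∀ W : Submodule F V8, Nat.card W = 16 → (∀ w ∈ W, q8 w = 0) → Nat.card (stabOG q8 W) ≤ 1290240
def FN1 : Prop := ∀ (G : Type u) [Group G] [Finite G] (D : Dat G) Q π (ρ : KK D.z Q →* OG q8), MF D → WF D →
  QI D Q → IsExtraspecial 2 Q → QM q8 D.z Q π ρ → pPrimeCore 2 (centralizer ({D.z} : Set G)) = ⊥ →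
  centralizer {D.z} ≤ 𝒩(Q) → XE D.z Q ∧ (∀ c : KK D.z Q, ρ c = 1 → c.1 ∈ Q) ∧ centralizer {D.z} ⊓ 𝒩(D.B) ≤ D.N
def FN2 : Prop := SB8 → ∀ (G : Type u) [Group G] [Finite G] (D : Dat G) Q π (ρ : KK D.z Q →* OG q8), MF D → WF D →
  QI D Q → Nat.card Q = 2 ^ 9 → QM q8 D.z Q π ρ → XE D.z Q → (∀ c : KK D.z Q, ρ c = 1 → c.1 ∈ Q) →
  (∃ c ∈ centralizer {D.z}, c ∉ 𝒩(D.B)) → ρ.range = commutator (OG q8)
def FN3 : Prop := ∀ (G : Type u) [Group G] [Finite G] (z : G) (Q : Subgroup G) π (ρ : KK z Q →* OG q8),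
  Nat.card Q = 2 ^ 9 → QM q8 z Q π ρ → XE z Q → (∀ c : KK z Q, ρ c = 1 → c.1 ∈ Q) →
  ρ.range = commutator (OG q8) → (∃ g, g * z * g⁻¹ ∈ Q ∧ g * z * g⁻¹ ≠ z) → Spor.IsoCo1 G

theorem Dat.kh [Finite G] (D : Dat G) (w : WF D) {X A : Subgroup G} (hX : D.T ≤ X) (hA : A ≤ D.T)
    (h1 : D.T ≤ 𝒩(A)) (h2 : X ⊓ D.N ≤ 𝒩(A)) : KH X D.T D.V A :=
  ⟨w.syl.of_le hX le_top, D.ms.V_le_T, hA, D.ms.T_le, h1, fun _ => D.ms.sq,
    fun g _ e => w.wc g (e.trans D.ms.T_le), h2⟩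

theorem codeThm_of (k1 : KEY1.{u}) (dh : DIH.{u}) (k2 : KEY2.{u}) (k3 : KEY3.{u}) (f1 : FF1.{u}) (f2 : FF2.{u})
    (f3 : FF3.{u}) (fu : FUS.{u}) (c1 : VC1.{u}) (c2 : VC2.{u}) (e1 : QE1.{u}) (e2 : QE2.{u}) (e3 : QE3.{u})
    (w1 : WN1.{u}) (w2 : WN2.{u}) (qp : QPX.{u}) (g5 : GO5.{u}) (gv : GOV.{u}) (sb : SB8) (n1 : FN1.{u})
    (n2 : FN2.{u}) (n3 : FN3.{u}) : CodeThm.{u} := by
  intro un sy G _ _ V v p ms _ hO
  let D : Dat G := ⟨V, v, p, ms⟩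
  have f : MF D := ⟨f1 G D, f2 G D, f3 G D⟩
  have w := fu un sy G D
  have key : ∀ X A, KH X D.T D.V A → ∀ g ∈ X, ∀ a ∈ A, g * a * g⁻¹ ∈ D.T → g * a * g⁻¹ ∉ A →
      ∃ P y x, KB X D.T D.V A P y x ∧ Cl D (cj x (D.V ⊓ P)) (D.V ⊓ P) := fun X A h g hg a ha b c => by
    obtain ⟨P, s⟩ := k1 G X _ _ A h g hg a ha b c
    obtain ⟨y, x, k⟩ := k2 dh G X _ _ A P h s
    obtain ⟨t, e⟩ := k3 G X _ _ A P y x h k
    exact ⟨P, y, x, k, c2 G D _ _ t y e (c1 G D _ _ t y e)⟩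
  by_cases hc : centralizer {D.z} ≤ D.N
  · refine .inl (gv G D f w hO fun g a ha b => by_contra fun c => ?_)
    obtain ⟨P, y, x, k, e, -⟩ := key ⊤ D.V (D.kh w le_top D.ms.V_le_T D.ms.T_le inf_le_right) g trivial a ha b c
    have hz := e.ge D.zU
    exact k.nD (le_norm_inf (L := zpowers x) (zpowers_le.2 k.wN)
      (zpowers_le.2 (hc (mem_centralizer_singleton_iff.2 (k.wI _ hz.2 hz.1)))) (mem_zpowers x))
  have o := e1 G D f
  obtain ⟨Q, qs, hσ⟩ := e2 G D f o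
  have qi : QI D Q := ⟨qs, e3 G D Q f o qs hσ⟩
  obtain ⟨cQ, xQ, π, hπ⟩ := qp G D Q f qi
  obtain ⟨ρ, hρ⟩ := hπ.exists_QM
  have TC : D.T ≤ centralizer {D.z} := fun x hx => mem_centralizer_singleton_iff.2 (D.mem_H.1 (D.T_le_H hx)).2
  have QT := qs.le.trans D.O_le_T
  have BQ : D.B ≤ Q := qs.inf.ge.trans inf_le_left
  have cn := g5 G D.z Q D.T π ρ hρ (w.syl.of_le TC le_top) QT (by
    obtain ⟨y, hy, y5, a, b⟩ := f.y5
    have yK : y ∈ KK D.z Q := ⟨mem_centralizer_singleton_iff.2 (D.mem_H.1 hy).2, qi.nH hy⟩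
    refine ⟨⟨y, yK⟩, Subtype.ext y5, fun x e => ?_⟩
    obtain ⟨q, hq, rfl⟩ := hπ.surj x
    have m := conj_mem (qi.nH hy) hq
    have k : ⁅y, q⁆ ∈ D.Z := D.mem_Z.2 ((hπ.π_zero (mul_mem m (inv_mem hq))).1 (by
      rw [hπ.π_mul m (inv_mem hq), hπ.π_inv hq, hρ.π_conj ⟨y, yK⟩ hq, e, hπ.aa]))
    exact (hπ.π_zero hq).2 (D.mem_Z.1 (b q (qs.inf.le ⟨hq, a q (qs.le hq)
      (zpowers_le.2 (D.ks_le _ D.zB) k)⟩) k))) hO fun g hg a ha b => by_contra fun c => by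
    obtain ⟨P, y, x, k, e⟩ := key (centralizer {D.z}) Q (D.kh w TC QT (D.T_le_H.trans qi.nH) fun x hx =>
      qi.nH (D.mem_H.2 ⟨hx.2, mem_centralizer_singleton_iff.1 hx.1⟩)) g
      (mem_centralizer_singleton_iff.2 (mul_inv_eq_iff_eq_mul.1 hg)) a ha b c
    exact w2 G D Q _ P y x f qi k e (w1 G D Q _ P y x f w qi k e)
  obtain ⟨xe, kr, nb⟩ := n1 G D Q π ρ f w qi xQ hρ hO cn
  refine .inr (n3 G D.z Q π ρ cQ hρ xe kr (n2 sb G D Q π ρ f w qi cQ hρ xe kr ?_) ?_)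
  · by_contra! k
    exact hc fun c h => nb ⟨h, k c h⟩
  · obtain ⟨b, hb, bU⟩ := f.BU
    obtain ⟨n, -, e⟩ := f.oc b hb fun e => bU (e ▸ one_mem _)
    exact ⟨n, e ▸ BQ hb, fun k => bU (by rw [← e, k]; exact D.zU)⟩

end CL.M11.C
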