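/-
Project M11: no offenders on the two modules; `V` is the only elementary abelian subgroup of order `2 ^ 11` of `N`; Sylow
subgroups and fusion in `V`.
-/
import Cfsg.Agent.M11.UnqC
import Cfsg.Agent.Spor.StF0

set_option autoImplicit false

namespace CL.M11

open Cfsg Subgroup MulAction CL.Spor CL.Even CL.Grp
open CL.F24 (ap)
open CL.J4 (vcols vc xorSel_eq_ap exists_vc vc_symmDiff vc_eq_iff vc_lt vcols_vc wt_vc)
open scoped Pointwise

universe u

attribute [local irreducible] fm PG.pop invL P2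

theorem no_off {cols : ℕ → List ℕ} (hl : ∀ P, (cols P).length = 11) (hb : ∀ P a, ap (cols P) a < 2048)
    (h : chkO cols = true) {A : Subgroup M24} (hA : A ≤ P2) (h2 : ∀ g ∈ A, g * g = 1) (W : Finset ℕ)
    (hW : ∀ a ∈ W, a < 2048 ∧ ∀ P, ∀ g ∈ A, Rep P g → ap (cols P) a = a) (hc : 2048 ≤ Nat.card A * W.card) : A = ⊥ := by
  classical
  let I : List (ℕ × ℕ) → Prop := fun J => ∀ g ∈ A, g ≠ 1 → ∃ P, Rep P g ∧ (P, fm (cols P)) ∈ J
  have cn : ∀ J, I J → Nat.card A ≤ J.length + 1 := fun J hJ => by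
    rw [← SetLike.coe_sort_coe, Nat.card_coe_set_eq]
    refine le_trans (Set.ncard_le_ncard (t := ((1 :: J.map fun s => m24 s.1).toFinset : Set M24)) fun g hg => ?_) ?_
    · by_cases e : g = 1
      · simp [e]
      obtain ⟨P, r, m⟩ := hJ g hg e
      simpa using .inr ⟨P, ⟨_, m⟩, r.m24_eq⟩
    · rw [Set.ncard_coe_finset]; exact (List.toFinset_card_le _).trans (by simp)
  have fb : ∀ {P g}, Rep P g → g ∈ A → ∀ b ∈ W, (fm (cols P)).testBit b = true := fun r hg b m =>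
    fm_spec (hl _) (hb _) (hW b m).1 ((hW b m).2 _ _ hg r)
  have pp : ∀ F : ℕ, (∀ b ∈ W, F.testBit b = true) → W.card ≤ PG.pop 11 2048 F := fun F k => by
    rw [PG.pop_eq (by norm_num)]
    exact Finset.card_le_card fun b m => Finset.mem_filter.2 ⟨Finset.mem_range.2 (hW b m).1, k b m⟩
  have st : ∀ c a J, c < W.card → a ≤ Nat.card A → I J → I (J.filter (big c a J)) := fun c a J k1 k2 hJ g hg e => by
    obtain ⟨P, r, m⟩ := hJ g hg e
    refine ⟨P, r, List.mem_filter.2 ⟨m, Nat.ble_eq.mpr (k2.trans ?_)⟩⟩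
    rw [cntL_eq, List.countP_eq_length_filter]
    refine cn _ fun x hx e' => ?_
    obtain ⟨Q, r', m'⟩ := hJ x hx e'
    refine ⟨Q, r', List.mem_filter.2 ⟨m', Bool.and_eq_true_iff.2 ⟨(allL_iff _ _).2 fun k hk => ?_, Bool.or_eq_true_iff.2 (.inr (Nat.blt_eq.mpr ?_))⟩⟩⟩
    · have hk : k < 24 := by revert k; decide
      have c : g * x = x * g := by
        rw [← inv_eq_of_mul_eq_one_left (h2 _ (mul_mem hg hx)), mul_inv_rev, inv_eq_of_mul_eq_one_left (h2 _ hg),
          inv_eq_of_mul_eq_one_left (h2 _ hx)]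
      have := congrArg (fun y : M24 => gIdx (y • gPt k)) c
      simp only [mul_smul, r.apply, r'.apply, gIdx_gPt hk] at this
      exact Nat.beq_eq.mpr this
    · refine k1.trans_le (pp _ fun b m => ?_)
      change (fm (cols P) &&& fm (cols Q)).testBit b = true
      rw [Nat.testBit_and, fb r hg b m, fb r' hx b m]
      rfl
  have ck : ∀ c a J, I J → chk1 c a J = true → W.card ≤ c ∨ Nat.card A < a := fun c a J hJ k => by
    by_contra! n
    rw [chk1, fltK_eq, fltK_eq, Bool.or_eq_true, Bool.and_eq_true, Nat.blt_eq, Nat.ble_eq, Nat.ble_eq] at k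
    have i2 := st c a _ n.1 n.2 (st c a _ n.1 n.2 hJ)
    generalize List.filter _ (List.filter _ J) = J at k i2
    have := cn _ i2
    obtain ⟨k1, k2⟩ := k.resolve_left (by omega)
    have al : ∀ s ∈ J, ∀ b ∈ W, s.2.testBit b = true := fun s hs => by
      by_contra q
      have := cn (J.erase s) fun g hg e => let ⟨P, r, m⟩ := i2 g hg e
        ⟨P, r, (List.mem_erase_of_ne fun e : (P, fm (cols P)) = s => q (e ▸ fb r hg)).2 m⟩
      rw [List.length_erase_of_mem hs] at this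
      have := List.length_pos_of_mem hs
      omega
    refine n.1.not_ge ((pp _ fun b m => ?_).trans k2)
    clear this k1 k2 k i2
    induction J with
    | nil => exact (PG.testBit_ones _ _).trans (decide_eq_true (hW b m).1)
    | cons s J ih =>
      change (s.2 &&& andAll J).testBit b = true
      rw [Nat.testBit_and, al s (by simp) b m, ih fun t ht => al t (by simp [ht])]
      rfl
  have i0 : I (invL.map fun P => (P, fm (cols P))) := fun g hg e =>
    let ⟨P, m, r⟩ := invL_spec (hA hg) e (h2 g hg); ⟨P, r, List.mem_map.2 ⟨P, m, rfl⟩⟩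
  rw [chkO, mkK_eq] at h
  generalize invL.map _ = J at h i0
  simp only [Bool.and_eq_true] at h
  by_contra n1
  obtain ⟨⟨g, hg⟩, g1⟩ := ne_bot_iff_exists_ne_one.1 n1
  obtain ⟨P, r, m⟩ := i0 g hg fun e => g1 (Subtype.ext e)
  have a1 := (pp _ (fb r hg)).trans (Nat.ble_eq.mp ((allL_iff _ _).1 h.1.1 _ m))
  have a2 := ck _ _ _ i0 h.1.2
  have a3 := ck _ _ _ i0 h.2.1
  have a4 := ck _ _ _ i0 h.2.2.1
  have a5 := ck _ _ _ i0 h.2.2.2
  generalize Nat.card A = n at a2 a3 a4 a5 hc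
  generalize W.card = w at a1 a2 a3 a4 a5 hc
  clear * - a1 a2 a3 a4 a5 hc
  have k : ∀ c a, w ≤ c → n < a → c * a ≤ 2048 → 0 < c → False := fun c a _ _ _ _ => by nlinarith
  rcases a5 with a5 | a5
  · obtain rfl : w = 0 := by omega
    omega
  rcases a4 with a4 | a4
  · exact k _ _ a4 a5 (by norm_num) (by norm_num)
  rcases a3 with a3 | a3
  · exact k _ _ a3 a4 (by norm_num) (by norm_num)
  rcases a2 with a2 | a2
  · exact k _ _ a2 a3 (by norm_num) (by norm_num)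
  exact k _ _ a1 a2 (by norm_num) (by norm_num)

theorem unq_of {cols : ℕ → List ℕ} (hl : ∀ P, (cols P).length = 11) (hk : chkO cols = true) : UNQ.{u} cols := by
  classical
  intro G _ _ V N v p h E hE h2 hc
  have pE : IsPGroup 2 E := fun x => ⟨1, Subtype.ext ((pow_two _).trans (h2 _ x.2))⟩
  obtain ⟨n, hn, k⟩ := h.sylT.exists_conj_le pE hE
  have nV : ∀ {n : G}, n ∈ N → cj n V = V := fun hn => eq_of_le_of_card_ge
    (by rintro _ ⟨x, hx, rfl⟩; exact h.conj_V hn hx) (card_cj _ _).ge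
  suffices ∀ E : Subgroup G, E ≤ h.T → (∀ x ∈ E, x * x = 1) → 2048 ≤ Nat.card E → E = V by
    have e := this (cj n E) k (by rintro _ ⟨x, hx, rfl⟩; rw [← map_mul, h2 x hx, map_one]) (by rwa [card_cj])
    exact cj_inj.1 (e.trans (nV hn).symm)
  clear h2 hc k pE hE E
  intro E hE h2 hc
  let f : E →* M24 := h.hom.comp (inclusion (hE.trans h.T_le))
  have e := card_mul_index f.ker
  rw [index_ker] at e
  have b := no_off hl h.lt hk (A := f.range) (by rintro _ ⟨x, rfl⟩; exact (h.mem_T.1 (hE x.2)).2)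
    (by rintro _ ⟨x, rfl⟩; rw [← map_mul, show x * x = 1 from Subtype.ext (h2 _ x.2), map_one])
    ((Finset.range 2048).filter fun a => v a ∈ E) (fun a ha => ?_) ?_
  · refine eq_of_le_of_card_ge (fun x hx => (h.p_ker (h.T_le (hE hx))).1 ?_) (h.card_V ▸ hc)
    exact (b.le ⟨⟨x, hx⟩, rfl⟩ :)
  · rw [Finset.mem_filter, Finset.mem_range] at ha
    refine ⟨ha.1, ?_⟩
    rintro P _ ⟨x, rfl⟩ r
    refine (h.comm_iff (h.T_le (hE x.2)) r ha.1).1 ?_
    rw [← inv_eq_of_mul_eq_one_left (h2 _ (mul_mem x.2 ha.2)), mul_inv_rev, inv_eq_of_mul_eq_one_left (h2 _ x.2),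
      h.v_inv ha.1]
  · refine hc.trans (e ▸ (mul_comm _ _).trans_le (Nat.mul_le_mul_left _ ?_))
    choose! c c1 c2 using fun x => (h.mem_V (x := x)).1
    have m : ∀ x : f.ker, x.1.1 ∈ V := fun x => (h.p_ker (h.T_le (hE x.1.2))).1 x.2
    rw [← Nat.card_eq_finsetCard]
    exact Nat.card_le_card_of_injective (fun x => ⟨c x.1.1, Finset.mem_filter.2 ⟨Finset.mem_range.2 (c1 _ (m x)),
      (c2 _ (m x)).symm ▸ x.1.2⟩⟩) fun x y k => Subtype.ext (Subtype.ext
        ((c2 _ (m x)).symm.trans ((congrArg (fun a => v a.1) k).trans (c2 _ (m y)))))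

theorem unq_c : UNQ.{u} ccols := unq_of (fun _ => rfl) chkO_c
theorem unq_v : UNQ.{u} vcols := unq_of (fun _ => rfl) chkO_v

namespace MS
variable {G : Type u} [Group G] [Finite G] {cols : ℕ → List ℕ} {V : Subgroup G} {v : ℕ → G} {p : G → M24}
  (h : MS cols V 𝒩(V) v p) (hu : UNQ.{u} cols)
include h hu

/-- weak closure -/
theorem wc {g : G} (hg : cj g V ≤ 𝒩(V)) : g ∈ 𝒩(V) :=
  cj_eq_iff_mem.1 (hu G V _ v p h _ hg (by rintro _ ⟨x, hx, rfl⟩; rw [← map_mul, h.sq hx, map_one])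
    (by rw [card_cj, h.card_V]))

/-- a 2-group containing `V` normalises `V` -/
theorem two_le {S : Subgroup G} (hS : IsPGroup 2 S) (hV : V ≤ S) : S ≤ 𝒩(V) := by
  by_contra k
  have l : S ⊓ 𝒩(V) < S := lt_of_le_of_ne inf_le_left fun e => k (e.ge.trans inf_le_right)
  obtain ⟨x, ⟨a, b⟩, c⟩ := SetLike.exists_of_lt (lt_inf_normalizer_of_isPGroup hS l)
  exact c ⟨a, h.wc hu ((cj_le_of_le (le_inf hV le_normalizer) b).trans inf_le_right)⟩

theorem syl : IsSylowIn 2 h.T ⊤ := isSylowIn_of_maximal le_top h.sylT.isPGroup fun _ a b _ =>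
  (h.sylT.eq_of_le a b (h.two_le hu a (h.V_le_T.trans b)))

/-- `N` controls the fusion of subsets of `V` -/
theorem fuse (X : Set G) (hX : ∀ x ∈ X, x ∈ V) {g : G} (hg : ∀ x ∈ X, g * x * g⁻¹ ∈ V) :
    ∃ n ∈ 𝒩(V), ∀ x ∈ X, g * x * g⁻¹ = n * x * n⁻¹ := by
  have pV : IsPGroup 2 V := h.sylT.isPGroup.to_le h.V_le_T
  obtain ⟨S, hS, k⟩ := exists_isSylowIn_ge (H := centralizer X) pV fun y hy x hx => h.comm (hX x hx) hy
  obtain ⟨c, hc, k2⟩ := hS.exists_conj_le (U := cj g⁻¹ V) (pV.map _) fun y hy x hx => by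
    have := h.comm (hg x hx) (mem_cj.1 hy)
    rw [inv_inv, conj_mul, conj_mul] at this
    simpa using this
  have m : c * g⁻¹ ∈ 𝒩(V) := h.wc hu (by rw [cj_mul]; exact k2.trans (h.two_le hu hS.isPGroup k))
  refine ⟨_, inv_mem m, fun x hx => ?_⟩
  rw [mul_inv_rev, inv_inv, mul_assoc g c⁻¹, ← inv_mem hc x hx]; group

theorem fuse1 {x g : G} (hx : x ∈ V) (hg : g * x * g⁻¹ ∈ V) : ∃ n ∈ 𝒩(V), g * x * g⁻¹ = n * x * n⁻¹ :=
  let ⟨n, a, b⟩ := h.fuse hu {x} (fun _ e => e ▸ hx) (g := g) fun _ e => e ▸ hg; ⟨n, a, b x rfl⟩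

end MS

theorem syl_c : SYL.{u} ccols := fun _ _ _ _ _ _ h => h.syl unq_c
theorem syl_v : SYL.{u} vcols := fun _ _ _ _ _ _ h => h.syl unq_v

/-! ### The geometric form of the cocode -/

section
variable {G : Type*} [Group G] {V N : Subgroup G} {v : ℕ → G} {p : G → M24} (h : MS vcols V N v p)
include h

theorem MS.cc : StF.Cc V fun s => v (vc s) where
  ea := ⟨⟨⟨fun a b => Subtype.ext (h.comm a.2 b.2)⟩⟩, fun _ a => (pow_two _).trans (h.sq a)⟩
  card := h.card_V
  mem s := h.v_V (vc_lt s)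
  add s t := by rw [vc_symmDiff, h.v_xor (vc_lt s) (vc_lt t)]
  eq_iff hs ht := Iff.trans ⟨h.v_eq (vc_lt _) (vc_lt _), congrArg v⟩ (vc_eq_iff hs ht)
  surj _ ha := let ⟨_, a, e⟩ := h.mem_V.1 ha; let ⟨s, _, b, c, d⟩ := exists_vc a; ⟨s, b, c, d ▸ e⟩

theorem MS.acts {x : G} (hx : x ∈ N) : StF.Acts (fun s => v (vc s)) x (p x) := fun s hs =>
  let ⟨_, hP⟩ := exists_rep (p x); (h.conj hx hP (vc_lt s)).trans (congrArg v (vcols_vc hP hs))

theorem MS.conj_four {s : Finset GolayPt} (hs : s.card = 4) : ∃ n ∈ N, v (vc s) = n * v 1441 * n⁻¹ := by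
  obtain ⟨P, g, r, e⟩ := J4.exists_vcols_eq (a := 1441) (by norm_num) (vc_lt s)
    (by rw [wt_vc (by rw [hs]; decide) hs.le, hs]; decide +kernel)
  obtain ⟨n, hn, rfl⟩ := h.p_surj g
  exact ⟨n, hn, by rw [h.conj hn r (by norm_num), e]⟩

end

end CL.M11
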