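/-
Project M11, the code case: the facts on the model (`FF1`, `FF2`, `FF3`, `FUS`).
-/
import Cfsg.Agent.M11.DC
import Cfsg.Agent.M11.Unq

set_option autoImplicit false

namespace CL.M11.C

open Cfsg Subgroup MulAction CL.Spor CL.Grp CL.Even
open CL.F24 (ap all2 all2_spec ap_lt)
open CL.J4 (ap_xor ap_zero xor_ind)
open scoped commutatorElement Pointwise

universe u

/-- the code of the commutator -/
noncomputable def cm (P a : ℕ) : ℕ := Nat.xor a (ap (ccols P) a)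

theorem cm_xor (P a b : ℕ) : cm P (a ^^^ b) = cm P a ^^^ cm P b := by
  change (a ^^^ b) ^^^ ap _ (a ^^^ b) = (a ^^^ ap _ a) ^^^ (b ^^^ ap _ b)
  rw [ap_xor]; ac_rfl

theorem cm_lt (P : ℕ) {a : ℕ} (ha : a < 2048) : cm P a < 2048 := xor_lt11 ha (ccols_lt _ _)

/-- membership in `⟨z⟩` -/
def inZ (a : ℕ) : Bool := or (Nat.beq a 0) (Nat.beq a 47)

theorem inZ_iff {a : ℕ} : inZ a = true ↔ a = 0 ∨ a = 47 := by simp [inZ]

/-- the commutators with the basis are multiples of `c` as prescribed by `mW` -/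
theorem lin_W {M : List ℕ} {P c : ℕ} (h : allBelow (fun i => Nat.beq (ap M (cm P (2 ^ i))) (ap mW (2 ^ i) * c)) 11 = true) :
    ∀ a < 2048, ap M (cm P a) = ap mW a * c := by
  refine xor_ind (n := 11) ?_ (fun i hi => Nat.eq_of_beq_eq_true ((allBelow_iff _ _).1 h i hi)) fun a _ b _ h1 h2 => ?_
  · rw [show cm P 0 = 0 from (Nat.zero_xor _).trans (ap_zero _), ap_zero, ap_zero, zero_mul]
  · have k : ∀ a, ap mW a = 0 ∨ ap mW a = 1 := fun a => by
      have := ap_lt (k := 1) (l := mW) (by decide) a; omega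
    rw [cm_xor, ap_xor, ap_xor, h1, h2]
    rcases k a with e | e <;> rcases k b with f | f <;> simp [e, f]

theorem isO_cc {o : Finset GolayPt} (ho : o ∈ octads) : isO (cc o) = true := by
  rcases cw_cc ho.1 with e | e <;> have k := congrArg Finset.card e <;> rw [cw_card] at k
  · simp [isO, k, ho.2]
  · simp [isO, k, Finset.card_compl, ho.2]

variable {G : Type u} [Group G]

namespace Dat
variable (D : Dat G)

theorem all_pre {K : Subgroup M24} {lv : List (ℕ × List ℕ)} (c : SChain K lv) {f : ℕ → Bool}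
    (h : allProds f lv pone = true) {r : G} (hr : r ∈ D.ms.pre K) : ∃ P, r ∈ D.N ∧ Rep P (D.p r) ∧ f P = true :=
  let ⟨a, b⟩ := D.ms.mem_pre.1 hr; let ⟨P, k, e⟩ := c.forall_mem h _ b; ⟨P, a, k, e⟩

theorem ex_pre {K : Subgroup M24} {P : ℕ} (h : Good K P) : ∃ r ∈ D.ms.pre K, r ∈ D.N ∧ Rep P (D.p r) := by
  obtain ⟨g, hg, k⟩ := h
  obtain ⟨r, a, rfl⟩ := D.ms.p_surj g
  exact ⟨r, D.ms.mem_pre.2 ⟨a, hg⟩, a, k⟩

theorem memV {r : G} {P : ℕ} (hr : r ∈ D.N) (k : Rep P (D.p r)) : r ∈ D.V ↔ P = pone :=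
  (D.ms.p_ker hr).symm.trans k.eq_one_iff

theorem memO {r : G} {P : ℕ} (hr : r ∈ D.N) (k : Rep P (D.p r)) : r ∈ D.O ↔ fixesPts 8536111 P = true :=
  D.ms.mem_pre.trans ((and_iff_right hr).trans k.mem_fixS_iff)

theorem c_ks {r : G} {P a : ℕ} (hr : r ∈ D.N) (k : Rep P (D.p r)) (ha : a < 2048) {M : List ℕ} :
    ⁅D.v a, r⁆ ∈ D.ks M ↔ ap M (cm P a) = 0 := by rw [D.comm_v hr k ha]; exact D.v_mem_ks (cm_lt P ha)

theorem c_Z {r : G} {P a : ℕ} (hr : r ∈ D.N) (k : Rep P (D.p r)) (ha : a < 2048) :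
    ⁅D.v a, r⁆ ∈ D.Z ↔ inZ (cm P a) = true := by
  rw [D.comm_v hr k ha, inZ_iff]; exact D.v_mem_Z (cm_lt P ha)

theorem c_one {r : G} {P a : ℕ} (hr : r ∈ D.N) (k : Rep P (D.p r)) (ha : a < 2048) :
    D.v a * r = r * D.v a ↔ cm P a = 0 :=
  eq_comm.trans ((D.ms.comm_iff hr k ha).trans (eq_comm.trans Nat.xor_eq_zero_iff.symm))

theorem memB {x : G} : x ∈ D.B ↔ ∃ a ∈ BL, a < 2048 ∧ D.v a = x :=
  ⟨fun ⟨a, h, e, k⟩ => ⟨a, (mB_iff h).1 e, h, k⟩, fun ⟨a, e, h, k⟩ => ⟨a, h, (mB_iff h).2 e, k⟩⟩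

theorem memU {x : G} : x ∈ D.U ↔ ∃ a ∈ UL, a < 2048 ∧ D.v a = x :=
  ⟨fun ⟨a, h, e, k⟩ => ⟨a, (mU_iff h).1 e, h, k⟩, fun ⟨a, e, h, k⟩ => ⟨a, h, (mU_iff h).2 e, k⟩⟩

theorem card_list {K : Subgroup G} (L : Finset ℕ) (h : ∀ x, x ∈ K ↔ ∃ a ∈ L, a < 2048 ∧ D.v a = x)
    (hL : ∀ a ∈ L, a < 2048) : Nat.card K = L.card := by
  rw [← Nat.card_eq_finsetCard]
  refine (Nat.card_congr (Equiv.ofBijective (fun a : L => (⟨D.v a, (h _).2 ⟨a, a.2, hL _ a.2, rfl⟩⟩ : K))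
    ⟨fun a b e => Subtype.ext (D.ms.v_eq (hL _ a.2) (hL _ b.2) (congrArg Subtype.val e)), fun x => ?_⟩)).symm
  obtain ⟨a, m, -, e⟩ := (h _).1 x.2
  exact ⟨⟨a, m⟩, Subtype.ext e⟩

theorem pre_gen_le {S : List ℕ} {K : Subgroup G} (hS : ∀ P ∈ S, Good ⊤ P) (hV : D.V ≤ K)
    (h : ∀ P ∈ S, ∀ x ∈ D.N, Rep P (D.p x) → x ∈ K) : D.ms.pre (gen S) ≤ K := fun x hx => by
  obtain ⟨a, b⟩ := D.ms.mem_pre.1 hx
  obtain ⟨y, hy, e⟩ : D.p x ∈ (K.subgroupOf D.N).map D.ms.hom := gen_le_of (fun P hP => by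
    obtain ⟨r, -, c, k⟩ := D.ex_pre (hS P hP)
    exact ⟨⟨r, c⟩, h P hP r c k, k.m24_eq.symm⟩) b
  obtain ⟨c, hc, rfl⟩ := D.ms.p_eq y.2 a e
  exact mul_mem hy (hV (D.ms.v_V hc))

theorem p_pow {x : G} (hx : x ∈ D.N) (n : ℕ) : D.p (x ^ n) = D.p x ^ n := map_pow D.ms.hom ⟨x, hx⟩ n

theorem lift_odd {K : Subgroup M24} {P k : ℕ} (h : Good K P) (e : ppow P (2 * k + 1) = pone) :
    ∃ y ∈ D.ms.pre K, y ^ (2 * k + 1) = 1 ∧ y ∈ D.N ∧ Rep P (D.p y) := by
  obtain ⟨x, a, b, c⟩ := D.ex_pre h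
  have o : D.p x ^ (2 * k + 1) = 1 := (c.pow _).eq_one_iff.2 e
  have s := D.ms.sq ((D.ms.p_ker (pow_mem b _)).1 ((D.p_pow b _).trans o))
  refine ⟨x ^ (2 * k + 2), pow_mem a _, ?_, pow_mem b _, by rwa [D.p_pow b, pow_succ, o, one_mul]⟩
  rw [← pow_mul, show (2 * k + 2) * (2 * k + 1) = (2 * k + 1 + (2 * k + 1)) * (k + 1) by ring, pow_mul, pow_add x, s, one_pow]

theorem conj_z {n : G} (hn : n ∈ D.N) : n * D.z * n⁻¹ = D.v (cc (D.p n • oct0)) := by
  obtain ⟨P, k⟩ := exists_rep (D.p n)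
  rw [z, D.ms.conj hn k (by norm_num), ← cc_oct0, ccols_cc k oct0_mem.1]

theorem conj_of_isO {a : ℕ} (ha : a < 2048) (h : isO a = true) : ∃ n ∈ D.N, n * D.z * n⁻¹ = D.v a := by
  have m : cw a ∈ GC := cw_mem (by omega)
  obtain ⟨o, ho, e⟩ : ∃ o ∈ octads, cc o = a := by
    simp only [isO, Bool.or_eq_true, Nat.beq_eq, ← cw_card] at h
    rcases h with h | h
    · exact ⟨_, ⟨m, h⟩, cc_cw ha⟩
    · exact ⟨_, ⟨GC_compl m, by rw [Finset.card_compl, h, card_golayPt]⟩, (cc_compl m).trans (cc_cw ha)⟩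
  obtain ⟨g, k⟩ := M24_octad_trans0 ho
  obtain ⟨n, hn, k2⟩ := D.ms.p_surj g⁻¹
  exact ⟨n, hn, by rw [D.conj_z hn, k2, ← k, inv_smul_smul, e]⟩

end Dat

def hxG : List ℕ := [976448692869377735270425038196672544, 972512676110088067912772961567868960,
  984202951082164080105044112956360736, 984724508489452699215480746259449888, 111890735759189500967275039606037505,
  70399228063273750146191920654811874]

theorem hxG_good : ∀ P ∈ hxG, Good HX P :=
  chainHX.good_of_sift (good_top_of_all (by decide +kernel)) (by decide +kernel)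

theorem ff1 : FF1.{u} := fun G _ _ D => by
  have Bv : ∀ a ∈ [47, 208, 256, 592, 1088], a < 2048 ∧ D.v a ∈ D.B := fun a m => by
    have : a < 2048 ∧ a ∈ BL := by revert a; decide
    exact ⟨this.1, D.memB.2 ⟨a, this.2, this.1, rfl⟩⟩
  refine ⟨?_, by rw [D.ms.card_pre, card_stabilizer_octad oct0_mem], ?_, fun x hx => mem_norm_of_cj_le ?_,
    fun r hr => ?_, fun y hy r hr => ?_, fun b hb r hr => ?_, fun r hr n b hb e => ?_, fun x hx h => ?_,
    fun y hy h => ?_, fun r hr h => ?_, fun b hb h => ?_⟩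
  · exact (D.card_list BL.toFinset (fun x => by simpa using D.memB) (by decide)).trans (by decide)
  · rw [Dat.H, octG_eq]
    refine D.pre_gen_le octG_top (fun x hx => mem_norm_of_cj_le ?_) fun P hP x hx k => mem_norm_of_cj_le ?_
    · rintro _ ⟨b, hb, rfl⟩
      change x * b * x⁻¹ ∈ _
      rwa [D.ms.comm hx (D.ks_le _ hb), mul_inv_cancel_right]
    · rintro _ ⟨b, hb, rfl⟩
      obtain ⟨a, m, l, rfl⟩ := D.memB.1 hb
      change x * _ * x⁻¹ ∈ _
      rw [D.ms.conj hx k l, D.v_mem_ks (ccols_lt _ _)]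
      clear hb l k; revert a P; decide +kernel
  · rintro _ ⟨r, hr, rfl⟩
    obtain ⟨a, b⟩ := D.ms.mem_pre.1 hx
    obtain ⟨c, d⟩ := D.ms.mem_pre.1 hr
    refine D.ms.mem_pre.2 ⟨mul_mem (mul_mem a c) (inv_mem a), ?_⟩
    change D.p (x * r * x⁻¹) ∈ _
    rw [D.ms.p_mul (mul_mem a c) (inv_mem a), D.ms.p_mul a c, D.ms.p_inv a, KT, ← mem_stabilizer_iff.1 b, mem_fixS_smul]
    simpa [mul_assoc] using d
  · obtain ⟨c, d⟩ := D.ms.mem_pre.1 hr
    exact (D.ms.p_ker (mul_mem c c)).1 ((D.ms.p_mul c c).trans (fixS_octad_sq oct0_mem d))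
  · obtain ⟨a, l, rfl⟩ := D.ms.mem_V.1 hy
    obtain ⟨P, n, k, e⟩ := D.all_pre chainKT (f := fun P =>
      allBelow (fun i => Nat.beq (ap mB (cm P (2 ^ i))) (ap mW (2 ^ i) * 0)) 11) (by decide +kernel) hr
    exact (D.c_ks n k l).2 (lin_W e a l)
  · obtain ⟨a, m, l, rfl⟩ := D.memB.1 hb
    obtain ⟨P, n, k, e⟩ := D.all_pre chainKT (f := fun P => allL (fun a => inZ (cm P a)) BL) (by decide +kernel) hr
    exact (D.c_Z n k l).2 ((allL_iff _ _).1 e a m)
  · obtain ⟨a, m, l, rfl⟩ := D.memB.1 hb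
    obtain ⟨P, n', k, e'⟩ := D.all_pre chainKT (f := fun P => or (Nat.beq P pone) (allL (fun a =>
      or (not (Nat.beq (cm P a) 0)) (anyL (fun y => and (Nat.blt y 2048) (Nat.beq (cm P y) a)) [0, 2, 17, 19, 64, 66, 81, 83,
        389, 391, 404, 406, 453, 455, 468, 470, 640, 642, 648, 650, 768, 770, 776, 778, 1024, 1025, 1028, 1029, 1040, 1041,
        1044, 1045])) BL)) (by decide +kernel) hr
    simp only [Bool.or_eq_true, Nat.beq_eq, allL_iff, anyL_iff, Bool.and_eq_true, Nat.blt_eq, Bool.not_eq_true',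
      ← D.memV n' k, n, false_or] at e'
    obtain ⟨y, -, y1, y2⟩ := (e' a m).resolve_left (by simp [(D.c_one n' k l).1 e])
    exact ⟨_, D.ms.v_V y1, (D.comm_v n' k y1).trans (congrArg D.v y2)⟩
  · obtain ⟨P, n, k, e⟩ := D.all_pre chainP2 (f := fun P => or (fixesPts 8536111 P) (anyL (fun a =>
      not (inZ (Nat.xor a (nrm (Nat.land (actMask (pf P) (enc a)) 4095))))) [208, 256, 592, 1088])) (by decide +kernel) hx
    rw [Bool.or_eq_true, anyL_iff] at e
    refine (D.memO n k).2 (e.resolve_right fun ⟨a, m, q⟩ => ?_)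
    obtain ⟨l, b⟩ := Bv a (List.mem_cons_of_mem _ m)
    have := (D.c_Z n k l).1 (h _ b)
    rw [cm, ← cc_cw l, ccols_cc k (cw_mem (by omega)), cc_cw l, cc, k.toMask_smul, toMask_cw (by omega),
      ← show _ &&& 4095 = _ % 4096 from Nat.and_two_pow_sub_one_eq_mod _ 12] at this
    exact absurd (this.symm.trans ((Bool.not_eq_true' _).mp q)) (by simp)
  · obtain ⟨a, l, rfl⟩ := D.ms.mem_V.1 hy
    have e := all2_spec (f := fun a => or (Nat.beq (ap mB a) 0) (anyL (fun P => not (inZ (cm P a))) e16G)) (k := 11)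
      (by decide +kernel) a l
    rw [Bool.or_eq_true, anyL_iff, Nat.beq_eq] at e
    refine (D.v_mem_ks l).2 (e.resolve_right fun ⟨P, m, q⟩ => ?_)
    obtain ⟨r, c, n, k⟩ := D.ex_pre (e16G_good P m)
    simp [(D.c_Z n k l).1 (h r c)] at q
  · obtain ⟨P, n, k, e⟩ := D.all_pre chainKT (f := fun P => or (Nat.beq P pone) (anyL (fun a => not (Nat.beq (cm P a) 0))
      [47, 208, 256, 592, 1088])) (by decide +kernel) hr
    rw [Bool.or_eq_true, anyL_iff, Nat.beq_eq] at e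
    refine (D.memV n k).2 (e.resolve_right fun ⟨a, m, q⟩ => ?_)
    simp [(D.c_one n k (Bv a m).1).1 (h _ (Bv a m).2)] at q
  · obtain ⟨a, m, l, rfl⟩ := D.memB.1 hb
    have e : ∀ a ∈ BL, inZ a = true ∨ ∃ P ∈ e16G, cm P a ≠ 0 := by decide +kernel
    refine (D.v_mem_Z l).2 (inZ_iff.1 ((e a m).resolve_right fun ⟨P, m, q⟩ => ?_))
    obtain ⟨r, c, n, k⟩ := D.ex_pre (e16G_good P m)
    exact q ((D.c_one n k l).1 (h r c))

theorem ff2 : FF2.{u} := fun G _ _ D => by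
  have bu : ∀ {a}, a < 2048 → (ap mB a = 0 ∨ ap mB (a ^^^ 23) = 0) → D.v a ∈ D.B ∨ D.v a * D.u ∈ D.B := fun l k => by
    rwa [Dat.u, ← D.ms.v_xor l (by norm_num), D.v_mem_ks l, D.v_mem_ks (xor_lt11 l (by norm_num))]
  have w : ∀ r ∈ D.R, ∃ P c, r ∈ D.N ∧ Rep P (D.p r) ∧ (c = 0 → P = pone) ∧ ∀ a < 2048, ap mU (cm P a) = ap mW a * c :=
    fun r hr => by
      obtain ⟨P, n, k, e⟩ := D.all_pre chainHX (f := fun P => and (or (not (Nat.beq (ap mU (cm P 2)) 0)) (Nat.beq P pone))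
        (allBelow (fun i => Nat.beq (ap mU (cm P (2 ^ i))) (ap mW (2 ^ i) * ap mU (cm P 2))) 11)) (by decide +kernel) hr
      rw [Bool.and_eq_true] at e
      exact ⟨P, _, n, k, fun c => by simpa [c] using e.1, lin_W e.2⟩
  refine ⟨fun x hx => ?_, fun x hx => ?_, ?_, ?_, fun y hy r hr => ?_, fun y hy r hr => ?_, fun r hr h => ?_,
    fun y hy r hr n h => ?_, fun y hy h => ?_, fun y hy h => ?_⟩
  · obtain ⟨a, m, l, rfl⟩ := D.memB.1 hx
    rw [D.v_mem_ks l]; clear hx l; revert a; decide +kernel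
  · obtain ⟨a, m, l, rfl⟩ := D.memU.1 hx
    rw [D.v_mem_ks l]; clear hx l; revert a; decide +kernel
  · refine D.card_list {0, 47, 208, 255, 1552, 1599, 1728, 1775} (fun x => ⟨fun ⟨c, b⟩ => ?_, ?_⟩) (by decide)
    · obtain ⟨a, m, l, rfl⟩ := D.memB.1 c
      refine ⟨a, ?_, l, rfl⟩
      have := (mU_iff l).1 ((D.v_mem_ks l).1 b)
      clear * - m this; revert a; decide
    · rintro ⟨a, m, l, rfl⟩
      refine ⟨D.memB.2 ⟨a, ?_, l, rfl⟩, D.memU.2 ⟨a, ?_, l, rfl⟩⟩ <;> clear l <;> revert a <;> decide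
  · have e : D.O ⊓ D.R = D.ms.pre (KT ⊓ HX) := by ext; simp only [mem_inf, D.ms.mem_pre]; tauto
    rw [e, D.ms.card_pre, chainKT.card_inf_eq HX (sift levHX) fun P g k _ => chainHX.mem_iff_sift k]
    decide +kernel
  · obtain ⟨a, m, l, rfl⟩ := D.memU.1 hy
    refine D.pre_gen_le (K := centralizer {D.v a}) (good_top_of_all (by decide +kernel))
      (fun x hx => mem_centralizer_singleton_iff.2 (D.ms.comm hx (D.ms.v_V l)))
      (fun P hP x n k => mem_centralizer_singleton_iff.2 ((D.c_one n k l).2 ?_).symm) hr _ rfl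
    clear hy l k; revert a P; decide +kernel
  · obtain ⟨a, l, e, rfl⟩ := hy
    obtain ⟨P, c, n, k, -, q⟩ := w r hr
    exact (D.c_ks n k l).2 (by rw [q a l, e, zero_mul])
  · obtain ⟨P, n, k, e⟩ := D.all_pre chainHX (f := fun P => or (fixesPts 8536111 P) (anyL (fun a =>
      not (Nat.beq (ap mB (cm P a)) 0)) [1, 4, 8, 18, 34, 66, 128, 256, 512, 1026])) (by decide +kernel) hr
    rw [Bool.or_eq_true, anyL_iff] at e
    refine (D.memO n k).2 (e.resolve_right fun ⟨a, m, q⟩ => ?_)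
    obtain ⟨l, b⟩ : a < 2048 ∧ ap mW a = 0 := by clear q; revert a; decide +kernel
    simp [(D.c_ks n k l).1 (h _ ((D.v_mem_ks l).2 b))] at q
  · obtain ⟨a, l, rfl⟩ := D.ms.mem_V.1 hy
    obtain ⟨P, c, n', k, e, q⟩ := w r hr
    exact (D.v_mem_ks l).2 ((mul_eq_zero.1 ((q a l).symm.trans ((D.c_ks n' k l).1 h))).resolve_right
      fun c => n ((D.memV n' k).2 (e c)))
  · obtain ⟨a, l, e, rfl⟩ := hy
    have q := all2_spec (f := fun a => or (or (not (Nat.beq (ap mW a) 0)) (anyL (fun P => not (Nat.beq (ap mB (cm P a)) 0))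
      (hxG.drop 2))) (or (Nat.beq (ap mB a) 0) (Nat.beq (ap mB (a ^^^ 23)) 0))) (k := 11) (by decide +kernel) a l
    simp only [Bool.or_eq_true, anyL_iff, Nat.beq_eq, e, Nat.beq_refl, Bool.not_true, Bool.false_eq_true, false_or] at q
    refine bu l (q.resolve_left fun ⟨P, m, q⟩ => ?_)
    obtain ⟨r, c, n, k⟩ := D.ex_pre (hxG_good P (List.mem_of_mem_drop m))
    simp [(D.c_ks n k l).1 (h r c)] at q
  · obtain ⟨a, l, rfl⟩ := D.ms.mem_V.1 hy
    have q := all2_spec (f := fun a => or (anyL (fun P => not (inZ (cm P a))) (hxG.take 2))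
      (or (Nat.beq (ap mB a) 0) (Nat.beq (ap mB (a ^^^ 23)) 0))) (k := 11) (by decide +kernel) a l
    simp only [Bool.or_eq_true, anyL_iff, Nat.beq_eq] at q
    refine bu l (q.resolve_left fun ⟨P, m, q⟩ => ?_)
    obtain ⟨r, c, n, k⟩ := D.ex_pre (hxG_good P (List.mem_of_mem_take m))
    simp [(D.c_Z n k l).1 (h r ⟨(D.memO n k).2 (by clear q k; revert P; decide +kernel), c⟩)] at q

theorem g15_good : Good (stabilizer M24 oct0) g15 :=
  good_stab_all (S := [g15]) (good_top_of_all (by decide +kernel)) (by decide +kernel) _ (by simp)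

theorem ff3 : FF3.{u} := fun G _ _ D => by
  refine ⟨fun b hb n => ?_, fun b hb h n hn e => ?_, ⟨D.v 256, (D.v_mem_ks (by norm_num)).2 (by decide +kernel),
    fun e => absurd ((D.v_mem_ks (by norm_num)).1 e) (by decide +kernel)⟩, fun r hr r1 s hs s1 => ?_, ?_, ?_⟩
  · obtain ⟨a, m, l, rfl⟩ := D.memB.1 hb
    have e : ∀ a ∈ BL, a = 0 ∨ isO a = true := by decide +kernel
    exact D.conj_of_isO l ((e a m).resolve_left fun k => n (k ▸ D.ms.v_zero))
  · obtain ⟨a, m, l, rfl⟩ := D.memB.1 hb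
    have q : ∀ a ∈ BL, a ∈ UL ∨ isO (a ^^^ 23) = false := by decide +kernel
    rw [D.conj_z hn, Dat.u, ← D.ms.v_xor l (by norm_num)] at e
    have := isO_cc ((smul_mem_octads_iff (D.p n)).2 oct0_mem)
    rw [D.ms.v_eq (cc_lt _) (xor_lt11 l (by norm_num)) e, (q a m).resolve_left fun k => h (D.memU.2 ⟨a, k, l, rfl⟩)] at this
    exact absurd this (by simp)
  · obtain ⟨x0, r0⟩ := exists_rep_of_inM24 (P := 976448692869377735270425038196672544) (by decide +kernel)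
    have key : ∀ r ∈ D.O, r ∉ D.V → ∃ h ∈ D.H, D.p h * x0 * (D.p h)⁻¹ = D.p r := fun r hr r1 => by
      obtain ⟨P, n, k, e⟩ := D.all_pre chainKT (f := fun P => or (Nat.beq P pone) (anyBelow (fun i =>
        Nat.beq (pconj (ppow g15 i) 976448692869377735270425038196672544) P) 15)) (by decide +kernel) hr
      simp only [Bool.or_eq_true, Nat.beq_eq, anyBelow_iff, ← D.memV n k, r1, false_or] at e
      obtain ⟨i, -, e⟩ := e
      obtain ⟨h, a, b, c⟩ := D.ex_pre g15_good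
      exact ⟨h ^ i, pow_mem a _, by rw [D.p_pow b]; exact ((c.pow i).conj r0).unique (e ▸ k)⟩
    obtain ⟨a, a1, a2⟩ := key r hr r1
    obtain ⟨b, b1, b2⟩ := key s hs s1
    have m := mul_mem b1 (inv_mem a1)
    have n := D.ms.pre_le _ m
    have n1 := mul_mem n (D.ms.pre_le _ hr)
    have n2 := mul_mem n1 (inv_mem n)
    refine ⟨_, m, (D.ms.p_ker (mul_mem (inv_mem n2) (D.ms.pre_le _ hs))).1 ?_⟩
    rw [D.ms.p_mul (inv_mem n2) (D.ms.pre_le _ hs), D.ms.p_inv n2, D.ms.p_mul n1 (inv_mem n), D.ms.p_inv n,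
      D.ms.p_mul n (D.ms.pre_le _ hr), D.ms.p_mul (D.ms.pre_le _ b1) (inv_mem (D.ms.pre_le _ a1)),
      D.ms.p_inv (D.ms.pre_le _ a1), ← a2, ← b2]
    group
  · obtain ⟨y, a, b, n, k⟩ := D.lift_odd (K := stabilizer M24 oct0) (P := 607873339495528342172840902659704864) (k := 2)
      (good_stab_all (S := [_]) (good_top_of_all (by decide +kernel)) (by decide +kernel) _ (List.mem_singleton_self _))
      (by decide +kernel)
    refine ⟨y, a, b, fun r hr h => ?_, fun b hb h => ?_⟩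
    · obtain ⟨P, n', k', e⟩ := D.all_pre chainKT (f := fun P => or (Nat.beq P pone)
        (not (Nat.beq (pconj 607873339495528342172840902659704864 P) P))) (by decide +kernel) hr
      have n1 := mul_mem (mul_mem n n') (inv_mem n)
      have q := (D.ms.p_ker (mul_mem n1 (inv_mem n'))).2 h
      rw [D.ms.p_mul n1 (inv_mem n'), D.ms.p_mul (mul_mem n n') (inv_mem n), D.ms.p_mul n n', D.ms.p_inv n, D.ms.p_inv n',
        mul_inv_eq_one] at q
      exact (D.memV n' k').2 (by simpa [((k.conj k').eq_iff k').1 q] using e)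
    · obtain ⟨a, m, l, rfl⟩ := D.memB.1 hb
      have e : ∀ a ∈ BL, inZ (cm 607873339495528342172840902659704864 a) = true → inZ a = true := by decide +kernel
      rw [← inv_mem_iff, commutatorElement_inv, D.c_Z n k l] at h
      exact (D.v_mem_Z l).2 (inZ_iff.1 (e a m h))
  · obtain ⟨y, -, b, n, k⟩ := D.lift_odd (K := ⊤) (P := r23) (k := 11) (good_top (by decide +kernel)) (by decide +kernel)
    refine ⟨y, n, b, fun x hx h => ?_⟩
    obtain ⟨a, l, rfl⟩ := D.ms.mem_V.1 hx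
    have e := all2_spec (f := fun a => or (Nat.beq a 0) (not (Nat.beq (cm r23 a) 0))) (k := 11) (by decide +kernel) a l
    rw [show a = 0 by simpa [(D.c_one n k l).1 h.symm] using e, D.ms.v_zero]

theorem qe1 : QE1.{u} := fun G _ _ D f r hr => by
  by_cases r1 : r ∈ D.V
  · rw [D.ms.sq r1]; exact one_mem _
  suffices ∀ s ∈ D.O, Rep 981818691054096003685363657089320992 (D.p s) → s * s ∈ D.B by
    obtain ⟨s, a, n, k⟩ := D.ex_pre (e16G_good 981818691054096003685363657089320992 (by decide +kernel))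
    obtain ⟨h, b, c⟩ := f.m4 r hr r1 s a fun e => absurd ((D.memV n k).1 e) (by decide +kernel)
    have o := conj_mem (f.nO b) hr
    have n' := D.ms.pre_le _ o
    have q := (D.ms.p_ker (mul_mem (inv_mem n') n)).2 c
    rw [D.ms.p_mul (inv_mem n') n, D.ms.p_inv n', inv_mul_eq_one] at q
    have := conj_mem' (f.nB b) (this _ o (q ▸ k))
    rwa [show h⁻¹ * (h * r * h⁻¹ * (h * r * h⁻¹)) * h = r * r by group] at this
  intro s hs k
  have n := D.ms.pre_le _ hs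
  obtain ⟨a, l, e⟩ := D.ms.mem_V.1 (f.sqO s hs)
  obtain ⟨x, nx, kx⟩ := D.ms.lift (P := 723850447798191958351406463332060224) (by decide +kernel)
  have n1 := mul_mem (mul_mem nx n) (inv_mem nx)
  obtain ⟨y, ly, ey⟩ := D.ms.p_eq n n1 (by
    rw [D.ms.p_mul (mul_mem nx n) (inv_mem nx), D.ms.p_mul nx n, D.ms.p_inv nx]
    exact (k.eq_iff (kx.conj k)).2 (by decide +kernel))
  have c1 := (D.c_one n k l).1 (by rw [e, mul_assoc])
  have c2 : ⁅D.v a, x⁆ ∈ D.B := by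
    have := f.VO _ (D.ms.v_V ly) _ (inv_mem hs)
    rw [← inv_mem_iff, commutatorElement_inv] at this
    have q : x * (s * s) * x⁻¹ = s * s * ⁅s⁻¹, D.v y⁆ := by
      rw [← conj_mul, ey, commutatorElement_def, D.ms.v_inv ly]; group
    rwa [commutatorElement_def, D.ms.v_inv l, e, mul_assoc, mul_assoc, ← mul_assoc x, q, ← mul_assoc, ← e, D.ms.v_sq l,
      one_mul]
  have q := all2_spec (f := fun a => or (or (not (Nat.beq (cm 981818691054096003685363657089320992 a) 0))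
    (not (Nat.beq (ap mB (cm 723850447798191958351406463332060224 a)) 0))) (Nat.beq (ap mB a) 0)) (k := 11)
    (by decide +kernel) a l
  rw [← e, D.v_mem_ks l]
  simpa [c1, (D.c_ks nx kx l).1 c2] using q

theorem fus0 : FUS.{u} := fun un sy G _ _ D =>
  ⟨sy G D.V D.v D.p D.ms, fun _ => D.ms.wc un, fun _ _ ha hg => let ⟨n, a, b⟩ := D.ms.fuse1 un ha hg; ⟨n, a, b.symm⟩⟩

end CL.M11.C
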