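/-
Project M11 (S3318), the code case: `C(z)/Q` is the commutator subgroup of the orthogonal group.
-/
import Cfsg.Agent.M11.DC
import Cfsg.Agent.L10.SCQ
import Cfsg.Agent.Cls.OrthMaxSub
import Cfsg.Agent.Cls.OrthOmega
import Cfsg.Agent.Cls.OrthOrder
import Cfsg.Agent.Cls.SpOrder

set_option autoImplicit false

namespace CL.M11.C

open Cfsg Subgroup CL.Grp CL.Even QuadraticMap Module
open CL.L10 (QP QM KK F im)
open CL.Cls
open CL.Known (stabOG)

universe u

namespace Fn2

theorem fr8 : finrank F V8 = 8 := by simp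

theorem fr4 {W : Submodule F V8} (h : Nat.card W = 16) : finrank F W = 4 := by
  rw [Module.natCard_eq_pow_finrank (K := F), Nat.card_zmod] at h
  exact Nat.pow_right_injective le_rfl (h.trans (by norm_num))

end Fn2

open Fn2

theorem sb8 : SB8 := by
  intro W cW sW
  have : Finite (V8 ≃ₗ[F] V8) := DFunLike.finite _
  have nd : (polarBilin q8).Nondegenerate := nondeg_qfPlus
  have r4 := fr4 cW
  have pz := polar_eq_zero_of_singular sW
  have op : W = operp q8 W := Submodule.eq_of_le_of_finrank_eq (fun x hx w hw => pz w hw x hx) (by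
    have := finrank_add_finrank_operp nd W
    rw [fr8] at this; omega)
  obtain ⟨U, hU⟩ := W.exists_isCompl
  have rU : finrank F U = 4 := by
    have := Submodule.finrank_add_eq_of_isCompl hU
    rw [fr8] at this; omega
  let b := Module.finBasisOfFinrankEq F U rU
  have top : ∀ S : Submodule F V8, W ≤ S → (∀ i, (b i : V8) ∈ S) → ∀ x, x ∈ S := fun S h1 h2 x =>
    sup_le h1 (fun u hu => by
      have := congrArg Subtype.val (b.sum_repr ⟨u, hu⟩)
      rw [Submodule.coe_sum] at this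
      exact (show _ = u from this) ▸ S.sum_mem fun i _ => S.smul_mem _ (h2 i)) (hU.sup_eq_top.ge Submodule.mem_top)
  let res : stabOG q8 W →* (W ≃ₗ[F] W) := MonoidHom.mk' (fun g => g.1.1.ofSubmodules W W g.2) fun _ _ =>
    LinearEquiv.ext fun _ => rfl
  have fx : ∀ g : res.ker, ∀ w ∈ W, g.1.1.1 w = w := fun g w hw =>
    congrArg Subtype.val (LinearEquiv.congr_fun (MonoidHom.mem_ker.1 g.2) ⟨w, hw⟩)
  have dW : ∀ (g : res.ker) (x : V8), g.1.1.1 x - x ∈ W := fun g x => op.ge fun w hw => by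
    show polar q8 w _ = 0
    rw [polar_sub_right, ← OG.polar_app g.1.1 w x, fx g w hw, sub_self]
  let m : res.ker → Fin 4 → Fin 4 → F := fun g i j => polar q8 (g.1.1.1 (b i) - b i) (b j)
  have m0 : ∀ g i, m g i i = 0 := fun g i => by
    show polar q8 _ _ = 0
    rw [polar, sub_add_cancel, OG.map_app, sW _ (dW g _), sub_zero, sub_self]
  have ms : ∀ g i j, m g i j = - m g j i := fun g i j => by
    have e := pz _ (dW g (b i)) _ (dW g (b j))
    rw [polar_sub_right, polar_sub_left, OG.polar_app] at e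
    show polar q8 _ _ = - polar q8 _ _
    rw [polar_sub_left q8 (g.1.1.1 (b j)), polar_comm _ (g.1.1.1 (b j)), polar_comm _ (b j : V8)]
    linear_combination - e
  have ck : Nat.card res.ker ≤ 64 := by
    refine (Nat.card_le_card_of_injective (fun g (p : {p : Fin 4 × Fin 4 // p.1 < p.2}) => m g p.1.1 p.1.2)
      fun g h e => ?_).trans (by rw [Nat.card_fun, Nat.card_zmod, Nat.card_eq_fintype_card]; decide)
    have e' : ∀ i j, m g i j = m h i j := fun i j => by
      rcases lt_trichotomy i j with k | rfl | k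
      · exact congrFun e ⟨(i, j), k⟩
      · rw [m0, m0]
      · rw [ms g, ms h]; exact congrArg _ (congrFun e ⟨(j, i), k⟩)
    refine Subtype.ext (Subtype.ext (OG.ext' (top (LinearMap.eqLocus (g.1.1.1 : V8 →ₗ[F] V8) h.1.1.1)
      (fun w hw => (fx g w hw).trans (fx h w hw).symm) fun i => ?_)))
    have := nd.1 (g.1.1.1 (b i) - b i - (h.1.1.1 (b i) - b i)) (top (LinearMap.ker (polarBilin q8 _))
      (fun w hw => pz _ (W.sub_mem (dW g _) (dW h _)) w hw) fun j => by
        show polar q8 _ _ = 0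
        rw [polar_sub_left]; exact sub_eq_zero.2 (e' i j))
    exact sub_left_inj.1 (sub_eq_zero.1 this)
  have : Finite (W ≃ₗ[F] W) := DFunLike.finite _
  have cr : Nat.card res.range ≤ 20160 := (card_le_card_group _).trans (by
    rw [Sp.card_linearEquiv, r4, Nat.card_zmod]; decide)
  rw [← res.ker.card_mul_index, index_ker]
  exact Nat.mul_le_mul ck cr

theorem fn2 : FN2.{u} := by
  intro sb G _ _ D Q π ρ f w qi cQ h xe kr ⟨c, hc, cB⟩
  have : Finite (V8 ≃ₗ[F] V8) := DFunLike.finite _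
  have BQ : D.B ≤ Q := qi.inf.ge.trans inf_le_left
  have cW : Nat.card (L10.Scq.pi h D.B) = 16 := by
    have := L10.Scq.card_pi h D.zB BQ
    rw [f.cB] at this; omega
  have sW : ∀ x ∈ L10.Scq.pi h D.B, q8 x = 0 := by
    rintro _ ⟨a, ha, rfl⟩
    exact (h.q_zero ha.2).2 (D.ms.sq (D.ks_le _ ha.1))
  have HK : D.H ≤ KK D.z Q := fun x hx => ⟨mem_centralizer_singleton_iff.2 (D.mem_H.1 hx).2, qi.nH hx⟩
  have QH : Q ≤ D.H := qi.le.trans (D.O_le_T.trans D.T_le_H)
  have l : im ρ D.H ≤ stabOG q8 (L10.Scq.pi h D.B) := by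
    rintro _ ⟨x, hx, rfl⟩
    refine Known.mem_stabOG_of_le ?_
    rintro _ ⟨a, ha, rfl⟩
    rw [← h.π_conj x ha.2]
    exact (L10.Scq.mem_pi h D.zB (h.conj_mem x ha.2)).2 (conj_mem (f.nB hx) ha.1)
  have ci := L10.Scq.card_im h HK (fun c _ => kr c) le_rfl
  rw [inf_eq_right.2 QH, cQ, f.cH] at ci
  have e := eq_of_le_of_card_ge l ((sb _ cW sW).trans (by omega))
  have cK : c ∈ KK D.z Q := ⟨hc, xe.norm hc⟩
  have cl : commutator (OG q8) ≤ ρ.range := commutator_le_of_stab_singular h.nd (by rw [fr8]; omega) sW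
    (fun k => by rw [fr8, fr4 cW] at k; omega) (inf_le_left.trans (e.ge.trans (map_le_range _ _))) ⟨⟨c, cK⟩, rfl⟩
    fun k => cB (mem_norm_of_cj_le (by
      rintro _ ⟨a, ha, rfl⟩
      refine (L10.Scq.mem_pi h D.zB (h.conj_mem ⟨c, cK⟩ (BQ ha))).1 ?_
      rw [h.π_conj ⟨c, cK⟩ (BQ ha)]
      exact stabOG_app_mem k ((L10.Scq.mem_pi h D.zB (BQ ha)).2 ha)))
  have nt : ρ.range ≠ ⊤ := fun k => by
    have c1 := L10.Scq.card_im h le_rfl (fun c _ => kr c) le_rfl
    have e1 : im ρ (KK D.z Q) = ⊤ := by rw [im, subgroupOf_self, ← MonoidHom.range_eq_map, k]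
    rw [inf_eq_right.2 (QH.trans HK), cQ, e1, card_top, card_OG_qfPlus 3, ZMod.card] at c1
    have d := card_subgroup_dvd_card (KK D.z Q)
    rw [c1, ← D.T.card_mul_index, D.ms.card_T] at d
    have d2 : 2 ^ 21 * 2 ∣ 2 ^ 21 * D.T.index := Dvd.dvd.trans (by decide) d
    exact w.syl.2.2 (by rw [relIndex_top_right]; exact Nat.dvd_of_mul_dvd_mul_left (by norm_num) d2)
  have i2 := index_commutator_OG_even h.nd rfl (.inr (by rw [fr8]; omega)) (by rw [fr8]; omega)
  have := relIndex_mul_index cl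
  rw [i2] at this
  rcases (Nat.dvd_prime Nat.prime_two).1 (Dvd.intro_left _ this) with j | j
  · exact absurd (index_eq_one.1 j) nt
  · rw [j] at this
    exact le_antisymm (relIndex_eq_one.1 (by omega)) cl

end CL.M11.C
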