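/-
Project M11 (S3318), the code case: the group `Q` is extraspecial of plus type, with coordinates.
-/
import Cfsg.Agent.M11.DC
import Cfsg.Agent.Cls.QuadClass
import Cfsg.Agent.Grp.ExtraTwo

set_option autoImplicit false

namespace CL.M11.C

open Cfsg Subgroup CL.Grp CL.Even QuadraticMap
open CL.L10 (QP F)
open CL.Cls (qfPlus)
open scoped commutatorElement

universe u

namespace Qpx

/-- the squaring map as a quadratic form -/
noncomputable def qf {E V : Type*} [Group E] [AddCommGroup V] [Module (ZMod 2) V] (H : Heis 2 E V) :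
    QuadraticForm (ZMod 2) V where
  toFun := H.q
  toFun_smul a x := by
    rw [H.q_smul, smul_eq_mul, (by decide : ∀ a : ZMod 2, a * a = a)]
  exists_companion' := ⟨H.B, H.q_add_two⟩

theorem polar_qf {E V : Type*} [Group E] [AddCommGroup V] [Module (ZMod 2) V] (H : Heis 2 E V) (v w : V) :
    polar (qf H) v w = H.B v w := by
  change H.q (v + w) - H.q v - H.q w = _
  rw [H.q_add_two]; ring

/-- coordinates in an extraspecial group of order `2 ^ 9` with an elementary abelian subgroup of order 32 -/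
theorem coord {G : Type u} [Group G] [Finite G] {Q B : Subgroup G} {z : G} (hE : IsExtraspecial 2 Q)
    (cQ : Nat.card Q = 2 ^ 9) (zQ : z ∈ Q) (zz : z * z = 1) (z1 : z ≠ 1) (cz : ∀ a ∈ Q, a * z = z * a)
    (BQ : B ≤ Q) (zB : z ∈ B) (cB : Nat.card B = 32) (sq : ∀ b ∈ B, b * b = 1) : ∃ π, QP q8 z Q π := by
  classical
  obtain ⟨n, H, -, h1, -, h3, h4⟩ := extra_exists_heis_of_mem hE (z := ⟨z, zQ⟩)
    (mem_center_iff.2 fun a => Subtype.ext (cz a a.2)) fun e => z1 (congrArg Subtype.val e)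
  obtain rfl : n = 4 := by
    have := Nat.pow_right_injective le_rfl (cQ.symm.trans h4)
    omega
  have hZ : H.Z ≤ B.subgroupOf Q := by
    rw [H.Z_eq_zpowers, h1, zpowers_le]
    exact zB
  obtain ⟨e, he⟩ := CL.Cls.exists_equiv_qfPlus (Q := qf H) (m := 4)
    (CL.Cls.nondeg_iff.2 fun x hx => h3 x fun y => by rw [← polar_qf, hx]) (by simp)
    ⟨H.img (B.subgroupOf Q), by
      have := H.card_pre_eq_pow (H.img (B.subgroupOf Q))
      rw [H.pre_img_of_le hZ, Nat.card_congr (subgroupOfEquivOfLe BQ).toEquiv, cB] at this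
      have := Nat.pow_right_injective le_rfl ((show 2 ^ 5 = 32 from rfl).trans this)
      omega, by
      rintro _ ⟨b, hb, rfl⟩
      exact H.q_eq_zero_iff.2 (Subtype.ext ((pow_two (b : G)).trans (sq b hb)))⟩
  have hp : ∀ v w, polar q8 (e v) (e w) = H.B v w := fun v w => by
    rw [← polar_qf, polar, polar, ← map_add, he, he, he]
  refine ⟨fun a => if h : a ∈ Q then e (H.π ⟨a, h⟩) else 0, CL.Cls.nondeg_qfPlus, zz, z1, zQ, fun {a b} ha hb => ?_,
    fun v => ?_, fun {a} ha => ?_, fun {a} ha => cz a ha, fun {a b} ha hb => ?_, fun {a} ha => ?_⟩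
  · simp only [dif_pos ha, dif_pos hb, dif_pos (Q.mul_mem ha hb)]
    rw [← map_add, ← H.π_mul]; rfl
  · obtain ⟨a, ha⟩ := H.π_surj (e.symm v)
    exact ⟨a, a.2, by simp only [dif_pos a.2]; rw [ha, e.apply_symm_apply]⟩
  · simp only [dif_pos ha]
    rw [e.map_eq_zero_iff, H.π_eq_zero_iff]
    constructor
    · rintro ⟨s, hs⟩
      rcases (by decide : ∀ s : ZMod 2, s = 0 ∨ s = 1) s with rfl | rfl
      · exact Or.inl (congrArg Subtype.val (hs.symm.trans H.ι_zero))
      · exact Or.inr (congrArg Subtype.val (hs.symm.trans h1))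
    · rintro (rfl | rfl)
      exacts [⟨0, H.ι_zero⟩, ⟨1, h1⟩]
  · simp only [dif_pos ha, dif_pos hb]
    rw [hp, H.B_eq_zero_iff, Subtype.ext_iff]; rfl
  · simp only [dif_pos ha]
    rw [he]
    exact H.q_eq_zero_iff.trans (by rw [pow_two, Subtype.ext_iff]; rfl)

end Qpx

theorem qpx : QPX.{u} := by
  intro G _ _ D Q hM hQ
  have QN : Q ≤ 𝒩(D.V) := hQ.le.trans (D.ms.pre_le _)
  have sup : Q ⊔ D.V = D.O := le_antisymm (sup_le hQ.le (D.ms.V_le_pre _)) fun r hr => by
    obtain ⟨q, hq, h⟩ := hQ.sur r hr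
    simpa using mul_mem_sup hq h
  have cQ : Nat.card Q = 2 ^ 9 := by
    have := card_sup_mul_card_inf QN
    rw [sup, hQ.inf, hM.cB, D.ms.card_pre, card_KT, D.ms.card_V] at this
    omega
  have BQ : D.B ≤ Q := hQ.inf ▸ inf_le_left
  have zQ := BQ D.zB
  have cz : ∀ a ∈ Q, a * D.z = D.z * a := fun a ha => (D.mem_H.1 (D.T_le_H (D.O_le_T (hQ.le ha)))).2
  have cen : ∀ c ∈ Q, (∀ a ∈ Q, a * c = c * a) → c ∈ D.Z := fun c hc h => by
    have h1 : c ∈ D.V := hM.m8 c (hQ.le hc) fun b hb => h b (BQ hb)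
    refine hM.m9 c (hQ.inf ▸ ⟨hc, h1⟩) fun r hr => ?_
    obtain ⟨q, hq, hy⟩ := hQ.sur r hr
    calc c * r = c * q * (q⁻¹ * r) := by group
      _ = q * (q⁻¹ * r * c) := by rw [← h q hq, mul_assoc, D.ms.comm h1 hy]
      _ = r * c := by group
  have e : ∀ x : Q, x ∈ center Q ↔ (x : G) ∈ D.Z := fun x =>
    ⟨fun hx => cen x x.2 fun a ha => congrArg Subtype.val (mem_center_iff.1 hx ⟨a, ha⟩), fun hx =>
      mem_center_iff.2 fun a => Subtype.ext (by
        rcases D.mem_Z.1 hx with e | e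
        · simp [e]
        · simpa [e] using cz a a.2)⟩
  have hE : IsExtraspecial 2 Q := by
    refine isExtraspecial_of_center ?_ ?_ (fun c => ?_) (IsPGroup.of_card cQ)
    · have : center Q = D.Z.subgroupOf Q := Subgroup.ext e
      rw [this, Nat.card_congr (subgroupOfEquivOfLe (zpowers_le.2 zQ)).toEquiv, Nat.card_zpowers]
      exact orderOf_eq_prime ((pow_two _).trans D.zz) D.z1
    · rw [_root_.commutator_def, commutator_le]
      intro a _ b _
      have : ⁅a, b⁆ = a * a * (a⁻¹ * b * (a⁻¹ * b)) * (b * b)⁻¹ := by rw [commutatorElement_def]; group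
      rw [this]
      exact mul_mem (mul_mem ((e _).2 (hQ.sq a a.2)) ((e _).2 (hQ.sq _ (a⁻¹ * b).2)))
        (inv_mem ((e _).2 (hQ.sq b b.2)))
    · have h1 : D.v 208 ∈ Q := BQ ((D.v_mem_ks (by norm_num)).2 (by decide +kernel))
      have := (D.v_mem_Z (by norm_num)).1 (cen _ h1 fun a ha => congrArg Subtype.val (c.1.1 ⟨a, ha⟩ ⟨_, h1⟩))
      omega
  exact ⟨cQ, hE, Qpx.coord hE cQ zQ D.zz D.z1 cz BQ D.zB hM.cB fun b hb => D.ms.sq (D.ks_le _ hb)⟩

end CL.M11.C
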