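/-
Project M11 (S3318), the cocode case: coordinates of the group of order `2 ^ 13` from a hyperbolic frame.
-/
import Cfsg.Agent.Pen.D
import Cfsg.Agent.M11.Qpx

set_option autoImplicit false

namespace CL.M11.V

open Cfsg Subgroup CL.Grp QuadraticMap CL.M11.C
open CL.L10 (QP F)
open CL.Pen (q0 V0)
open scoped commutatorElement

theorem frm {G : Type*} [Group G] [Finite G] {z : G} {Q : Subgroup G} (f : Fin 12 → G) (zz : z * z = 1) (z1 : z ≠ 1)
    (zQ : z ∈ Q) (cz : ∀ a ∈ Q, a * z = z * a) (sq : ∀ a ∈ Q, a * a = 1 ∨ a * a = z) (cQ : Nat.card Q = 2 ^ 13)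
    (fQ : ∀ i, f i ∈ Q) (ff : ∀ i, f i * f i = 1) (fc : ∀ i j, f i * f j = f j * f i ↔ i.1 + j.1 ≠ 11) :
    ∃ π, QP q0 z Q π ∧ ∀ i, π (f i) = Pi.single i 1 := by
  classical
  let z' : Q := ⟨z, zQ⟩
  have hz : z' ∈ center Q := mem_center_iff.2 fun a => Subtype.ext (cz a a.2)
  have s : ∀ a : Q, a * a ∈ zpowers z' := fun a => (sq a a.2).elim
    (fun e => (Subtype.ext e : a * a = 1) ▸ one_mem _) fun e => (Subtype.ext e : a * a = z') ▸ mem_zpowers _
  have nz := normal_of_le_center' (zpowers_le.2 hz)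
  obtain ⟨d, H, h1⟩ := exists_heis_fin (p := 2) hz
    (orderOf_eq_prime (Subtype.ext ((pow_two z).trans zz)) fun e => z1 (congrArg Subtype.val e))
    (fun a b => by
      have e : ⁅a, b⁆ = a * b * (a * b) * ((b⁻¹ * (a * a)⁻¹ * b) * (b * b)⁻¹) := by
        rw [commutatorElement_def]; group
      rw [e]
      exact mul_mem (s _) (mul_mem (nz.conj_mem' _ (inv_mem (s a)) b) (inv_mem (s b))))
    fun a => pow_two a ▸ s a
  let L : V0 →ₗ[F] (Fin d → ZMod 2) := (Pi.basisFun F (Fin 12)).constr F fun i => H.π ⟨f i, fQ i⟩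
  have Li : ∀ i, L (Pi.single i 1) = H.π ⟨f i, fQ i⟩ := fun i => by
    rw [← Pi.basisFun_apply]; exact Module.Basis.constr_basis _ _ _ i
  have hq : ∀ v, Qpx.qf H (L v) = q0 v := Pen.q_ext (Q := (Qpx.qf H).comp L) (fun i => by
      rw [QuadraticMap.comp_apply, Li, show q0 (Pi.single i 1) = 0 by revert i; simp only [Pen.q0_apply]; decide]
      exact H.q_eq_zero_iff.2 (Subtype.ext ((pow_two _).trans (ff i)))) fun i j => by
    have e1 : polar ((Qpx.qf H).comp L) (Pi.single i 1) (Pi.single j 1) = H.B (H.π ⟨f i, fQ i⟩) (H.π ⟨f j, fQ j⟩) := by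
      rw [← Qpx.polar_qf, ← Li, ← Li]; simp [polar]
    have e2 : polar q0 (Pi.single i 1) (Pi.single j 1) = 0 ↔ i.1 + j.1 ≠ 11 := by
      clear e1; rw [Pen.polar_q0]; revert i j; decide
    have e3 := ((H.B_eq_zero_iff (a := ⟨f i, fQ i⟩) (b := ⟨f j, fQ j⟩)).trans Subtype.ext_iff).trans
      ((fc i j).trans e2.symm)
    rw [e1]
    revert e3
    generalize H.B _ _ = x, polar q0 _ _ = y
    revert x y; decide
  have hp : ∀ v w, H.B (L v) (L w) = polar q0 v w := fun v w => by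
    rw [← Qpx.polar_qf, polar, polar, ← map_add, hq, hq, hq]
  have iL : Function.Injective L := (injective_iff_map_eq_zero L).2 fun v e =>
    Pen.q0_nd.1 v fun w => by rw [polarBilin_apply_apply, ← hp, e, map_zero, LinearMap.zero_apply]
  let e := (LinearEquiv.ofBijective L (iL.bijective_of_nat_card_le (by
    have := H.card_eq
    rw [cQ] at this
    rw [Pen.card_V0]; omega))).symm
  have Le : ∀ x, L (e x) = x := fun x => e.symm_apply_apply x
  refine ⟨fun a => if h : a ∈ Q then e (H.π ⟨a, h⟩) else 0, ⟨Pen.q0_nd, zz, z1, zQ, fun {a b} ha hb => ?_,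
    fun v => ?_, fun {a} ha => ?_, fun {a} ha => cz a ha, fun {a b} ha hb => ?_, fun {a} ha => ?_⟩, fun i => ?_⟩
  · simp only [dif_pos ha, dif_pos hb, dif_pos (Q.mul_mem ha hb)]
    rw [← map_add, ← H.π_mul]; rfl
  · obtain ⟨a, ha⟩ := H.π_surj (e.symm v)
    exact ⟨a, a.2, by simp only [dif_pos a.2]; rw [ha, e.apply_symm_apply]⟩
  · simp only [dif_pos ha]
    rw [e.map_eq_zero_iff, H.π_eq_zero_iff]
    constructor
    · rintro ⟨s, hs⟩
      rcases (by decide : ∀ s : ZMod 2, s = 0 ∨ s = 1) s with rfl | rfl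
      · exact Or.inl (congrArg Subtype.val (hs.symm.trans H.ι_zero))
      · exact Or.inr (congrArg Subtype.val (hs.symm.trans h1))
    · rintro (rfl | rfl)
      exacts [⟨0, H.ι_zero⟩, ⟨1, h1⟩]
  · simp only [dif_pos ha, dif_pos hb]
    rw [← hp, Le, Le, H.B_eq_zero_iff, Subtype.ext_iff]; rfl
  · simp only [dif_pos ha]
    rw [← hq, Le]
    exact H.q_eq_zero_iff.trans (by rw [pow_two, Subtype.ext_iff]; rfl)
  · simp only [dif_pos (fQ i)]
    exact iL (by rw [Le, Li])

end CL.M11.V
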