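/-
Project M11 (S3318), job KEY1: a maximal counterexample to strong closure.
-/
import Cfsg.Agent.M11.DC
import Cfsg.Agent.Odd.RelProd

set_option autoImplicit false
set_option linter.unusedSectionVars false

namespace CL.M11.C

open Cfsg CL.Grp CL.Odd
open Subgroup (zpowers)
open scoped Pointwise

universe u

namespace K1

variable {G : Type*} [Group G] [Finite G] {X S V D P U W : Subgroup G} {g u y : G}

/-- `U` satisfies the claim -/
def Gd (X S D U : Subgroup G) : Prop := ∀ g ∈ X, cj g • U ≤ S → cj g • (U ⊓ D) ≤ D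

theorem tr {n : ℕ} (ih : ∀ U, U ≤ S → n < Nat.card U → Gd X S D U) (hU : U ≤ S)
    (hc : n < Nat.card U) (hg : g ∈ X) (h1 : cj g • U ≤ S) (hW : W ≤ U) : cj g • (W ⊓ D) = cj g • W ⊓ D :=
  le_antisymm (le_inf (cj_mono g inf_le_left) ((cj_mono g (inf_le_inf_right _ hW)).trans (ih U hU hc g hg h1)))
    (le_cj_iff_cj_inv_le.2 (le_inf ((cj_mono _ inf_le_left).trans (cj_inv_cj g W).le)
      ((cj_mono _ (inf_le_inf_right _ (cj_mono g hW))).trans (ih _ h1 (card_cj g U ▸ hc) g⁻¹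
        (inv_mem hg) ((cj_inv_cj g U).le.trans hU)))))

variable (h : KH X S V D)
include h

theorem se (hP : P ≤ S) (syl : IsSylowIn 2 (S ⊓ N[P]) (X ⊓ N[P]))
    (ih : ∀ U, U ≤ S → Nat.card P < Nat.card U → Gd X S D U)
    (hy : y ∈ X ⊓ N[P]) (hu : u ∈ X ⊓ N[P] ⊓ N[(P ⊓ D : Subgroup G)])
    (hu' : y⁻¹ * u * y ∈ N[(P ⊓ D : Subgroup G)]) (h1 : u ∉ P) (h2 : u * u ∈ P) : y ∈ N[(P ⊓ D : Subgroup G)] := by
  have := Fact.mk Nat.prime_two
  have sH : S ⊓ N[P] ≤ X ⊓ N[P] ⊓ N[(P ⊓ D : Subgroup G)] :=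
    le_inf syl.1 (le_norm_inf inf_le_right (inf_le_left.trans h.nD))
  have pP := h.syl.2.1.to_le hP
  have ex : ∀ u ∈ X ⊓ N[P] ⊓ N[(P ⊓ D : Subgroup G)], u * u ∈ P →
      ∃ a ∈ X ⊓ N[P] ⊓ N[(P ⊓ D : Subgroup G)], cj a • (P ⊔ zpowers u) ≤ S ⊓ N[P] := fun u hu h2 => by
    obtain ⟨k, e⟩ := pP ⟨_, h2⟩
    exact (syl.of_le sH inf_le_left).exists_conj_le (isPGroup_sup pP (CL.Even.isPGroup_zpowers (k := k + 1) (by
      rw [pow_succ', pow_mul, pow_two]; exact congrArg Subtype.val e)) (Subgroup.zpowers_le.2 hu.1.2))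
      (sup_le ((le_inf hP (le_norm_self P)).trans sH) (Subgroup.zpowers_le.2 hu))
  obtain ⟨a, ha, e1⟩ := ex u hu h2
  obtain ⟨b, hb, e2⟩ := ex (y⁻¹ * u * y)
    ⟨(mul_mem (mul_mem (inv_mem hy) hu.1) hy : _ ∈ X ⊓ N[P]), hu'⟩
    (by simpa [mul_assoc] using conj_mem_of_norm' hy.2 h2)
  rw [Subgroup.mem_inf] at ha hb
  have m := mul_mem (mul_mem hb.1 (inv_mem hy)) (inv_mem ha.1)
  have h3 : P ≤ cj a • (P ⊔ zpowers u) := (cj_eq_self ha.1.2).ge.trans (cj_mono a le_sup_left)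
  have h4 := tr ih (e1.trans inf_le_left) (by
    rw [card_cj]
    exact card_lt_card_of_lt (le_sup_left.lt_of_ne fun e => h1 (e.ge (Subgroup.mem_sup_right
      (Subgroup.mem_zpowers u))))) m.1 (by
    rw [cj_mul, cj_inv_cj, cj_mul, cj_sup y⁻¹, cj_eq_self (inv_mem hy.2), cj_zpowers, inv_inv]
    exact e2.trans inf_le_left) h3
  rw [cj_eq_self m.2, cj_eq_self_iff] at h4
  simpa [mul_assoc] using inv_mem (mul_mem (mul_mem (inv_mem hb.2) h4) ha.2)

theorem good (no : ∀ P, ¬ SE X S V D P) (hU : U ≤ S) : Gd X S D U := by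
  have := Fact.mk Nat.prime_two
  have hS := h.syl
  induction hn : Nat.card S - Nat.card U using Nat.strong_induction_on generalizing U with
  | _ n IH =>
  have ih : ∀ W, W ≤ S → Nat.card U < Nat.card W → Gd X S D W := fun W h2 h3 =>
    IH _ (by have := Subgroup.card_le_of_le h2; omega) h2 rfl
  by_cases h0 : V ≤ U
  · exact fun g hg h1 => (cj_mono g inf_le_right).trans
      (cj_eq_self (h.nn ⟨hg, h.wc g hg ((cj_mono g h0).trans h1)⟩)).le
  have nq : ∀ g ∈ X, ¬ V ≤ cj g • U := fun g hg e => h0 (by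
    have h1 := le_cj_iff_cj_inv_le.1 e
    rwa [cj_eq_self (h.wc _ (inv_mem hg) (h1.trans hU))] at h1)
  obtain ⟨T, hT, h1⟩ := exists_isSylowIn_ge (hS.2.1.to_le hU) (le_inf (hU.trans hS.1) (le_norm_self U))
  obtain ⟨x, hx, h2⟩ := hS.exists_conj_le hT.2.1 (hT.1.trans inf_le_left)
  have h3 : IsSylowIn 2 (cj x • T) (X ⊓ N[cj x • U]) := by
    have := hT.conj_smul x
    rwa [cj_inf, cj_eq_self_of_mem hx, cj_normalizer] at this
  have syl : IsSylowIn 2 (S ⊓ N[cj x • U]) (X ⊓ N[cj x • U]) :=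
    h3.eq_of_le hS.2.1.to_inf_left (le_inf h2 (h3.1.trans inf_le_right)) (inf_le_inf_right _ hS.1) ▸ h3
  have ex : ∀ g ∈ X, cj g • U ≤ S → ∃ y ∈ X, cj y • U = cj x • U ∧
      cj (y * g⁻¹) • (cj g • U ⊓ D) = cj x • U ⊓ D := fun g hg h4 => by
    obtain ⟨a, ha, h5⟩ := syl.exists_conj_le (U := cj (x * g⁻¹) • (S ⊓ N[cj g • U]))
      (isPGroup_cj.2 hS.2.1.to_inf_left) (by
        rw [cj_inf, cj_normalizer, ← cj_mul, inv_mul_cancel_right]
        exact inf_le_inf_right _ (cj_le_of_mem hS.1 (mul_mem hx (inv_mem hg))))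
    have h6 := lt_inf_normalizer_of_isPGroup hS.2.1 (h4.lt_of_ne fun e => nq g hg (h.VS.trans e.ge))
    have h7 : cj (a * x) • U = cj x • U := by rw [cj_mul, cj_eq_self ha.2]
    have m : a * x ∈ X := mul_mem ha.1 hx
    refine ⟨a * x, m, h7, ?_⟩
    rw [tr ih inf_le_left (card_cj g U ▸ card_lt_card_of_lt h6) (mul_mem m (inv_mem hg))
      (by rw [mul_assoc, cj_mul]; exact h5.trans inf_le_left) h6.le, ← cj_mul, inv_mul_cancel_right, h7]
  intro g hg h4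
  obtain ⟨y, y1, y2, y3⟩ := ex 1 (one_mem _) (by rwa [cj_one])
  obtain ⟨w, w1, w2, w3⟩ := ex g hg h4
  rw [cj_one, inv_one, mul_one] at y3
  have hP := (cj_mono x h1).trans h2
  have h5 : cj (w * y⁻¹) • (cj x • U ⊓ D) = cj x • U ⊓ D := cj_eq_self (by_contra fun k => no (cj x • U)
    ⟨hP, nq x hx, fun a ha b hb c d e f => se h hP syl (fun W a c => ih W a (card_cj x U ▸ c)) ha ⟨hb, c⟩ d e f,
      w * y⁻¹, ⟨(mul_mem w1 (inv_mem y1) : _ ∈ X), cj_eq_self_iff.1 (by rw [cj_mul, ← y2, cj_inv_cj, w2, y2])⟩, k⟩)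
  conv_lhs at h5 => rw [← y3, ← cj_mul, inv_mul_cancel_right, ← inv_mul_cancel_right w g, cj_mul]
  exact (cj_inj.1 (h5.trans w3.symm)).le.trans inf_le_right

end K1

/-- (job KEY1) -/
theorem key1 : KEY1.{u} := fun _ _ _ _ _ _ _ h g hg a ha b c => by_contra fun no =>
  c (K1.good h (fun P s => no ⟨P, s⟩) (U := zpowers a) (Subgroup.zpowers_le.2 (h.DS ha)) g hg
    (by rw [cj_zpowers]; exact Subgroup.zpowers_le.2 b) (conj_mem_cj.2 ⟨Subgroup.mem_zpowers a, ha⟩))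

theorem dih : DIH.{u} := by
  intro G _ _ P a b ha hb
  classical
  have a1 := inv_eq_of_mul_eq_one_right ha
  have e : ∀ k : ℕ, a * ((a * b) ^ k)⁻¹ = (a * b) ^ k * a := fun k => by
    have : a * (a * b)⁻¹ * a⁻¹ = a * b := by
      rw [mul_inv_rev, a1, inv_eq_of_mul_eq_one_right hb, mul_assoc, mul_assoc, ha, mul_one]
    rw [← inv_pow, ← mul_inv_eq_iff_eq_mul, ← conj_pow, this]
  obtain ⟨n, m, hm, o⟩ := Nat.exists_eq_two_pow_mul_odd (orderOf_pos (a * b)).ne'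
  have h1 : (a * b) ^ (2 ^ n * m) = 1 := o ▸ pow_orderOf_eq_one _
  by_cases hs : (a * b) ^ m ∈ P
  · obtain ⟨k, hk⟩ : ∃ k, m ∣ 2 * (2 ^ n * k) + 1 := by
      obtain ⟨t, ht⟩ : m ∣ (2 * 2 ^ n) ^ m.totient - 1 := (Nat.modEq_iff_dvd' (Nat.pow_pos (by positivity))).1
        (Nat.ModEq.pow_totient (Nat.Coprime.mul_left (Nat.coprime_two_left.2 hm)
          ((Nat.coprime_two_left.2 hm).pow_left n))).symm
      obtain ⟨l, hl⟩ := Nat.exists_eq_succ_of_ne_zero (Nat.totient_pos.2 hm.pos).ne'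
      obtain ⟨r, rfl⟩ := Nat.exists_eq_succ_of_ne_zero hm.pos.ne'
      have p : 0 < (2 * 2 ^ n) ^ r.succ.totient := Nat.pow_pos (by positivity)
      refine ⟨(2 * 2 ^ n) ^ l * r, t * r + 1, ?_⟩
      have : (2 * 2 ^ n) ^ l * (2 * 2 ^ n) = r.succ * t + 1 := by
        rw [← pow_succ, ← ht, ← Nat.succ_eq_add_one l, ← hl]; omega
      rw [Nat.succ_eq_add_one] at *
      calc _ = (2 * 2 ^ n) ^ l * (2 * 2 ^ n) * r + 1 := by ring
        _ = _ := by rw [this]; ring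
    refine .inr ⟨(a * b) ^ (2 ^ n * k), Subgroup.npow_mem_zpowers _ _, hm.of_dvd_nat (orderOf_dvd_of_pow_eq_one
      (by rw [← pow_mul, mul_right_comm, pow_mul, h1, one_pow])), ?_⟩
    obtain ⟨j, hj⟩ := hk
    rw [mul_assoc _ a, e, ← mul_assoc, mul_assoc, ← pow_add, ← pow_succ, ← two_mul, hj, pow_mul]
    exact pow_mem hs j
  · have ex : ∃ i, ((a * b) ^ m) ^ 2 ^ i ∈ P := ⟨n, by rw [← pow_mul, mul_comm m, h1]; exact one_mem _⟩
    obtain ⟨i, hi⟩ := Nat.exists_eq_succ_of_ne_zero (n := Nat.find ex) fun k => hs (by simpa [k] using Nat.find_spec ex)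
    refine .inl ⟨_, pow_mem (Subgroup.npow_mem_zpowers _ m) (2 ^ i), Nat.find_min ex (by omega), ?_⟩
    have := Nat.find_spec ex
    rwa [hi, pow_succ, pow_mul, pow_two] at this

end CL.M11.C
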