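/-
Project M11 (S3318), job KEY2: the pair of conjugates of `V ⊓ P`.
-/
import Cfsg.Agent.M11.DC

set_option autoImplicit false
set_option linter.unusedSectionVars false

namespace CL.M11.C

open Cfsg Subgroup CL.Grp CL.Even
open scoped commutatorElement

universe u

namespace K2

variable {G : Type u} [Group G] [Finite G] {X S V D P R : Subgroup G} {v w a b c i x y : G}

theorem inv2 (h : a * a = 1) : a⁻¹ = a := inv_eq_of_mul_eq_one_right h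

theorem cmV (h : KH X S V D) (ha : a ∈ V) (hb : b ∈ V) : a * b = b * a := by
  rw [← inv2 (h.sq _ (mul_mem ha hb)), mul_inv_rev, inv2 (h.sq a ha), inv2 (h.sq b hb)]

theorem inv_zp (ha : a * a = 1) (hb : b * b = 1) (hc : c ∈ zpowers (a * b)) : a * c * a = c⁻¹ ∧ b * c * b = c⁻¹ := by
  obtain ⟨k, rfl⟩ := hc
  have e : (a * b)⁻¹ = b * a := by rw [mul_inv_rev, inv2 ha, inv2 hb]
  constructor
  · conv_lhs => rw [← inv2 ha, inv2 ha]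
    rw [show a * (fun k : ℤ => (a * b) ^ k) k * a = a * (a * b) ^ k * a⁻¹ by rw [inv2 ha], ← conj_zpow, ← mul_assoc, ha,
      one_mul, inv2 ha, ← e, inv_zpow]
  · rw [show b * (fun k : ℤ => (a * b) ^ k) k * b = b * (a * b) ^ k * b⁻¹ by rw [inv2 hb], ← conj_zpow, ← mul_assoc,
      mul_inv_cancel_right, ← e, inv_zpow]

theorem triv (o : Odd (orderOf w)) (h2 : i * i = 1) (hc : w * i = i * w) (e : ⁅w, x⁆ = i) : i = 1 := by
  have e1 : w * x = i * x * w := by rw [← e, commutatorElement_def]; group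
  have k : ∀ n : ℕ, w ^ n * x = i ^ n * x * w ^ n := fun n => by
    induction n with
    | zero => simp
    | succ n ih =>
      rw [pow_succ', mul_assoc, ih, ← mul_assoc, ← mul_assoc, (Commute.pow_right (hc : Commute w i) n).eq,
        mul_assoc _ w, e1, pow_succ]
      simp only [mul_assoc]
  obtain ⟨m, hm⟩ := o
  have := k (orderOf w)
  rw [pow_orderOf_eq_one, one_mul, mul_one, hm, pow_succ, pow_mul, pow_two, h2, one_pow, one_mul] at this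
  exact mul_eq_right.1 this.symm

/-- the elements which centralise `A` modulo `R` -/
def Sg (A : Set G) (R : Subgroup G) : Subgroup G where
  carrier := {c | c ∈ 𝒩(R) ∧ ∀ x ∈ A, ⁅c, x⁆ ∈ R}
  one_mem' := ⟨one_mem _, fun x _ => by simp⟩
  mul_mem' := fun {c d} hc hd => ⟨mul_mem hc.1 hd.1, fun x hx => by
    have := mul_mem (conj_mem hc.1 (hd.2 x hx)) (hc.2 x hx)
    simpa only [commutatorElement_def, mul_inv_rev, mul_assoc, inv_mul_cancel_left] using this⟩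
  inv_mem' := fun {c} hc => ⟨inv_mem hc.1, fun x hx => by
    have := conj_mem' hc.1 (inv_mem (hc.2 x hx))
    simpa only [commutatorElement_def, mul_inv_rev, mul_assoc, inv_mul_cancel_left, inv_inv, inv_mul_cancel,
      mul_one] using this⟩

theorem mem_Sg (hR : R ≤ P) (h : ∀ x ∈ P, ⁅c, x⁆ ∈ R) : c ∈ Sg (P : Set G) R :=
  ⟨mem_norm_of_cj_le (by
    rintro _ ⟨r, hr, rfl⟩
    simpa [commutatorElement_def] using mul_mem (h r (hR hr)) hr), h⟩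

variable (h : KH X S V D)
include h

theorem cP (hP : P ≤ S) (hy : y ∈ V) (hn : y ∈ 𝒩(P)) (hx : x ∈ P) : ⁅y, x⁆ ∈ V ⊓ P :=
  ⟨by simpa [commutatorElement_def, mul_assoc] using mul_mem hy (conj_mem (h.nV (hP hx)) (inv_mem hy)),
    P.mul_mem (conj_mem hn hx) (P.inv_mem hx)⟩

theorem l4 (dh : DIH.{u}) (s : SE X S V D P) (ha : a ∈ V) (hn : a ∈ 𝒩(P)) (aP : a ∉ P) (hb : b ∈ X ⊓ 𝒩(P))
    (b2 : b * b = 1) (bM : b ∉ 𝒩(P ⊓ D)) : ∃ w ∈ zpowers (a * b), KA X S V D P a w := by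
  have a2 := h.sq a ha
  have aX : a ∈ X ⊓ 𝒩(P) := ⟨h.syl.le (h.VS ha), hn⟩
  have pM : P ≤ 𝒩(P ⊓ D) := le_norm_inf le_normalizer (s.PS.trans h.nD)
  have aM : a ∈ 𝒩(P ⊓ D) := le_norm_inf (L := V ⊓ 𝒩(P)) inf_le_right (inf_le_left.trans (h.VS.trans h.nD)) ⟨ha, hn⟩
  have zp : zpowers (a * b) ≤ X ⊓ 𝒩(P) := zpowers_le.2 (mul_mem aX hb)
  rcases dh G P a b a2 b2 with ⟨c, hc, c1, c2⟩ | ⟨w, hw, o, e⟩
  · obtain ⟨e1, e2⟩ := inv_zp a2 b2 hc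
    have cM := s.se c (zp hc) a aX aM (by
      rw [← e1, mul_assoc (a * c), a2, mul_one, mul_assoc]; exact mul_mem aM (pM c2)) aP (a2 ▸ one_mem _)
    exact (bM (s.se b hb c (zp hc) cM (by rw [inv2 b2, e2]; exact inv_mem cM) c1 c2)).elim
  · exact ⟨w, hw, s.PS, ha, aP, hn, (zp hw).1, (zp hw).2, o, (inv_zp a2 b2 hw).1, fun k => bM
      ((mul_mem_cancel_left (mul_mem (mul_mem k aM) (inv_mem k))).1 (pM e))⟩

variable (k : KA X S V D P v w)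
include k

theorem mem_of {K : Subgroup G} (h1 : v ∈ K) (h2 : w * v * w⁻¹ ∈ K) : w ∈ K :=
  mem_of_pow_mem_of_coprime (n := 2) (Nat.coprime_two_right.2 k.odd) (by
    have e : w * v * w⁻¹ * v = w ^ 2 := by
      rw [← k.inv, pow_two, ← mul_assoc, ← mul_assoc, mul_assoc w v v, h.sq v k.vV, mul_one, mul_assoc _ v v,
        h.sq v k.vV, mul_one]
    exact e ▸ mul_mem h2 h1)

omit h in
theorem JP : cj w (V ⊓ P) ≤ P := cj_le_of_le inf_le_right k.wN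

theorem RP : (V ⊓ P) ⊔ cj w (V ⊓ P) ≤ P := sup_le inf_le_right (JP k)

theorem cJ (hx : x ∈ cj w (V ⊓ P)) : w * v * w⁻¹ * x = x * (w * v * w⁻¹) := by
  obtain ⟨x, hx, rfl⟩ := hx
  change w * v * w⁻¹ * (w * x * w⁻¹) = w * x * w⁻¹ * (w * v * w⁻¹)
  rw [conj_mul, conj_mul, cmV h k.vV hx.1]

theorem cI (hy : y ∈ V) : y ∈ 𝒞(V ⊓ P ⊓ cj w (V ⊓ P)) := fun _ hi => cmV h hi.1.1 hy

theorem cI' : w * v * w⁻¹ ∈ 𝒞(V ⊓ P ⊓ cj w (V ⊓ P)) := fun _ hi => (cJ h k hi.2).symm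

theorem sR (hy : y ∈ V) (hn : y ∈ 𝒩(P)) : y ∈ Sg (P : Set G) ((V ⊓ P) ⊔ cj w (V ⊓ P)) :=
  mem_Sg (RP h k) fun _ hx => mem_sup_left (cP h k.PS hy hn hx)

theorem sR' : w * v * w⁻¹ ∈ Sg (P : Set G) ((V ⊓ P) ⊔ cj w (V ⊓ P)) :=
  mem_Sg (RP h k) fun x hx => mem_sup_right (by
    simpa [commutatorElement_def, mul_assoc] using conj_mem_cj w (cP h k.PS k.vV k.vN (conj_mem' k.wN hx)))

theorem sx (hy : y ∈ V) (hn : y ∈ 𝒩(P)) (hx : x ∈ cj w (V ⊓ P)) (e : ⁅x, y⁆ ∈ cj w (V ⊓ P)) :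
    y ∈ Sg {x} (V ⊓ P ⊓ cj w (V ⊓ P)) :=
  ⟨cent_le_norm _ (cI h k hy), by
    rintro _ rfl
    exact ⟨cP h k.PS hy hn (JP k hx), by rw [← commutatorElement_inv]; exact Subgroup.inv_mem _ e⟩⟩

theorem sx' (hx : x ∈ cj w (V ⊓ P)) : w * v * w⁻¹ ∈ Sg {x} (V ⊓ P ⊓ cj w (V ⊓ P)) :=
  ⟨cent_le_norm _ (cI' h k), by
    rintro _ rfl
    rw [commutatorElement_eq_one_iff_mul_comm.2 (cJ h k hx)]
    exact one_mem _⟩

theorem inj0 (hx : x ∈ cj w (V ⊓ P)) (e : ⁅x, v⁆ ∈ cj w (V ⊓ P)) : x ∈ V := by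
  have h1 := (inv_mem (mem_of h k (sx h k k.vV k.vN hx e) (sx' h k hx))).2 x rfl
  rw [commutatorElement_def, inv_inv] at h1
  simpa [mul_assoc] using V.mul_mem (V.inv_mem h1.1.1) (mem_cj.1 hx).1

theorem nJ : P ≤ 𝒩(cj w (V ⊓ P)) := by
  rw [← cj_norm]
  exact (cj_eq k.wN).ge.trans (cj_mono w (le_norm_inf (k.PS.trans h.nV) le_normalizer))

theorem cent (hx : x ∈ (V ⊓ P) ⊔ cj w (V ⊓ P)) (e : w * x = x * w) : x ∈ V := by
  have h1 := cP h k.PS k.vV k.vN (RP h k hx)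
  have v2 := h.sq v k.vV
  have e1 : w * v = v * w⁻¹ := by rw [← k.inv, ← mul_assoc, ← mul_assoc, v2, one_mul]
  have e2 : w⁻¹ * v = v * w := by rw [← k.inv, mul_assoc, v2, mul_one]
  have e3 : w⁻¹ * x = x * w⁻¹ := (Commute.inv_left e).eq
  have e4 : w⁻¹ * ⁅v, x⁆ * w = ⁅v, x⁆ := by
    rw [commutatorElement_def, inv2 v2, ← mul_assoc, ← mul_assoc, ← mul_assoc, e2, mul_assoc v, e, ← mul_assoc,
      mul_assoc _ w, e1, ← mul_assoc, mul_assoc _ w⁻¹, (Commute.inv_inv e).eq, ← mul_assoc, inv_mul_cancel_right]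
  have h2 : ⁅v, x⁆ ∈ cj w (V ⊓ P) := mem_cj.2 (e4.symm ▸ h1)
  obtain ⟨a, ha, b, hb, rfl⟩ := (mem_sup_nr (inf_le_right.trans (nJ h k))).1 hx
  have h3 := cP h k.PS k.vV k.vN (JP k hb)
  have e5 : ⁅v, a * b⁆ = ⁅v, b⁆ := by
    have : ⁅v, a * b⁆ = ⁅v, a⁆ * (a * ⁅v, b⁆ * a⁻¹) := by simp only [commutatorElement_def]; group
    rw [this, commutatorElement_eq_one_iff_mul_comm.2 (cmV h k.vV ha.1), one_mul, cmV h ha.1 h3.1,
      mul_inv_cancel_right]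
  exact mul_mem ha.1 (inj0 h k hb (by rw [← commutatorElement_inv, ← e5]; exact inv_mem h2))

theorem cardR : Nat.card ((V ⊓ P) ⊔ cj w (V ⊓ P) : Subgroup G) * Nat.card (V ⊓ P ⊓ cj w (V ⊓ P) : Subgroup G) =
    Nat.card (V ⊓ P : Subgroup G) * Nat.card (V ⊓ P : Subgroup G) := by
  rw [card_sup_mul_card_inf (inf_le_right.trans (nJ h k)), card_cj]

end K2

open K2 in
/-- (job KEY2) -/
theorem key2 : KEY2.{u} := by
  intro dh G _ _ X S V D P h s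
  have := Fact.mk Nat.prime_two
  have nM : ∀ {v g}, v ∈ V → v ∈ 𝒩(P) → v ∉ P → g ∈ X ⊓ 𝒩(P) → g ∉ 𝒩(P ⊓ D) →
      g * v * g⁻¹ ∈ X ⊓ 𝒩(P) ∧ g * v * g⁻¹ * (g * v * g⁻¹) = 1 ∧ g * v * g⁻¹ ∉ 𝒩(P ⊓ D) := fun {v g} a b c d e => by
    have vX : v ∈ X ⊓ 𝒩(P) := ⟨h.syl.le (h.VS a), b⟩
    refine ⟨mul_mem (mul_mem d vX) (inv_mem d), by rw [conj_mul, h.sq v a]; simp, fun k => e (inv_mem_iff.1
      (s.se g⁻¹ (inv_mem d) v vX (le_norm_inf (L := V ⊓ 𝒩(P)) inf_le_right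
        (inf_le_left.trans (h.VS.trans h.nD)) ⟨a, b⟩) (by rwa [inv_inv]) c (h.sq v a ▸ one_mem _)))⟩
  have ex : ∃ x : G × G, KA X S V D P x.1 x.2 := by
    obtain ⟨g, hg, g1⟩ := s.ex
    obtain ⟨x, hx, x1⟩ := SetLike.exists_of_lt (lt_inf_normalizer_of_isPGroup
      (h.syl.isPGroup.to_le (sup_le s.PS h.VS)) (le_sup_left.lt_of_ne fun e => s.VP (le_sup_right.trans e.ge)))
    obtain ⟨a, ha, v, hv, rfl⟩ := (mem_sup_nr (s.PS.trans h.nV)).1 hx.1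
    have v1 : v ∈ 𝒩(P) := (mul_mem_cancel_left (le_normalizer ha)).1 hx.2
    have v2 : v ∉ P := fun e => x1 (mul_mem ha e)
    obtain ⟨b1, b2, b3⟩ := nM hv v1 v2 hg g1
    obtain ⟨w, -, k⟩ := l4 h dh s hv v1 v2 b1 b2 b3
    exact ⟨(v, w), k⟩
  obtain ⟨⟨v, w⟩, k, mx⟩ := Set.exists_max_image {x : G × G | KA X S V D P x.1 x.2}
    (fun x => Nat.card (V ⊓ P ⊓ cj x.2 (V ⊓ P) : Subgroup G)) (Set.toFinite _) ex
  replace k : KA X S V D P v w := k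
  refine ⟨v, w, k, fun i a b => (mem_of h k (cI h k k.vV) (cI' h k) i ⟨⟨a, JP k b⟩, b⟩).symm,
    (mem_of h k (sR h k k.vV k.vN) (sR' h k)).2, fun y a b c x hx e => ?_⟩
  obtain ⟨b1, b2, b3⟩ := nM k.vV k.vN k.vP ⟨k.wX, k.wN⟩ k.nD
  obtain ⟨w2, hw, k2⟩ := l4 h dh s a b c b1 b2 b3
  have m : ∀ {K : Subgroup G}, y ∈ K → w * v * w⁻¹ ∈ K → w2 ∈ K := fun p q => zpowers_le.2 (mul_mem p q) hw
  have c1 := m (cI h k a) (cI' h k)
  have e1 : V ⊓ P ⊓ cj w (V ⊓ P) = V ⊓ P ⊓ cj w2 (V ⊓ P) := Subgroup.eq_of_le_of_card_ge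
    (fun i hi => ⟨hi.1, conj_eq_of_mem c1 hi ▸ conj_mem_cj w2 hi.1⟩) (mx (y, w2) k2)
  have e2 : (V ⊓ P) ⊔ cj w2 (V ⊓ P) = (V ⊓ P) ⊔ cj w (V ⊓ P) := Subgroup.eq_of_le_of_card_ge
    (sup_le le_sup_left (cj_le_of_le le_sup_left (m (sR h k a b) (sR' h k)).1)) (by
      have := (cardR h k).trans (cardR h k2).symm
      rw [e1] at this
      exact (Nat.eq_of_mul_eq_mul_right Nat.card_pos this).le)
  have c2 := (m (sx h k a b hx e) (sx' h k hx)).2 x rfl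
  exact cent h k2 (e2.ge (mem_sup_right hx)) (commutatorElement_eq_one_iff_mul_comm.1
    (triv k2.odd (h.sq _ c2.1.1) (comm_of_mem c1 c2).symm rfl))

end CL.M11.C
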