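/-
Project M11 (S3318), code case: the steps KEY3 (a central element of `J` modulo `V`) and FUS (weak closure, fusion).
-/
import Cfsg.Agent.M11.DC
import Cfsg.Agent.Even.Amb2
import Cfsg.Agent.Grp.PGroupSCN

set_option autoImplicit false

namespace CL.M11.C

open Cfsg Subgroup CL.Grp CL.Even
open scoped commutatorElement Pointwise

universe u

namespace Key3

variable {G : Type*} [Group G] {X S V D P : Subgroup G} {v w : G}

theorem comm_of_sq (h : ∀ a ∈ V, a * a = 1) {a b : G} (ha : a ∈ V) (hb : b ∈ V) : a * b = b * a := by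
  have h1 := inv_eq_of_mul_eq_one_left (h _ (mul_mem ha hb))
  rw [mul_inv_rev, inv_eq_of_mul_eq_one_left (h a ha), inv_eq_of_mul_eq_one_left (h b hb)] at h1
  exact h1.symm

theorem comm_mem_right {J : Subgroup G} {y x : G} (hy : y ∈ 𝒩(J)) (hx : x ∈ J) : ⁅y, x⁆ ∈ J :=
  mul_mem (conj_mem hy hx) (inv_mem hx)

theorem comm_mem_left {J : Subgroup G} {y x : G} (hy : y ∈ 𝒩(J)) (hx : x ∈ J) : ⁅x, y⁆ ∈ J := by
  rw [← commutatorElement_inv]
  exact inv_mem (comm_mem_right hy hx)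

theorem JP (k : KB X S V D P v w) : cj w (V ⊓ P) ≤ P := cj_le_of_le inf_le_right k.wN

theorem nJ (h : KH X S V D) (k : KB X S V D P v w) : P ≤ 𝒩(cj w (V ⊓ P)) := fun p hp => by
  rw [← cj_norm, mem_cj]
  exact le_norm_inf (k.PS.trans h.nV) (le_norm_of_le le_rfl) (conj_mem' k.wN hp)

theorem not_le [Finite G] (h : KH X S V D) (k : KB X S V D P v w) : ¬ cj w (V ⊓ P) ≤ V := fun hle => by
  have e : cj w (V ⊓ P) = V ⊓ P := cj_eq (mem_norm_of_cj_le (le_inf hle (JP k)))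
  have hc : w ^ 2 ∈ 𝒞(P) := fun x hx => by
    have hi := k.wR x hx
    rw [e, sup_idem] at hi
    have h1 := k.wI _ hi.1 (e.symm ▸ hi)
    have h2 := h.sq _ hi.1
    have h3 : w * x = ⁅w, x⁆ * x * w := by rw [commutatorElement_def]; group
    calc x * w ^ 2 = ⁅w, x⁆ * (⁅w, x⁆ * x * w) * w := by
          rw [mul_assoc ⁅w, x⁆ x, ← mul_assoc ⁅w, x⁆, h2, one_mul, sq, mul_assoc]
      _ = w * (⁅w, x⁆ * x * w) := by rw [← h3, ← mul_assoc ⁅w, x⁆, ← h1, mul_assoc w, mul_assoc w, ← h3]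
      _ = w ^ 2 * x := by rw [← h3, sq, mul_assoc]
  exact k.nD (cent_le_norm _ (cent_mono inf_le_left
    (mem_of_pow_mem_of_coprime (Nat.coprime_two_right.2 k.odd) hc)))

/-- The elements `y` of `V` with `[y, t] ∈ J`. -/
def Y (J : Subgroup G) {t : G} (h : ∀ a ∈ V, a * a = 1) (ht : t ∈ 𝒩(V)) : Subgroup G where
  carrier := {y | y ∈ V ∧ ⁅y, t⁆ ∈ J}
  one_mem' := ⟨one_mem _, by rw [commutatorElement_one_left]; exact one_mem _⟩
  mul_mem' := by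
    rintro a b ⟨ha, ha'⟩ ⟨hb, hb'⟩
    refine ⟨mul_mem ha hb, ?_⟩
    have e : ⁅a * b, t⁆ = a * ⁅b, t⁆ * a⁻¹ * ⁅a, t⁆ := by simp only [commutatorElement_def]; group
    rw [e, comm_of_sq h ha (comm_mem_left ht hb), mul_inv_cancel_right]
    exact mul_mem hb' ha'
  inv_mem' := by
    rintro a ⟨ha, ha'⟩
    rw [inv_eq_of_mul_eq_one_left (h a ha)]
    exact ⟨ha, ha'⟩

theorem tY [Finite G] (h : KH X S V D) (k : KB X S V D P v w) {t : G} (tJ : t ∈ cj w (V ⊓ P)) (tV : t ∉ V)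
    (hc : ∀ g ∈ P, ⁅t, g⁆ ∈ V) : ∀ y ∈ V, ⁅y, t⁆ ∈ cj w (V ⊓ P) → y ∈ V ⊓ P := by
  have tN : t ∈ 𝒩(V) := h.nV (k.PS (JP k tJ))
  have YV : Y (cj w (V ⊓ P)) h.sq tN ≤ V := fun _ hy => hy.1
  suffices hs : Y (cj w (V ⊓ P)) h.sq tN ≤ P from fun y hy hy' => ⟨hy, hs ⟨hy, hy'⟩⟩
  by_contra hn
  have hp : IsPGroup 2 (P ⊔ V : Subgroup G) := h.syl.isPGroup.to_le (sup_le k.PS h.VS)
  haveI := hp.isNilpotent
  have n1 : P ≤ 𝒩(Y (cj w (V ⊓ P)) h.sq tN) := le_norm_of_cj_le fun p hp x hx => by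
    obtain ⟨hy, hy'⟩ := mem_cj.1 hx
    have pN := h.nV (k.PS hp)
    have hxV : x ∈ V := by simpa [mul_assoc] using conj_mem pN hy
    refine ⟨hxV, ?_⟩
    have hi : ⁅p⁻¹, t⁆ ∈ V := by
      rw [← commutatorElement_inv]
      exact inv_mem (hc _ (inv_mem hp))
    have e1 : ⁅x, t⁆ = p * ((p⁻¹ * x * p * ⁅p⁻¹, t⁆) * (t * (p⁻¹ * x * p)⁻¹ * t⁻¹) * ⁅p⁻¹, t⁆⁻¹) * p⁻¹ := by
      simp only [commutatorElement_def]; group
    have e2 : ⁅p⁻¹, t⁆ * (p⁻¹ * x * p) * (t * (p⁻¹ * x * p)⁻¹ * t⁻¹) = ⁅p⁻¹, t⁆ * ⁅p⁻¹ * x * p, t⁆ := by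
      simp only [commutatorElement_def]; group
    rw [e1, comm_of_sq h.sq hy hi, e2, comm_of_sq h.sq hi (comm_mem_left tN hy), mul_inv_cancel_right]
    exact conj_mem (nJ h k hp) hy'
  have n2 : V ≤ 𝒩(Y (cj w (V ⊓ P)) h.sq tN) := fun a ha =>
    cent_le_norm _ fun y hy => comm_of_sq h.sq (YV hy) ha
  obtain ⟨y, hy, yP, hy'⟩ := exists_mem_notMem_commutator_mem_in (H := P ⊔ V) (YV.trans le_sup_right)
    (sup_le n1 n2) hn
  have yN : y ∈ 𝒩(P) := mem_norm_of_cj_le fun x hx => by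
    have h1 := mul_mem (hy' _ (mem_sup_left (mem_cj.1 hx))) (mem_cj.1 hx)
    simpa [commutatorElement_def, mul_assoc] using h1
  refine tV (k.inj y hy.1 yN yP t tJ ?_)
  rw [← commutatorElement_inv]
  exact inv_mem hy.2

end Key3

open Key3 in
theorem key3 : KEY3.{u} := by
  intro G _ _ X S V D P v w h k
  have hp : IsPGroup 2 P := h.syl.isPGroup.to_le k.PS
  haveI := hp.isNilpotent
  obtain ⟨t, tJ, tV, hc⟩ := exists_mem_notMem_commutator_mem_in (JP k) (nJ h k) (not_le h k)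
  refine ⟨t, (JP k).trans k.PS, fun x hx => ?_, inf_le_left, fun x hx => ⟨hx.2, JP k hx.1⟩, (card_cj _ _).symm,
    fun y hy x hx => comm_mem_right (nJ h k hy.2) hx, tJ, tV, tY h k tJ tV hc, k.vV, fun e => k.vP e.2,
    k.inj v k.vV k.vN k.vP⟩
  have h1 := h.sq _ (mem_cj.1 hx).1
  have e : x * x = w * (w⁻¹ * x * w * (w⁻¹ * x * w)) * w⁻¹ := by group
  rw [e, h1, mul_one, mul_inv_cancel]

theorem fus : FUS.{u} := by
  intro un sy G _ _ D
  have syl := sy G D.V D.v D.p D.ms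
  have wc : ∀ g, cj g D.V ≤ D.N → g ∈ D.N := fun g hg =>
    cj_eq_iff_mem.1 (un G D.V D.N D.v D.p D.ms _ hg (fun x hx => by
      have e : x * x = g * (g⁻¹ * x * g * (g⁻¹ * x * g)) * g⁻¹ := by group
      rw [e, D.ms.sq (mem_cj.1 hx), mul_one, mul_inv_cancel]) (by rw [card_cj, D.ms.card_V]))
  refine ⟨syl, wc, fun g a ha hb => ?_⟩
  have hV : IsPGroup 2 D.V := syl.isPGroup.to_le D.ms.V_le_T
  have c1 : D.V ≤ centralizer {g * a * g⁻¹} := fun x hx => mem_centralizer_singleton_iff.2 (D.ms.comm hx hb)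
  have c2 : cj g D.V ≤ centralizer {g * a * g⁻¹} := fun x hx => mem_centralizer_singleton_iff.2 (by
    have e := D.ms.comm (mem_cj.1 hx) ha
    calc x * (g * a * g⁻¹) = g * (g⁻¹ * x * g * a) * g⁻¹ := by group
      _ = g * a * g⁻¹ * x := by rw [e]; group)
  obtain ⟨T1, hT, hVT⟩ := exists_isSylowIn_ge hV c1
  obtain ⟨c, hc, e1⟩ := syl_conj_le hT (isPGroup_cj hV g) c2
  obtain ⟨d, -, e2⟩ := syl_conj_le syl hT.isPGroup le_top
  have hd := wc d (((cj_mono d hVT).trans e2).trans D.ms.T_le)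
  have hn := wc (d * (c * g)) (by
    rw [cj_mul, cj_mul]
    exact ((cj_mono d e1).trans e2).trans D.ms.T_le)
  refine ⟨c * g, (mul_mem_cancel_left hd).1 hn, ?_⟩
  have e := mem_centralizer_singleton_iff.1 hc
  calc c * g * a * (c * g)⁻¹ = c * (g * a * g⁻¹) * c⁻¹ := by group
    _ = g * a * g⁻¹ := by rw [e, mul_inv_cancel_right]

end CL.M11.C
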