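/-
Project M11: the orbits of `M₂₄` on a faithful module of order `2 ^ 11`.
-/
import Cfsg.Agent.M11.D
import Cfsg.Agent.S1564

set_option autoImplicit false

namespace CL.M11

open Cfsg Subgroup MulAction CL.Spor
open scoped Pointwise

universe u

theorem no_index_23 (H : Subgroup M24) : Nat.card H ≠ 10644480 := fun hn => by
  obtain ⟨y, -, hP⟩ := exists_conj_ge Nat.prime_two sylIn_P2 (H := H) le_top (by rw [card_P2, hn]; norm_num)
  rw [← card_map_conj H y] at hn
  generalize H.map (MulAut.conj y).toMonoidHom = H at hP hn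
  rcases over_P2 hP hn with h | h
  · have := card_le_of_le h
    rw [card_stabilizer_octad oct0_mem, hn] at this
    omega
  have h1 : Nat.card (H ⊓ fixS (ofMask 8388608) : Subgroup M24) = 443520 := by omega
  obtain ⟨m, hm, h, -⟩ := orbit_cases (fun P hP' => (chainQ2.1 P hP').mono (Q2_le_inf hP)) inf_le_right h1
    [0, 1, 3, 4, 23] 1 [6, 7, 147502, 147503, 8241110, 8388606] (by decide +kernel)
  have h2 := card_le_of_le (le_inf h inf_le_right)
  simp only [List.mem_cons, List.not_mem_nil, or_false] at hm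
  rcases hm with rfl | rfl | rfl | rfl | rfl | rfl
  · have := h2.trans ub_6; omega
  · have := h2.trans ub_7; omega
  · have := h2.trans ub_hex; omega
  · have := (card_le_of_le (St_oct inf_le_right h)).trans ub_oct; omega
  · have := h2.trans ub_18; omega
  have h3 : H ⊓ fixS (ofMask 8388608) ≤ stabilizer M24 (gPt 23) ⊓ stabilizer M24 (gPt 0) := fun g hg => by
    have a : g • gPt 23 = gPt 23 := (fixS_23 ▸ hg.2 :)
    refine ⟨a, by_contra fun b => ?_⟩
    have c : g • gPt 0 ∈ ofMask 8388606 := by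
      have d : g • gPt 0 ≠ gPt 23 := fun e => absurd (smul_left_cancel g (e.trans a.symm)) (by decide +kernel)
      have : ∀ q, q ≠ gPt 0 → q ≠ gPt 23 → q ∈ ofMask 8388606 := by decide +kernel
      exact this _ b d
    exact absurd ((smul_mem_iff_of_smul_eq (h hg) _).1 c) (by decide +kernel)
  have h4 := eq_of_le_of_card_ge h3 (by rw [card_M22', h1])
  have rg := rep_m24 (P := 107058976088544323713985472033676289) (by decide +kernel)
  have rm := rep_m24 (P := 960950546255378902025880382500866528) (by decide +kernel)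
  have a : m24 107058976088544323713985472033676289 ∈ H := hP (chainP2.1 _ (by decide +kernel)).m24_mem
  have b : _ ∈ H := (h4.ge (x := m24 960950546255378902025880382500866528)
    ⟨(rm.smul_gPt (by norm_num)).trans (by decide +kernel), (rm.smul_gPt (by norm_num)).trans (by decide +kernel)⟩).1
  have c := (h3 ⟨H.mul_mem (H.mul_mem a b) (H.inv_mem a), (rg.conj rm).mem_fixS_iff.2 (by decide +kernel)⟩).2
  exact absurd (((rg.conj rm).smul_gPt (k := 0) (by norm_num)).symm.trans c) (by decide +kernel)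

/-- a faithful module of order `2 ^ 11` -/
structure MH (M : Type u) [AddCommGroup M] [DistribMulAction M24 M] : Prop where
  card : Nat.card M = 2048
  two : ∀ x : M, x + x = 0
  ff : ∀ g : M24, (∀ x : M, g • x = x) → g = 1

variable {M : Type u} [AddCommGroup M] [DistribMulAction M24 M]

theorem idx_mul (w : M) : (stabilizer M24 w).index * Nat.card (stabilizer M24 w) = 244823040 := by
  rw [index_mul_card, card_M24]

theorem idx_orb {v w : M} (h : w ∈ orbit M24 v) : (stabilizer M24 w).index = (stabilizer M24 v).index := by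
  rw [index_stabilizer, index_stabilizer, orbit_eq_iff.2 h]

theorem conj_fix {p : ℕ} (hp : p.Prime) {P : Subgroup M24} (hP : Fus.SylIn p P ⊤) (hc : Nat.card P = p) {w : M}
    (hw : ¬ p ∣ (stabilizer M24 w).index) : ∃ y : M24, P ≤ stabilizer M24 (y • w) := by
  have a : p ∣ (stabilizer M24 w).index * Nat.card (stabilizer M24 w) := by
    rw [index_mul_card, ← hc]; exact card_subgroup_dvd_card P
  obtain ⟨y, -, k⟩ := exists_conj_ge hp hP (H := stabilizer M24 w) le_top (hc ▸ (hp.dvd_mul.1 a).resolve_left hw)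
  exact ⟨y, by rwa [stabilizer_smul_eq_stabilizer_map_conj]⟩

namespace MH
variable (h : MH M)
include h

theorem fin : Finite M := Nat.finite_of_card_ne_zero (by rw [h.card]; norm_num)

theorem fix_card {p : ℕ} (hp : p.Prime) {P : Subgroup M24} (hP : IsPGroup p P) (hn : Nat.card P ≠ 1) :
    ∃ k < 11, Nat.card (fixedPoints P M) = 2 ^ k ∧ 2048 ≡ 2 ^ k [MOD p] := by
  have := h.fin
  have := Fact.mk hp
  have a := AddSubgroup.card_addSubgroup_dvd_card (FixedPoints.addSubgroup P M)
  rw [h.card, show 2048 = 2 ^ 11 from rfl, Nat.dvd_prime_pow Nat.prime_two] at a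
  obtain ⟨k, hk, e⟩ := a
  have b := hP.card_modEq_card_fixedPoints M
  rw [h.card] at b
  refine ⟨k, lt_of_le_of_ne hk fun e1 => hn ?_, e, e ▸ b⟩
  have c := AddSubgroup.eq_top_of_card_eq (FixedPoints.addSubgroup P M) (by rw [e, e1, h.card]; rfl)
  exact card_eq_one.2 (eq_bot_iff.2 fun g hg => h.ff g fun x => (c.ge trivial : x ∈ fixedPoints P M) ⟨g, hg⟩)

theorem dvd23 {w : M} (hw : w ≠ 0) : 23 ∣ (stabilizer M24 w).index := by
  by_contra k
  have c : Nat.card (zpowers (m24 r23)) = 23 := by rw [Nat.card_zpowers, orderOf_r23]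
  obtain ⟨y, hy⟩ := conj_fix (by norm_num) sylIn_r23 c k
  obtain ⟨k, hk, e, m⟩ := h.fix_card (by norm_num) sylIn_r23.isPGroup (by rw [c]; norm_num)
  have k0 : k = 0 := by revert m; interval_cases k <;> decide
  rw [k0, pow_zero, Nat.card_eq_one_iff_unique] at e
  have := congrArg Subtype.val (e.1.elim ⟨y • w, fun g => hy g.2⟩ ⟨0, fun g => smul_zero g⟩)
  exact hw ((smul_eq_zero_iff_eq y).1 this)

theorem ex11 : ∃ v : M, v ≠ 0 ∧ zpowers (m24 a11) ≤ stabilizer M24 v ∧
    ∀ w : M, w ≠ 0 → zpowers (m24 a11) ≤ stabilizer M24 w → w = v := by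
  obtain ⟨k, hk, e, m⟩ := h.fix_card (by norm_num) sylIn_a11.isPGroup (by rw [card_a11]; norm_num)
  have k1 : k = 1 := by revert m; interval_cases k <;> decide
  rw [k1, pow_one, Nat.card_eq_two_iff' ⟨0, fun g => smul_zero g⟩] at e
  obtain ⟨⟨v, hv⟩, a, b⟩ := e
  exact ⟨v, fun e => a (Subtype.ext e), fun g hg => hv ⟨g, hg⟩, fun w hw k =>
    congrArg Subtype.val (b ⟨w, fun g => k g.2⟩ fun e => hw (congrArg Subtype.val e))⟩

theorem orb_le {v w : M} (hv : v ≠ 0) (hw : w ≠ 0) (hn : w ∉ orbit M24 v) :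
    (stabilizer M24 v).index + (stabilizer M24 w).index ≤ 2047 ∧
    ((stabilizer M24 v).index + (stabilizer M24 w).index = 2047 → ∀ x : M, x ≠ 0 → x ∈ orbit M24 v ∨ x ∈ orbit M24 w) := by
  have := h.fin
  have s : orbit M24 v ∪ orbit M24 w ⊆ {0}ᶜ := by
    rintro _ (⟨g, rfl⟩ | ⟨g, rfl⟩) e
    exacts [hv ((smul_eq_zero_iff_eq g).1 e), hw ((smul_eq_zero_iff_eq g).1 e)]
  have c : ({0}ᶜ : Set M).ncard = 2047 := by
    have := Set.ncard_add_ncard_compl ({0} : Set M)
    rw [Set.ncard_singleton, h.card] at this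
    omega
  have d : Disjoint (orbit M24 v) (orbit M24 w) := Set.disjoint_left.2 fun x a b =>
    hn (orbit_eq_iff.2 a ▸ (orbit_eq_iff.2 b).symm ▸ mem_orbit_self w)
  rw [index_stabilizer, index_stabilizer, ← Set.ncard_union_eq d, ← c]
  exact ⟨Set.ncard_le_ncard s, fun e x hx => (Set.eq_of_subset_of_ncard_le s e.ge).ge hx⟩

theorem modA : (∃ v : M, v ≠ 0 ∧ stabilizer M24 v = stabilizer M24 duad0 ∧
      ∀ w : M, stabilizer M24 triad0 ≤ stabilizer M24 w → w = 0) ∨
    ∃ v : M, v ≠ 0 ∧ stabilizer M24 v = stabilizer M24 oct0 ∧ ∀ w : M, 6912 ∣ Nat.card (stabilizer M24 w) → w = 0 := by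
  have := h.fin
  have : Fact (Nat.Prime 11) := ⟨by norm_num⟩
  obtain ⟨v, v0, v1, v2⟩ := h.ex11
  have d11 : ∀ w : M, w ≠ 0 → w ∉ orbit M24 v → 11 ∣ (stabilizer M24 w).index := fun w hw k => by
    by_contra c
    obtain ⟨y, hy⟩ := conj_fix (by norm_num) sylIn_a11 card_a11 c
    exact k ⟨y⁻¹, by rw [← v2 _ (fun e => hw ((smul_eq_zero_iff_eq y).1 e)) hy]; exact inv_smul_smul y w⟩
  have n1 : 110 ∣ Nat.card (stabilizer M24 v) := by
    rw [← cardN11]
    refine card_dvd_of_le fun n hn => v2 _ (fun e => v0 ((smul_eq_zero_iff_eq n).1 e)) fun g hg => ?_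
    have := v1 ((mem_normalizer_iff.1 (inv_mem hn.2) g).1 hg)
    rw [mem_stabilizer_iff] at this ⊢
    conv_rhs => rw [← this]
    simp only [smul_smul]; congr 1; group
  have n2 : (stabilizer M24 v).index ≡ 1 [MOD 11] := by
    have a := sylIn_a11.isPGroup.card_modEq_card_fixedPoints (orbit M24 v)
    have b : Nat.card (fixedPoints (zpowers (m24 a11)) (orbit M24 v)) = 1 := Nat.card_eq_one_iff_exists.2
      ⟨⟨⟨v, mem_orbit_self v⟩, fun g => Subtype.ext (v1 g.2)⟩, fun ⟨⟨_, g, rfl⟩, k⟩ => Subtype.ext (Subtype.ext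
        (v2 _ (fun e => v0 ((smul_eq_zero_iff_eq g).1 e)) fun x hx => congrArg Subtype.val (k ⟨x, hx⟩)))⟩
    rwa [b, Nat.card_coe_set_eq, ← index_stabilizer] at a
  have n3 : (stabilizer M24 v).index ≤ 2048 := by rw [index_stabilizer, ← h.card]; exact Set.ncard_le_card _
  have n4 := idx_mul v
  obtain ⟨k, hk⟩ := h.dvd23 v0
  obtain ⟨c, hc⟩ := n1
  have n5 : k = 1 ∨ k = 12 ∨ k = 56 := by
    rw [hk, hc] at n4
    rw [hk] at n2 n3
    have : k ≤ 89 := by omega
    unfold Nat.ModEq at n2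
    interval_cases k <;> omega
  rcases n5 with rfl | rfl | rfl
  · exact absurd (by rw [hk] at n4; omega) (no_index_23 (stabilizer M24 v))
  · refine .inl ⟨v, v0, over_a11_276 v1 (by rw [hk] at n4; omega), fun w hw => by_contra fun w0 => ?_⟩
    have a := idx_mul w
    rcases hw.eq_or_lt with e | e
    · rw [← e, card_stabilizer_triad triad0_card, e] at a
      have := (h.orb_le v0 w0 fun k => by have := idx_orb k; omega).1
      omega
    · have := h.dvd23 w0
      rw [(Cfsg.Agent.S1564.result triad0 triad0_card).2 _ e, index_top] at this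
      omega
  · obtain ⟨k, -, e, m⟩ := h.fix_card Nat.prime_two sylIn_P2.isPGroup (by rw [card_P2]; norm_num)
    have k0 : 1 < 2 ^ k := Nat.one_lt_two_pow fun e => by rw [e] at m; exact absurd m (by decide)
    have := Finite.one_lt_card_iff_nontrivial.1 (e ▸ k0)
    obtain ⟨⟨w, hw⟩, w0⟩ := exists_ne (⟨0, fun g => smul_zero g⟩ : fixedPoints P2 M)
    have w0 : w ≠ 0 := fun e => w0 (Subtype.ext e)
    have w1 : P2 ≤ stabilizer M24 w := fun g hg => hw ⟨g, hg⟩
    have w2 := card_dvd_of_le w1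
    have w3 := idx_mul w
    rw [card_P2] at w2
    have w4 : w ∉ orbit M24 v := fun k => by rw [idx_orb k, hk] at w3; omega
    obtain ⟨w5, w6⟩ := h.orb_le v0 w0 w4
    obtain ⟨i, hi⟩ := (show Nat.Coprime 23 11 by norm_num).mul_dvd_of_dvd_of_dvd (h.dvd23 w0) (d11 w w0 w4)
    have w7 := over_P2_253 w1
    have i3 : i = 3 := by
      rw [hi] at w3
      have : i ≤ 3 := by omega
      interval_cases i <;> omega
    subst i3
    refine .inr ⟨w, w0, over_P2_759 w1 (by rw [hi] at w3; omega), fun x hx => by_contra fun x0 => ?_⟩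
    have x1 := idx_mul x
    rcases w6 (by omega) x x0 with k | k <;> rw [idx_orb k] at x1
    · rw [hk] at x1; omega
    · rw [hi] at x1; omega

end MH

end CL.M11
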