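/-
Project M11: a faithful `M₂₄`-module of order `2 ^ 11` is the code modulo the all-one word or the even cocode.
-/
import Cfsg.Agent.M11.ModA
import Cfsg.Agent.S1556
import Cfsg.Agent.S5548

set_option autoImplicit false

namespace CL.M11

open Cfsg Subgroup MulAction CL.Spor CL.Even
open CL.F24 (ap cs cs_xor)
open CL.J4 (vcols vc evn wt xor_lt12 exists_vc vc_symmDiff vc_eq_iff vc_lt vcols_vc vcols_lt)
open scoped Pointwise

universe u

variable {M : Type u} [AddCommGroup M] [DistribMulAction M24 M]

/-- coordinates -/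
structure MM (cols : ℕ → List ℕ) (j : ℕ → M) : Prop where
  lt : ∀ P a, ap (cols P) a < 2048
  add : ∀ {a b}, a < 2048 → b < 2048 → j (a ^^^ b) = j a + j b
  inj : ∀ {a}, a < 2048 → j a = 0 → a = 0
  act : ∀ {g : M24} {P}, Rep P g → ∀ {a}, a < 2048 → g • j a = j (ap (cols P) a)

theorem orbMap {X : Type} [MulAction M24 X] {x : X} {v : M} (h : stabilizer M24 v = stabilizer M24 x) :
    ∃ f : X → M, f x = v ∧ ∀ y ∈ orbit M24 x, ∀ g : M24, f (g • y) = g • f y := by
  classical
  have k : ∀ g : M24, (if h : ∃ k : M24, k • x = g • x then h.choose • v else 0) = g • v := fun g => by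
    have e : ∃ k : M24, k • x = g • x := ⟨g, rfl⟩
    have : g⁻¹ * e.choose ∈ stabilizer M24 v := by rw [h, mem_stabilizer_iff, mul_smul, e.choose_spec, inv_smul_smul]
    rw [dif_pos e, ← inv_smul_eq_iff, ← mul_smul]; exact this
  refine ⟨fun y => if h : ∃ k : M24, k • x = y then h.choose • v else 0, by simpa using k 1, ?_⟩
  rintro _ ⟨a, rfl⟩ g
  simp only [← mul_smul, k]

/-- the kernel of an equivariant map defined on the sets with `D` -/
theorem ker_sub (J : Finset GolayPt → M) (D : Finset GolayPt → Prop) (h0 : D ∅)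
    (hD : ∀ s t, D s → D t → D (symmDiff s t)) (hJ : ∀ s t, D s → D t → J (symmDiff s t) = J s + J t)
    (hg : ∀ (g : M24) s, D s → D (g • s) ∧ J (g • s) = g • J s) :
    ∃ W : Submodule (ZMod 2) (GolayPt → ZMod 2), (∀ s, wordOf s ∈ W ↔ D s ∧ J s = 0) ∧
      ∀ σ ∈ M24, ∀ w ∈ W, (fun p => w (σ.symm p)) ∈ W := by
  have z : J ∅ = 0 := by simpa using hJ ∅ ∅ h0 h0
  refine ⟨AddSubgroup.toZModSubmodule 2
    { carrier := {w | D (support₂ w) ∧ J (support₂ w) = 0}
      add_mem' := fun a b => by
        simp only [Set.mem_ofPred_eq, support₂_add]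
        exact ⟨hD _ _ a.1 b.1, by rw [hJ _ _ a.1 b.1, a.2, b.2, add_zero]⟩
      zero_mem' := by simpa [show support₂ (0 : GolayPt → ZMod 2) = ∅ by ext; simp [support₂]] using ⟨h0, z⟩
      neg_mem' := fun {w} a => by rwa [show -w = w from funext fun p => ZMod.neg_eq_self_mod_two _] },
    fun s => by simp, fun σ hσ w hw => ?_⟩
  obtain ⟨s, rfl⟩ : ∃ s, w = wordOf s := ⟨support₂ w, by simp⟩
  have k : D s ∧ J s = 0 := by simpa using hw
  have := hg ⟨σ, hσ⟩ s k.1
  rw [k.2, smul_zero] at this
  rw [← wordOf_smul]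
  simpa using this

theorem span_one {s : Finset GolayPt} (h : wordOf s ∈ Submodule.span (ZMod 2) {fun _ : GolayPt => (1 : ZMod 2)}) :
    s = ∅ ∨ s = Finset.univ := by
  obtain ⟨c, e⟩ := Submodule.mem_span_singleton.1 h
  refine (zmod2_cases c).imp (fun k => wordOf_injective ?_) fun k => wordOf_injective ?_ <;> rw [← e, k] <;> ext p <;>
    simp [wordOf]

omit [DistribMulAction M24 M] in
theorem sum_symmDiff (h2 : ∀ x : M, x + x = 0) (e : GolayPt → M) (s t : Finset GolayPt) :
    ∑ p ∈ symmDiff s t, e p = ∑ p ∈ s, e p + ∑ p ∈ t, e p := by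
  rw [← Finset.sum_inter_add_sum_sdiff s t, ← Finset.sum_inter_add_sum_sdiff t s, Finset.inter_comm t, symmDiff_def,
    Finset.sup_eq_union, Finset.sum_union disjoint_sdiff_sdiff, add_add_add_comm, h2, zero_add]

namespace MH
variable (h : MH M)
include h

theorem modD {v : M} (v0 : v ≠ 0) (v1 : stabilizer M24 v = stabilizer M24 duad0)
    (v2 : ∀ w : M, stabilizer M24 triad0 ≤ stabilizer M24 w → w = 0) : ∃ j : ℕ → M, MM vcols j := by
  classical
  have := h.fin
  obtain ⟨f, f0, hf⟩ := orbMap v1
  have o2 : ∀ {p q : GolayPt}, p ≠ q → ({p, q} : Finset GolayPt) ∈ orbit M24 duad0 := fun k =>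
    M24_exists_smul_finset (by rw [duad0_card]; norm_num) (by rw [duad0_card, Finset.card_pair k])
  let d : GolayPt → GolayPt → M := fun p q => if p = q then 0 else f {p, q}
  have dg : ∀ (g : M24) p q, g • d p q = d (g • p) (g • q) := fun g p q => by
    by_cases k : p = q
    · simp [d, k]
    · simp only [d, k, smul_left_cancel_iff, if_false, ← hf _ (o2 k), Finset.smul_finset_insert,
        Finset.smul_finset_singleton]
  have dc : ∀ p q, d p q = d q p := fun p q => by simp only [d, eq_comm (a := p), Finset.pair_comm p]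
  have d0 : ∀ p, d p p = 0 := fun p => if_pos rfl
  have t0 : d (gPt 0) (gPt 1) + d (gPt 1) (gPt 23) + d (gPt 0) (gPt 23) = 0 := v2 _ (by
    rw [triadG_eq]
    refine gen_le_of fun P hP => ?_
    have r := (triadG_top P hP).rep
    rw [mem_stabilizer_iff, smul_add, smul_add, dg, dg, dg, r.smul_gPt (by norm_num), r.smul_gPt (by norm_num),
      r.smul_gPt (by norm_num)]
    simp only [triadG, List.mem_cons, List.not_mem_nil, or_false] at hP
    rcases hP with rfl | rfl
    · rw [show pf 62882694526580885180918129462813408 0 = 0 by decide +kernel,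
        show pf 62882694526580885180918129462813408 1 = 23 by decide +kernel,
        show pf 62882694526580885180918129462813408 23 = 1 by decide +kernel, dc (gPt 23)]
      abel
    · rw [show pf 972833461011076471342664263675563009 0 = 1 by decide +kernel,
        show pf 972833461011076471342664263675563009 1 = 0 by decide +kernel,
        show pf 972833461011076471342664263675563009 23 = 23 by decide +kernel, dc (gPt 1) (gPt 0)]
      abel)
  have tr : ∀ p q r, d p q = d p r + d q r := fun p q r => by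
    by_cases a : p = q
    · rw [a, d0, h.two]
    by_cases b : p = r
    · rw [b, d0, zero_add, dc]
    by_cases c : q = r
    · rw [c, d0, add_zero]
    obtain ⟨g, g1, g2, g3⟩ := M24_trans3 (p := gPt 0) (q := gPt 1) (r := gPt 23) (by decide) (by decide) (by decide) a b c
    have := congrArg (g • ·) t0
    simp only [smul_add, dg, g1, g2, g3, smul_zero] at this
    rw [← add_zero (d p q), ← h.two (d q r + d p r), ← add_assoc, ← add_assoc (d p q), this, zero_add, add_comm]
  let J : Finset GolayPt → M := fun s => ∑ p ∈ s, d p none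
  have hJ : ∀ s t, J (symmDiff s t) = J s + J t := sum_symmDiff h.two _
  have hg : ∀ (g : M24) s, Even s.card → J (g • s) = g • J s := fun g s ⟨k, hk⟩ => by
    simp only [J, Finset.smul_sum, dg, fun p => tr p (g • none) none, Finset.sum_add_distrib, Finset.sum_const, hk,
      add_nsmul, h.two, add_zero]
    exact Finset.sum_image fun _ _ _ _ => smul_left_cancel g
  have ev : ∀ s t : Finset GolayPt, Even s.card → Even t.card → Even (symmDiff s t).card := fun s t a b => by
    have := card_symmDiff_add s t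
    rw [Nat.even_iff] at *; omega
  obtain ⟨W, hW, hI⟩ := ker_sub J (fun s => Even s.card) (by simp) ev (fun s t _ _ => hJ s t)
    fun g s k => ⟨by rwa [Finset.card_smul_finset], hg g s k⟩
  have nd : wordOf duad0 ∉ W := fun k => v0 (by
    have e : duad0 = {gPt 0, none} := by decide +kernel
    rw [← f0, ← ((hW _).1 k).2, e]
    simp [J, d, gPt_0])
  have e : W = golayCode := by
    have sm : ¬ W ≤ Submodule.span (ZMod 2) {fun _ => 1} := fun k => by
      have := Fintype.ofFinite M
      obtain ⟨y, hy⟩ := Fintype.exists_lt_card_fiber_of_mul_lt_card (n := 2)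
        (fun s : Finset GolayPt => (J s, decide (Even s.card))) (by
          rw [Fintype.card_prod, Fintype.card_finset, card_golayPt, Fintype.card_eq_nat_card, h.card]; simp)
      obtain ⟨a, b, c, ha, hb, hc, n1, n2, n3⟩ := Finset.two_lt_card_iff.1 hy
      have key : ∀ b, (J b, decide (Even b.card)) = y → a ≠ b → symmDiff a b = Finset.univ := fun b hb n => by
        have e := Prod.ext_iff.1 ((Finset.mem_filter.1 ha).2.trans hb.symm)
        refine (span_one (k ((hW _).2 ⟨?_, by rw [hJ, show J a = J b from e.1, h.two]⟩))).resolve_left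
          fun e => n (symmDiff_eq_bot.1 e)
        have := card_symmDiff_add a b
        have e2 : Even a.card ↔ Even b.card := by simpa using e.2
        simp only [Nat.even_iff] at e2 ⊢
        omega
      exact n3 (symmDiff_right_injective a
        ((key b (Finset.mem_filter.1 hb).2 n1).trans (key c (Finset.mem_filter.1 hc).2 n2).symm))
    rcases Cfsg.Agent.S5548.result W hI with k | k | k | k | k
    · exact absurd (k ▸ bot_le) sm
    · exact absurd k.le sm
    · exact k
    · exact absurd (show wordOf duad0 ∈ (W : Set _) by rw [k]; show ∑ p, _ = 0; decide +kernel) nd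
    · exact absurd (k ▸ trivial) nd
  have z : ∀ s, Even s.card → (J s = 0 ↔ s ∈ GC) := fun s k => by rw [mem_GC_iff_wordOf, ← e, hW]; simp [k]
  choose! r _ r2 _ r4 using fun a => @exists_vc a
  have jr : ∀ s, Even s.card → J (r (vc s)) = J s := fun s k => by
    have := (z _ (ev _ _ (r2 _ (vc_lt s)) k)).2 ((vc_eq_iff (r2 _ (vc_lt s)) k).1 (r4 _ (vc_lt s)))
    rw [hJ] at this
    rw [← add_zero (J _), ← h.two (J s), ← add_assoc, this, zero_add]
  refine ⟨fun a => J (r a), vcols_lt, fun {a b} ha hb => ?_, fun {a} ha k => ?_, fun {g P} hP a ha => ?_⟩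
  · rw [← hJ, ← jr _ (ev _ _ (r2 _ ha) (r2 _ hb)), vc_symmDiff, r4 _ ha, r4 _ hb]
  · rw [← r4 _ ha, vc, syn_eq_zero_iff.2 ((z _ (r2 _ ha)).1 k)]
  · rw [← hg _ _ (r2 _ ha), ← jr (g • _) (by rw [Finset.card_smul_finset]; exact r2 _ ha), ← vcols_vc hP (r2 _ ha), r4 _ ha]

omit h in
/-- derivation of octads as sums of two octads meeting in four points -/
def der (l : List (ℕ × ℕ)) : ℕ → ℕ :=
  List.rec (motive := fun _ => ℕ → ℕ) id (fun c _ ih K => ih (cond (and (and (Nat.testBit K c.1) (Nat.testBit K c.2))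
    (Nat.beq (pc24 (Nat.land (enc c.1) (enc c.2))) 4)) (Nat.lor K (Nat.shiftLeft 1 (Nat.xor c.1 c.2))) K)) l

omit h in
theorem der_spec {C : ℕ → Prop} (hC : ∀ a b, C a → C b → pc24 (enc a &&& enc b) = 4 → C (a ^^^ b)) :
    ∀ (l : List (ℕ × ℕ)) (K : ℕ), (∀ x, K.testBit x = true → C x) → ∀ x, (der l K).testBit x = true → C x
  | [], _, h => h
  | c :: l, K, h => der_spec hC l _ fun x => by
    cases e : and (and (Nat.testBit K c.1) (Nat.testBit K c.2)) (Nat.beq (pc24 (Nat.land (enc c.1) (enc c.2))) 4)
    · exact h x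
    simp only [Bool.and_eq_true, Nat.beq_eq] at e
    change (K ||| 1 <<< (c.1 ^^^ c.2)).testBit x = true → _
    rw [Nat.testBit_or, Nat.one_shiftLeft, Nat.testBit_two_pow, Bool.or_eq_true, decide_eq_true_eq]
    exact fun k => k.elim (h x) fun k => k ▸ hC _ _ (h _ e.1.1) (h _ e.1.2) e.2

omit h in
def orL (l : List ℕ) : ℕ := List.rec (motive := fun _ => ℕ) 0 (fun a _ K => Nat.lor K (Nat.shiftLeft 1 a)) l

omit h in
theorem orL_spec {x : ℕ} : ∀ l : List ℕ, (orL l).testBit x = true → x ∈ l
  | [], h => absurd h (by simp [orL])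
  | a :: l, h => by
    change (orL l ||| 1 <<< a).testBit x = true at h
    rw [Nat.testBit_or, Nat.one_shiftLeft, Nat.testBit_two_pow, Bool.or_eq_true, decide_eq_true_eq] at h
    exact List.mem_cons.2 (h.symm.imp Eq.symm (orL_spec l))

omit h in
/-- the stabiliser of three tetrads -/
def levK : List (ℕ × List ℕ) := [(0, [984818244535754528103549039458486304, 961034307371807655391028215149953058, 225386358808388680194808210847250979, 543230481292722744044283937796080324, 228931854169295081042892887935684142, 570365890855535718547167822427034320, 540378719754639693993019878256328854, 21031891374900343699909455052375127, 727180449384364862768324396817922149, 17333070834513050440730212819229761, 918604538459898893408901625705173517, 145718442041534244350153256804029905]),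
  (1, [984818244535754528103549039458486304, 64078970827940112857265154796751584, 984575757614218498854004639837750336]), (2, [984818244535754528103549039458486304, 87754633511598376555656142743165984]),
  (3, [984818244535754528103549039458486304, 974422238081544939122441376219924512, 973822158136857268167932961661388832, 960950944922468596308270213587568672, 976420838754479978627774237199763488, 959535741380040913870017104332621856, 984202951082164080105044112956360736, 959894609041950200578829698494826528]),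
  (4, [984818244535754528103549039458486304, 984436632068016323118584907140532256, 961029066359601346093702817927759904, 972679049849814778609582601333213216]), (5, [984818244535754528103549039458486304, 972606645568131968584696805283956768, 976531636853126291160407323722221600])]

omit h in
def derL : List (ℕ × ℕ) := [(1, 2), (1, 4), (1, 8), (1, 16), (2, 16), (8, 64), (3, 72), (1, 128), (64, 128), (18, 192), (8, 16), (64, 256), (24, 320), (256, 512), (16, 128), (144, 768), (1, 912), (1, 1024), (16, 1024), (3, 1040),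
  (2, 4), (1, 6), (128, 1024), (24, 1152), (7, 1176), (2, 64), (66, 1152), (8, 1218), (256, 1024), (9, 1280), (16, 32), (48, 1280), (66, 1328), (128, 1280), (72, 1280), (128, 1352), (1, 64), (144, 1280), (65, 1424),
  (512, 1024), (16, 1536), (16, 256), (272, 1536), (64, 1808), (256, 2048), (17, 2304), (2, 128), (130, 2304), (9, 2434), (512, 2048), (24, 2304), (512, 2328), (1024, 2048), (32, 3072), (272, 3104), (16, 512), (528, 3072), (768, 3072), (4, 3840)]

theorem modO {v : M} (v0 : v ≠ 0) (v1 : stabilizer M24 v = stabilizer M24 oct0)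
    (v2 : ∀ w : M, 6912 ∣ Nat.card (stabilizer M24 w) → w = 0) : ∃ j : ℕ → M, MM ccols j := by
  classical
  have := h.fin
  obtain ⟨f, f0, hf⟩ := orbMap v1
  have oo : ∀ {o}, o ∈ octads → o ∈ orbit M24 oct0 := fun k =>
    let ⟨g, e⟩ := M24_octad_trans0 k; ⟨g⁻¹, inv_smul_eq_iff.2 e.symm⟩
  have t0 : f (cw 47) + f (cw 23) + f (cw 56) = 0 := v2 _ (by
    have c := sChain_gen (levels := levK) (by decide +kernel)
    rw [← show Nat.card (gen (levelEls levK)) = 6912 from c.card_eq.trans (by decide +kernel)]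
    refine card_dvd_of_le (gen_le_of fun P hP => ?_)
    have r := (c.1 P hP).rep
    have k : ∀ P ∈ levelEls levK, (lin (cTab P) 47, lin (cTab P) 23, lin (cTab P) 56) ∈
        [(47, 23, 56), (47, 56, 23), (23, 47, 56), (23, 56, 47), (56, 47, 23), (56, 23, 47)] := by decide +kernel
    have o : ∀ x ∈ [47, 23, 56], m24 P • f (cw x) = f (cw (lin (cTab P) x)) := fun x hx => by
      have : x < 4096 ∧ pc24 (enc x) = 8 := by revert x; decide +kernel
      rw [← hf _ (oo ((cw_mem_octads this.1).2 this.2)), r.smul_cw this.1]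
    rw [mem_stabilizer_iff, smul_add, smul_add, o _ (by simp), o _ (by simp), o _ (by simp)]
    have := k P hP
    simp only [List.mem_cons, Prod.mk.injEq, List.not_mem_nil, or_false] at this
    rcases this with ⟨a, b, c⟩ | ⟨a, b, c⟩ | ⟨a, b, c⟩ | ⟨a, b, c⟩ | ⟨a, b, c⟩ | ⟨a, b, c⟩ <;> rw [a, b, c] <;> abel)
  have o23 : cw 23 ∈ octads := (cw_mem_octads (by norm_num)).2 (by decide +kernel)
  have r4 : ∀ o ∈ octads, ∀ o' ∈ octads, (o ∩ o').card = 4 → f (symmDiff o o') = f o + f o' := fun o ho o' ho' k => by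
    obtain ⟨g, rfl⟩ := oo ho
    obtain ⟨x, hx, x1, x2⟩ := Cfsg.Agent.S1556.result _ (g • cw 23) o' ho ((smul_mem_octads_iff g).2 o23) ho'
      (by rw [k, card_smul_inter_smul, oct0_eq_cw, cw, cw, ← ofMask_and, card_ofMask]; decide +kernel)
    have a : (⟨x, hx⟩ * g : M24) • cw 47 = g • oct0 := by rw [mul_smul, ← oct0_eq_cw]; exact x1
    have b : (⟨x, hx⟩ * g : M24) • cw 23 = o' := by rw [mul_smul]; exact x2
    have c : (⟨x, hx⟩ * g : M24) • cw 56 = symmDiff (g • oct0) o' := by
      rw [← a, ← b, show 56 = 47 ^^^ 23 from rfl, cw_xor (by norm_num) (by norm_num)]; exact smul_symmDiff _ _ _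
    change f (symmDiff (g • oct0) o') = f (g • oct0) + _
    rw [← c, ← a, ← b, hf _ (oo o23), hf (cw 47) (oo (oct0_eq_cw ▸ oct0_mem)),
      hf (cw 56) (oo ((cw_mem_octads (by norm_num)).2 (by decide +kernel))), ← smul_add, ← add_zero (f (cw 47) + _),
      ← h.two (f (cw 56)), ← add_assoc, t0, zero_add]
  let J : Finset GolayPt → M := fun s => cs (F24.idc.map fun a => f (cw a)) (toMask s % 4096)
  have hJ : ∀ s t, J (symmDiff s t) = J s + J t := fun s t => by
    simp only [J]; rw [← cs_xor h.two, toMask_symmDiff]; exact congrArg _ (Nat.xor_mod_two_pow (n := 12))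
  have J0 : J ∅ = 0 := by simpa using hJ ∅ ∅
  have D := der_spec (C := fun x => x < 4096 ∧ cw x ∈ octads ∧ f (cw x) = J (cw x)) (fun a b ⟨a1, a2, a3⟩ ⟨b1, b2, b3⟩ k => by
    have k : (cw a ∩ cw b).card = 4 := by rw [cw, cw, ← ofMask_and, card_ofMask, k]
    refine ⟨xor_lt12 a1 b1, ?_, by rw [cw_xor a1 b1, r4 _ a2 _ b2 k, hJ, a3, b3]⟩
    have := card_symmDiff_add (cw a) (cw b)
    rw [k, a2.2, b2.2] at this
    rw [cw_xor a1 b1]
    exact ⟨GC_symmDiff a2.1 b2.1, show Finset.card _ = 8 by omega⟩) derL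
    (orL F24.idc) fun x hx => by
      have m := orL_spec _ hx
      obtain ⟨l, e⟩ : x < 4096 ∧ pc24 (enc x) = 8 := by clear hx; revert x; decide +kernel
      refine ⟨l, (cw_mem_octads l).2 e, ?_⟩
      simp only [J, toMask_cw l, enc_mod l]
      simp only [F24.idc, List.mem_cons, List.not_mem_nil, or_false] at m
      rcases m with rfl | rfl | rfl | rfl | rfl | rfl | rfl | rfl | rfl | rfl | rfl | rfl <;> simp [cs, F24.idc]
  have hg : ∀ (g : M24), ∀ s ∈ GC, J (g • s) = g • J s := fun g => by
    refine gen_induction (C := fun g => ∀ s ∈ GC, J (g • s) = g • J s) (by simp) (fun P hP g k s hs => ?_) g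
      (top_eq_gen_abc.le trivial)
    have r : Rep P (m24 P) := rep_m24 (by revert P; decide +kernel)
    rw [mul_smul, mul_smul, ← k s hs]
    refine GC_induction (P := fun s => J (m24 P • s) = m24 P • J s) (by simp [J0]) (fun s t a b => ?_) (fun b hb => ?_) _
      ((smul_mem_GC_iff g).2 hs)
    · rw [show m24 P • symmDiff s t = symmDiff (m24 P • s) (m24 P • t) from smul_symmDiff _ _ _, hJ, hJ, a, b, smul_add]
    · have : ∀ P ∈ [pA, pB, pC], ∀ b ∈ golayBasis, enc (b % 4096) = b ∧
          (der derL (orL F24.idc)).testBit (b % 4096) = true ∧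
          (der derL (orL F24.idc)).testBit (lin (cTab P) (b % 4096)) = true := by decide +kernel
      obtain ⟨a1, a2, a3⟩ := this P hP b hb
      obtain ⟨c1, c2, c3⟩ := D _ a2
      rw [← a1]
      change J (m24 P • cw _) = m24 P • J (cw _)
      rw [← c3, ← hf _ (oo c2), r.smul_cw c1, (D _ a3).2.2]
  obtain ⟨W, hW, hI⟩ := ker_sub J (· ∈ GC) GC_empty (fun _ _ => GC_symmDiff) (fun s t _ _ => hJ s t)
    fun g s k => ⟨(smul_mem_GC_iff g).2 k, hg g s k⟩
  have z : ∀ s ∈ GC, J s = 0 → s = ∅ ∨ s = Finset.univ := fun s a b => by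
    refine span_one ((eq_span_one_or hI fun w hw => ?_).resolve_right (fun e => ?_) ((hW s).2 ⟨a, b⟩))
    · exact mem_golayCode_iff.2 ((hW _).1 (by simpa using hw)).1
    · obtain ⟨c1, c2, c3⟩ := D 1 (by decide +kernel)
      obtain ⟨g, k⟩ := oo c2
      rw [((hW _).1 (e ▸ mem_GC_iff_wordOf.1 c2.1)).2, ← k, hf _ (mem_orbit_self _), f0] at c3
      exact v0 ((smul_eq_zero_iff_eq g).1 c3)
  have u : J Finset.univ = 0 := by
    have := Fintype.ofFinite M
    obtain ⟨a, b, n, e⟩ := Fintype.exists_ne_map_eq_of_card_lt (fun a : Fin 4096 => J (cw a))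
      (by rw [Fintype.card_eq_nat_card, h.card]; simp)
    have k : J (symmDiff (cw a) (cw b)) = 0 := by rw [hJ, e, h.two]
    rwa [(z _ (GC_symmDiff (cw_mem a.2) (cw_mem b.2)) k).resolve_left
      fun e => n (Fin.ext (cw_inj a.2 b.2 (symmDiff_eq_bot.1 e)))] at k
  have jc : ∀ s ∈ GC, J (cw (cc s)) = J s := fun s k => (cw_cc k).elim (fun e => by rw [e]) fun e => by
    rw [e, show sᶜ = symmDiff s Finset.univ by ext; simp [Finset.mem_symmDiff], hJ, u, add_zero]
  refine ⟨fun a => J (cw a), ccols_lt, fun {a b} ha hb => ?_, fun {a} ha k => ?_, fun {g P} hP a ha => ?_⟩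
  · rw [cw_xor (by omega) (by omega), hJ]
  · rcases z _ (cw_mem (by omega)) k with e | e
    · exact cw_inj (by omega) (by norm_num) (e.trans (by decide +kernel))
    · have := cw_inj (by omega) (by norm_num) (e.trans cw_4095.symm); omega
  · have m : cw a ∈ GC := cw_mem (by omega)
    rw [← hg _ _ m, ← jc _ ((smul_mem_GC_iff g).2 m), ← ccols_cc hP m, cc_cw ha]

theorem mod : ∃ j : ℕ → M, MM ccols j ∨ MM vcols j := by
  rcases h.modA with ⟨v, a, b, c⟩ | ⟨v, a, b, c⟩
  · exact (h.modD a b c).imp fun _ => .inr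
  · exact (h.modO a b c).imp fun _ => .inl

end MH

theorem mod : MOD.{u} := by
  classical
  intro G _ _ V hV hc hC ⟨e⟩
  let φ : 𝒩(V) →* M24 := e.toMonoidHom.comp (QuotientGroup.mk' _)
  have φs : Function.Surjective φ := e.surjective.comp (QuotientGroup.mk'_surjective _)
  have φk : ∀ x, φ x = 1 ↔ x.1 ∈ V := fun x => by simp [φ, mem_subgroupOf]
  have cm : ∀ {a b : G}, a ∈ V → b ∈ V → a * b = b * a := fun {a b} ha hb =>
    congrArg Subtype.val (hV.1.1.1 (⟨a, ha⟩ : V) ⟨b, hb⟩)
  choose s hs using φs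
  have cv : ∀ (n : 𝒩(V)) {a : G}, a ∈ V → n * a * (n : G)⁻¹ ∈ V := fun n a ha => (mem_normalizer_iff.1 n.2 a).1 ha
  have wd : ∀ (n : 𝒩(V)) {a : G}, a ∈ V → s (φ n) * a * (s (φ n) : G)⁻¹ = n * a * (n : G)⁻¹ := fun n a ha => by
    have k : (n : G)⁻¹ * s (φ n) ∈ V := (φk (n⁻¹ * s (φ n))).1 (by rw [map_mul, map_inv, hs, inv_mul_cancel])
    calc _ = n * ((n : G)⁻¹ * s (φ n) * a) * (s (φ n) : G)⁻¹ := by group
      _ = _ := by rw [cm k ha]; group
  let _ : CommGroup V := { (inferInstance : Group V) with mul_comm := hV.1.1.1 }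
  let _ : DistribMulAction M24 (Additive V) :=
    { smul := fun g x => Additive.ofMul ⟨_, cv (s g) x.toMul.2⟩
      one_smul := fun x => Subtype.ext (by
        have := wd 1 x.toMul.2
        rw [map_one] at this
        exact this.trans (by change 1 * _ * 1⁻¹ = x.toMul.1; group))
      mul_smul := fun g k x => Subtype.ext (by
        have := wd (s g * s k) x.toMul.2
        rw [map_mul, hs, hs] at this
        exact this.trans (by change _ = (s g : G) * ((s k : G) * _ * _) * _; simp only [coe_mul]; group))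
      smul_zero := fun g => Subtype.ext (by change (s g : G) * 1 * _ = (1 : G); group)
      smul_add := fun g x y => Subtype.ext conj_mul.symm }
  have h : MH (Additive V) := ⟨hc, fun x => Subtype.ext ((pow_two _).symm.trans (hV.2 _ x.toMul.2)), fun g k => by
    rw [← hs g, φk]
    exact hC.le fun a ha => (mul_inv_eq_iff_eq_mul.1 (congrArg Subtype.val (k (Additive.ofMul ⟨a, ha⟩)))).symm⟩
  have key : ∀ cols (j : ℕ → Additive V), MM cols j → MS cols V 𝒩(V) (fun a => (j a).toMul.1)
      fun x => if k : x ∈ 𝒩(V) then φ ⟨x, k⟩ else 1 := fun cols j m => by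
    refine ⟨m.lt, fun a b => congrArg (·.toMul.1) (m.add a b), fun a k => m.inj a (Subtype.ext k),
      fun {x} => ⟨fun hx => ?_, fun ⟨a, _, k⟩ => k ▸ (j a).toMul.2⟩, le_normalizer, fun a b => ?_,
      fun g => ⟨s g, (s g).2, by simp [hs]⟩, fun a => by rw [dif_pos a, φk], fun {x P} hx hP a ha => ?_⟩
    · have i : Function.Injective fun a : Fin 2048 => j a := fun a b k => Fin.ext (Nat.xor_eq_zero_iff.1
        (m.inj (xor_lt11 a.2 b.2) (by rw [m.add a.2 b.2, show j a = j b from k, h.two])))
      obtain ⟨a, k⟩ := ((Nat.bijective_iff_injective_and_card _).2 ⟨i, by rw [h.card]; simp⟩).2 (Additive.ofMul ⟨x, hx⟩)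
      exact ⟨a, a.2, congrArg (·.toMul.1) k⟩
    · rw [dif_pos a, dif_pos b, dif_pos (mul_mem a b), ← map_mul]; rfl
    · rw [dif_pos hx] at hP
      exact (wd ⟨x, hx⟩ (j a).toMul.2).symm.trans (congrArg (·.toMul.1) (m.act hP ha))
  obtain ⟨j, m⟩ := h.mod
  exact ⟨_, _, m.imp (key _ j) (key _ j)⟩

end CL.M11
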