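/-
Project M11, the code case: existence of the subgroup `Q` (`QE2`).
-/
import Cfsg.Agent.M11.FF

set_option autoImplicit false

namespace CL.M11.C

open Cfsg Subgroup MulAction CL.Spor CL.Grp CL.Even
open CL.F24 (ap all2 all2_spec ap_lt)
open scoped commutatorElement Pointwise

universe u

namespace Qe2

section
variable {M : Type*} [Group M]

/-- the squares of the seven products of three elements multiply to one -/
theorem seven (C : Subgroup M) (a b c : M) (h2 : ∀ x ∈ C, x * x = 1)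
    (hb : ∀ x ∈ C, x * b = b * x) (hc : ∀ x ∈ C, x * c = c * x)
    (hC : ∀ x ∈ C, ∀ y ∈ C, x * y = y * x)
    (sa : a * a ∈ C) (sb : b * b ∈ C) (sc : c * c ∈ C) (sab : a * b * (a * b) ∈ C)
    (k1 : (a * c)⁻¹ * (c * a) ∈ C) (k2 : (b * c)⁻¹ * (c * b) ∈ C) :
    a * a * (b * b) * (c * c) * (a * b * (a * b)) * (a * c * (a * c)) * (b * c * (b * c)) *
      (a * b * c * (a * b * c)) = 1 := by
  obtain ⟨k, hk, e1⟩ : ∃ k ∈ C, c * a = a * c * k := ⟨_, k1, by group⟩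
  obtain ⟨l, hl, e2⟩ : ∃ l ∈ C, c * b = b * c * l := ⟨_, k2, by group⟩
  have f1 : a * c * (a * c) = a * a * (c * c) * k := by
    calc a * c * (a * c) = a * (c * a) * c := by group
      _ = a * a * c * (k * c) := by rw [e1]; group
      _ = _ := by rw [hc k hk]; group
  have f2 : b * c * (b * c) = b * b * (c * c) * l := by
    calc b * c * (b * c) = b * (c * b) * c := by group
      _ = b * b * c * (l * c) := by rw [e2]; group
      _ = _ := by rw [hc l hl]; group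
  have f3 : a * b * c * (a * b * c) = a * b * (a * b) * (c * c) * l * k := by
    calc a * b * c * (a * b * c) = a * b * (c * a) * b * c := by group
      _ = a * b * a * c * (k * b) * c := by rw [e1]; group
      _ = a * b * a * (c * b) * (k * c) := by rw [hb k hk]; group
      _ = a * b * a * b * c * (l * c) * k := by rw [e2, hc k hk]; group
      _ = _ := by rw [hc l hl]; group
  rw [f1, f2, f3]
  let _ : CommGroup C := { (inferInstance : Group C) with mul_comm := fun x y => Subtype.ext (hC _ x.2 _ y.2) }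
  have key : ∀ A B D P k l : C, A * B * D * P * (A * D * k) * (B * D * l) * (P * D * l * k) = 1 := by
    intro A B D P k l
    have s : ∀ x : C, x * x = 1 := fun x => Subtype.ext (h2 _ x.2)
    calc _ = (A * A) * (B * B) * (D * D) * (D * D) * (P * P) * (k * k) * (l * l) := by ac_rfl
      _ = 1 := by simp only [s]
  exact congrArg Subtype.val (key ⟨_, sa⟩ ⟨_, sb⟩ ⟨_, sc⟩ ⟨_, sab⟩ ⟨k, hk⟩ ⟨l, hl⟩)

/-- conjugation by a power -/
def cn (s : M) (i : ℕ) (r : M) : M := s ^ i * r * (s ^ i)⁻¹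

def ph (s r : M) : M := r * cn s 1 r * cn s 4 r

theorem cn_mul (s : M) (i : ℕ) (x y : M) : cn s i (x * y) = cn s i x * cn s i y := by simp only [cn]; group
theorem cn_inv (s : M) (i : ℕ) (x : M) : cn s i x⁻¹ = (cn s i x)⁻¹ := by simp only [cn]; group
theorem cn_cn (s : M) (i j : ℕ) (x : M) : cn s i (cn s j x) = cn s (i + j) x := by simp only [cn, pow_add]; group
theorem cn_zero (s x : M) : cn s 0 x = x := by simp [cn]
theorem cn_mem (s : M) (i : ℕ) {A : Subgroup M} [h : A.Normal] {x : M} (hx : x ∈ A) : cn s i x ∈ A :=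
  h.conj_mem _ hx _
theorem ph_cn (s : M) (i : ℕ) (x : M) : ph s (cn s i x) = cn s i (ph s x) := by
  simp only [ph, cn_mul, cn_cn, add_comm]

theorem abs [Finite M] (Z B V O : Subgroup M) [Z.Normal] [B.Normal] [O.Normal] (s : M) (BV : B ≤ V)
    (VO : V ≤ O) (sq : ∀ r ∈ O, r * r ∈ B) (B2 : ∀ b ∈ B, b * b = 1) (BO : ∀ b ∈ B, ∀ r ∈ O, ⁅b, r⁆ ∈ Z)
    (h1 : ∀ r ∈ O, ph s r ∈ V) (h2 : ∀ y ∈ V, ph s y ∈ B → y ∈ B) (h3 : ∀ y ∈ V, ∃ x ∈ V, y * ph s x ∈ B)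
    (h5 : ∀ b ∈ B, b * cn s 1 b * cn s 2 b * cn s 4 b * cn s 8 b * cn s 5 b * cn s 10 b ∈ Z → b ∈ Z) :
    ∃ Q : Subgroup M, Q ≤ O ∧ Q ⊓ V = B ∧ (∀ r ∈ O, ∃ q ∈ Q, q⁻¹ * r ∈ V) ∧ (∀ q ∈ Q, q * q ∈ Z) ∧
      s ∈ 𝒩(Q) ∧ V ≤ 𝒩(Q) := by
  let π := QuotientGroup.mk' B
  have π1 : ∀ {x}, π x = 1 ↔ x ∈ B := fun {x} => QuotientGroup.eq_one_iff x
  have s2 : ∀ r ∈ O, π r * π r = 1 := fun r hr => by rw [← map_mul, π1]; exact sq r hr
  have iv : ∀ r ∈ O, (π r)⁻¹ = π r := fun r hr => inv_eq_of_mul_eq_one_left (s2 r hr)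
  have cm : ∀ r ∈ O, ∀ t ∈ O, π r * π t = π t * π r := fun r hr t ht => by
    rw [← map_mul, ← iv _ (mul_mem hr ht), map_mul, mul_inv_rev, iv r hr, iv t ht]
  have lc : ∀ r ∈ O, ∀ t ∈ O, ∀ x, π r * (π t * x) = π t * (π r * x) := fun r hr t ht x => by
    rw [← mul_assoc, cm r hr t ht, mul_assoc]
  have pm : ∀ r ∈ O, ∀ t ∈ O, π (ph s (r * t)) = π (ph s r) * π (ph s t) := fun r hr t ht => by
    simp only [ph, cn_mul, map_mul, mul_assoc]
    rw [lc t ht _ (cn_mem s 1 hr), lc _ (cn_mem s 1 ht) _ (cn_mem s 4 hr), lc t ht _ (cn_mem s 4 hr)]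
  have pO : ∀ r ∈ O, ph s r ∈ O := fun r hr => VO (h1 r hr)
  have p1 : ph s (1 : M) = 1 := by simp [ph, cn]
  let Q : Subgroup M :=
    { carrier := {r | r ∈ O ∧ π (ph s r) = 1}
      one_mem' := ⟨one_mem _, by rw [p1, map_one]⟩
      mul_mem' := fun {a b} ha hb => ⟨mul_mem ha.1 hb.1, by rw [pm a ha.1 b hb.1, ha.2, hb.2, one_mul]⟩
      inv_mem' := fun {a} ha => ⟨inv_mem ha.1, by
        have := pm a ha.1 a⁻¹ (inv_mem ha.1)
        rw [mul_inv_cancel, p1, map_one, ha.2, one_mul] at this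
        exact this.symm⟩ }
  have mQ : ∀ {r}, r ∈ Q ↔ r ∈ O ∧ π (ph s r) = 1 := Iff.rfl
  have BQ : B ≤ Q := fun b hb => mQ.2 ⟨VO (BV hb), π1.2 (mul_mem (mul_mem hb (cn_mem s 1 hb)) (cn_mem s 4 hb))⟩
  have cQ : ∀ i, ∀ q ∈ Q, cn s i q ∈ Q := fun i q hq =>
    mQ.2 ⟨cn_mem s i hq.1, by rw [ph_cn]; exact π1.2 (cn_mem s i (π1.1 hq.2))⟩
  refine ⟨Q, fun _ h => h.1, le_antisymm (fun y hy => h2 y hy.2 (π1.1 hy.1.2)) (le_inf BQ BV), fun r hr => ?_,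
    fun q hq => ?_, mem_norm_of_cj_le ?_, fun y hy => mem_norm_of_cj_le ?_⟩
  · obtain ⟨x, hx, e⟩ := h3 _ (h1 r hr)
    refine ⟨r * x, mQ.2 ⟨mul_mem hr (VO hx), by rw [pm r hr x (VO hx), ← map_mul, π1]; exact e⟩, ?_⟩
    simpa using hx
  · have qO : ∀ i, cn s i q ∈ O := fun i => cn_mem s i hq.1
    have R : ∀ i, π (cn s i q) * π (cn s (i + 1) q) = π (cn s (i + 4) q) := fun i => by
      have := (cQ i q hq).2
      rw [ph, cn_cn, cn_cn, map_mul, map_mul, add_comm 1, add_comm 4] at this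
      rw [eq_inv_of_mul_eq_one_left this, iv _ (qO _)]
    have ll : ∀ i x, π (cn s i q) * (π (cn s i q) * x) = x := fun i x => by rw [← mul_assoc, s2 _ (qO i), one_mul]
    have r8 : π (cn s 0 q) * π (cn s 2 q) = π (cn s 8 q) := by
      rw [← R 4, ← R 0, ← R 1, mul_assoc, ll]
    have r10 : π (cn s 0 q) * π (cn s 1 q) * π (cn s 2 q) = π (cn s 10 q) := by
      rw [← R 6, ← R 2, ← R 3, mul_assoc (π (cn s 2 q)), ll, cm _ (qO 2) _ (qO _), ← R 0]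
    let ρ := QuotientGroup.mk' Z
    have ρ1 : ∀ {x}, ρ x = 1 ↔ x ∈ Z := fun {x} => QuotientGroup.eq_one_iff x
    have ce : ∀ r ∈ O, ∀ x ∈ B.map ρ, x * ρ r = ρ r * x := by
      rintro r hr _ ⟨b, hb, rfl⟩
      rw [← mul_inv_eq_one, ← map_mul, ← map_mul, ← map_inv, ← map_mul, ρ1]
      simpa [commutatorElement_def, mul_assoc] using BO b hb r hr
    have c2 : ∀ x ∈ B.map ρ, x * x = 1 := by
      rintro _ ⟨b, hb, rfl⟩
      rw [← map_mul, B2 b hb, map_one]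
    have sq' : ∀ r ∈ O, ρ r * ρ r ∈ B.map ρ := fun r hr => ⟨_, sq r hr, map_mul _ _ _⟩
    have kk : ∀ r ∈ O, ∀ t ∈ O, (ρ r * ρ t)⁻¹ * (ρ t * ρ r) ∈ B.map ρ := fun r hr t ht =>
      ⟨(r * t)⁻¹ * (t * r), π1.1 (by rw [map_mul, map_inv, map_mul, map_mul, cm r hr t ht, inv_mul_cancel]),
        by simp only [map_mul, map_inv]⟩
    have eq : ∀ r ∈ O, ∀ t ∈ O, π r = π t → ρ r * ρ r = ρ t * ρ t := fun r hr t ht e => by
      have m : t⁻¹ * r ∈ B := π1.1 (by rw [map_mul, map_inv, e, inv_mul_cancel])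
      have m' : ρ (t⁻¹ * r) ∈ B.map ρ := ⟨_, m, rfl⟩
      have e' : ρ r = ρ t * ρ (t⁻¹ * r) := by rw [← map_mul]; congr 1; group
      generalize ρ (t⁻¹ * r) = x at m' e'
      rw [e', mul_assoc, ← mul_assoc x, ce t ht x m', mul_assoc, c2 x m', mul_one]
    have S := seven (B.map ρ) (ρ (cn s 0 q)) (ρ (cn s 1 q)) (ρ (cn s 2 q)) c2 (ce _ (qO 1)) (ce _ (qO 2))
      (by rintro x hx _ ⟨b, hb, rfl⟩; exact ce b (VO (BV hb)) x hx) (sq' _ (qO 0)) (sq' _ (qO 1)) (sq' _ (qO 2))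
      (by rw [← map_mul]; exact sq' _ (mul_mem (qO 0) (qO 1))) (kk _ (qO 0) _ (qO 2)) (kk _ (qO 1) _ (qO 2))
    rw [← map_mul ρ (cn s 0 q) (cn s 1 q), ← map_mul ρ (cn s 0 q) (cn s 2 q), ← map_mul ρ (cn s 1 q) (cn s 2 q),
      ← map_mul ρ (_ * _) (cn s 2 q),
      eq _ (mul_mem (qO 0) (qO 1)) _ (qO 4) ((map_mul _ _ _).trans (R 0)),
      eq _ (mul_mem (qO 0) (qO 2)) _ (qO 8) ((map_mul _ _ _).trans r8),
      eq _ (mul_mem (qO 1) (qO 2)) _ (qO 5) ((map_mul _ _ _).trans (R 1)),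
      eq _ (mul_mem (mul_mem (qO 0) (qO 1)) (qO 2)) _ (qO 10) (by rw [map_mul, map_mul, r10])] at S
    refine h5 _ (sq q hq.1) (ρ1.1 ?_)
    simp only [cn_mul, map_mul]
    rw [cn_zero] at S
    exact S
  · rintro _ ⟨q, hq, rfl⟩
    simpa [cn] using cQ 1 q hq
  · rintro _ ⟨q, hq, rfl⟩
    have : y * q * y⁻¹ * q⁻¹ ∈ B := π1.1 (by
      simp only [map_mul, map_inv]; rw [cm y (VO hy) q hq.1]; group)
    simpa using mul_mem (BQ this) hq

end

def m1 : List ℕ := [1034, 1412, 1910, 416, 615, 1911, 264, 1791, 639, 703, 503]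
def m4 : List ℕ := [1885, 987, 1918, 831, 1040, 232, 799, 1184, 1728, 927, 96]
def mI : List ℕ := [65, 26, 27, 31, 72, 95, 71, 15, 0, 15, 71]
theorem m1_eq : ccols (ppow g15 1) = m1 := by decide +kernel
theorem m4_eq : ccols (ppow g15 4) = m4 := by decide +kernel
noncomputable def phN (a : ℕ) : ℕ := Nat.xor (Nat.xor a (ap m1 a)) (ap m4 a)

end Qe2

open Qe2 in
theorem qe2 : QE2.{u} := fun G _ _ D f hsq => by
  obtain ⟨s, sN, sR⟩ := D.ms.lift (P := g15) (by decide +kernel)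
  have sH : s ∈ D.H := D.ms.mem_pre.2 ⟨sN, (mem_stab_oct0 sR).2 (by decide +kernel)⟩
  have OH : D.O ≤ D.H := D.O_le_T.trans D.T_le_H
  have VO : D.V ≤ D.O := D.ms.V_le_pre _
  have nZ : D.H ≤ 𝒩(D.Z) := fun x hx => cent_le_norm _ (by
    rw [Dat.Z, zpowers_eq_closure, centralizer_closure]; exact mem_centralizer_singleton_iff.2 (D.mem_H.1 hx).2)
  have := normal_subgroupOf_of_le_normalizer nZ
  have := normal_subgroupOf_of_le_normalizer f.nB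
  have := normal_subgroupOf_of_le_normalizer f.nO
  have pR : ∀ i, Rep (ppow g15 i) (D.p (s ^ i)) := fun i => by rw [D.p_pow sN]; exact sR.pow i
  have cv : ∀ i, ∀ a < 2048, cn s i (D.v a) = D.v (ap (ccols (ppow g15 i)) a) := fun i a ha =>
    D.ms.conj (pow_mem sN i) (pR i) ha
  have cc' : ∀ i (x : D.H), ((cn (⟨s, sH⟩ : D.H) i x : D.H) : G) = cn s i (x : G) := fun i x => by simp [cn]
  have pp : ∀ x : D.H, ((ph (⟨s, sH⟩ : D.H) x : D.H) : G) = ph s (x : G) := fun x => by simp [ph, cc']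
  have pl : ∀ a < 2048, phN a < 2048 := fun a ha =>
    xor_lt11 (xor_lt11 ha (m1_eq ▸ ccols_lt _ _)) (m4_eq ▸ ccols_lt _ _)
  have pv : ∀ a < 2048, ph s (D.v a) = D.v (phN a) := fun a ha => by
    rw [ph, cv 1 a ha, cv 4 a ha, ← D.ms.v_xor ha (ccols_lt _ _), ← D.ms.v_xor (xor_lt11 ha (ccols_lt _ _)) (ccols_lt _ _),
      m1_eq, m4_eq]; rfl
  obtain ⟨Q, q1, q2, q3, q4, q5, q6⟩ := Qe2.abs (D.Z.subgroupOf D.H) (D.B.subgroupOf D.H) (D.V.subgroupOf D.H)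
    (D.O.subgroupOf D.H) ⟨s, sH⟩ (fun _ h => D.ks_le _ h) (fun _ h => VO h) (fun r h => hsq r h)
    (fun b h => Subtype.ext (D.ms.sq (D.ks_le _ h))) (fun b h r k => f.BO b h r k) (fun r h => by
      obtain ⟨P, n, k, e⟩ := D.all_pre chainKT (f := fun P => Nat.beq
        (pmul (pmul P (pconj (ppow g15 1) P)) (pconj (ppow g15 4) P)) pone) (by decide +kernel) (mem_subgroupOf.1 h)
      have cN : ∀ i, cn s i r ∈ D.N := fun i => mul_mem (mul_mem (pow_mem sN i) n) (inv_mem (pow_mem sN i))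
      have cR : ∀ i, Rep (pconj (ppow g15 i) P) (D.p (cn s i r)) := fun i => by
        rw [cn, D.ms.p_mul (mul_mem (pow_mem sN i) n) (inv_mem (pow_mem sN i)), D.ms.p_mul (pow_mem sN i) n,
          D.ms.p_inv (pow_mem sN i)]
        exact (pR i).conj k
      rw [mem_subgroupOf, pp]
      refine (D.memV (mul_mem (mul_mem n (cN 1)) (cN 4)) ?_).2 (Nat.eq_of_beq_eq_true e)
      rw [D.ms.p_mul (mul_mem n (cN 1)) (cN 4), D.ms.p_mul n (cN 1)]
      exact (k.mul (cR 1)).mul (cR 4))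
    (fun y h k => by
      obtain ⟨a, l, e⟩ := D.ms.mem_V.1 (mem_subgroupOf.1 h)
      rw [mem_subgroupOf, pp, ← e, pv a l, D.v_mem_ks (pl a l)] at k
      rw [mem_subgroupOf, ← e, D.v_mem_ks l]
      have := all2_spec (f := fun a => or (Nat.beq (ap mB a) 0) (not (Nat.beq (ap mB (phN a)) 0))) (k := 11)
        (by decide +kernel) a l
      simpa [k] using this)
    (fun y h => by
      obtain ⟨a, l, e⟩ := D.ms.mem_V.1 (mem_subgroupOf.1 h)
      have l' : ap mI a < 2048 := ap_lt (k := 11) (by decide) a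
      refine ⟨⟨D.v (ap mI a), OH (VO (D.ms.v_V l'))⟩, D.ms.v_V l', ?_⟩
      rw [mem_subgroupOf, coe_mul, pp, ← e, pv _ l', ← D.ms.v_xor l (pl _ l'), D.v_mem_ks (xor_lt11 l (pl _ l'))]
      exact Nat.eq_of_beq_eq_true (all2_spec (f := fun a => Nat.beq (ap mB (Nat.xor a (phN (ap mI a)))) 0) (k := 11)
        (by decide +kernel) a l))
    (fun b h k => by
      obtain ⟨a, m, l, e⟩ := D.memB.1 (mem_subgroupOf.1 h)
      have x := fun i => ccols_lt (ppow g15 i) a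
      simp only [mem_subgroupOf, coe_mul, cc', ← e, cv _ a l] at k
      rw [← D.ms.v_xor l (x 1), ← D.ms.v_xor (xor_lt11 l (x 1)) (x 2), ← D.ms.v_xor (xor_lt11 (xor_lt11 l (x 1)) (x 2)) (x 4),
        ← D.ms.v_xor (xor_lt11 (xor_lt11 (xor_lt11 l (x 1)) (x 2)) (x 4)) (x 8),
        ← D.ms.v_xor (xor_lt11 (xor_lt11 (xor_lt11 (xor_lt11 l (x 1)) (x 2)) (x 4)) (x 8)) (x 5),
        ← D.ms.v_xor (xor_lt11 (xor_lt11 (xor_lt11 (xor_lt11 (xor_lt11 l (x 1)) (x 2)) (x 4)) (x 8)) (x 5)) (x 10),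
        D.v_mem_Z (xor_lt11 (xor_lt11 (xor_lt11 (xor_lt11 (xor_lt11 (xor_lt11 l (x 1)) (x 2)) (x 4)) (x 8)) (x 5)) (x 10))] at k
      rw [mem_subgroupOf, ← e, D.v_mem_Z l]
      clear e l h x; revert k; revert a; decide +kernel)
  have nm : ∀ x : D.H, x ∈ 𝒩(Q) → (x : G) ∈ 𝒩(Q.map D.H.subtype) := fun x hx => mem_norm_of_cj_le (by
    rintro _ ⟨_, ⟨q, hq, rfl⟩, rfl⟩
    exact ⟨_, conj_mem hx hq, rfl⟩)
  refine ⟨Q.map D.H.subtype, ⟨?_, le_antisymm ?_ fun b hb => ?_, fun r hr => ?_, ?_⟩, fun x hx k => ?_⟩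
  · rintro _ ⟨q, hq, rfl⟩; exact q1 hq
  · rintro _ ⟨⟨q, hq, rfl⟩, k⟩; exact q2.le ⟨hq, k⟩
  · have bV := D.ks_le _ hb
    exact ⟨⟨⟨b, OH (VO bV)⟩, (q2.ge (show (⟨b, OH (VO bV)⟩ : D.H) ∈ D.B.subgroupOf D.H from hb)).1, rfl⟩, bV⟩
  · obtain ⟨q, hq, e⟩ := q3 ⟨r, OH hr⟩ hr
    exact ⟨q, ⟨q, hq, rfl⟩, e⟩
  · rintro _ ⟨q, hq, rfl⟩; exact q4 q hq
  · obtain ⟨a, l, rfl⟩ := D.ms.p_eq sN hx (sR.unique k)
    exact mul_mem (nm ⟨s, sH⟩ q5) (nm ⟨_, OH (VO (D.ms.v_V l))⟩ (q6 (D.ms.v_V l)))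

end CL.M11.C
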