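/-
Project M11, the code case: the candidate `Q` for the extraspecial group is invariant under the octad stabiliser.
-/
import Cfsg.Agent.M11.FF

set_option autoImplicit false
set_option linter.unusedSectionVars false

namespace CL.M11.C

open Cfsg Subgroup MulAction CL.Spor CL.Grp CL.Even
open CL.F24 (ap all2 all2_spec)
open scoped commutatorElement Pointwise

universe u

namespace Qe3

variable {G : Type u} [Group G]

theorem mulmod {O B : Subgroup G} (hN : O ≤ 𝒩(B)) (hc : ∀ r ∈ O, ∀ s ∈ O, ⁅r, s⁆ ∈ B) {a b c a' b' c' : G}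
    (ha : a ∈ O) (hb : b ∈ O) (hc1 : c ∈ O) (ha' : a' ∈ O) (hb' : b' ∈ O) (h1 : a * b * c ∈ B)
    (h2 : a * a' * (b * b') * (c * c') ∈ B) : a' * b' * c' ∈ B := by
  have e : a * a' * (b * b') * (c * c') =
      a * ⁅a', b⁆ * a⁻¹ * (a * b * ⁅a' * b', c⁆ * (a * b)⁻¹) * (a * b * c) * (a' * b' * c') := by
    simp [commutatorElement_def, mul_assoc]
  rwa [e, mul_mem_cancel_left (mul_mem (mul_mem (conj_mem (hN ha) (hc _ ha' _ hb))
    (conj_mem (hN (mul_mem ha hb)) (hc _ (mul_mem ha' hb') _ hc1))) h1)] at h2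

/-- the element acts without fixed points on the translations -/
noncomputable def qk1 (τ : ℕ) : Bool :=
  allProds (fun K => Nat.beq (pmul (pmul K (pconj τ K)) (pconj τ (pconj τ K))) pone) levKT pone

/-- the check on the module -/
noncomputable def qk2 (c : List ℕ) : Bool :=
  all2 (fun a => Nat.beq (ap mB a) 0 || !(Nat.beq (ap mB (Nat.xor (Nat.xor a (ap c a)) (ap c (ap c a)))) 0) ||
    allProds (fun K => Nat.beq K pone || !(inZ (cm K a))) levKT pone) 11 0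

variable {D : Dat G} (f : MF D) (hs : ∀ r ∈ D.O, r * r ∈ D.B)
include f hs

theorem OH : D.O ≤ D.H := D.O_le_T.trans D.T_le_H

theorem comm_mem : ∀ r ∈ D.O, ∀ s ∈ D.O, ⁅r, s⁆ ∈ D.B := fun r hr s h => by
  rw [show ⁅r, s⁆ = r * s * (r * s) * (s⁻¹ * (r * r)⁻¹ * s) * (s * s)⁻¹ by simp [commutatorElement_def, mul_assoc]]
  exact mul_mem (mul_mem (hs _ (mul_mem hr h)) (conj_mem' (f.nB (OH f hs h)) (inv_mem (hs r hr)))) (inv_mem (hs s h))

theorem O_norm {Q : Subgroup G} (q : QS D Q) : D.O ≤ 𝒩(Q) := le_norm_of_cj_le fun r hr => by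
  rintro _ ⟨x, hx, rfl⟩
  have := mul_mem (q.inf.ge (comm_mem f hs r hr x (q.le hx))).1 hx
  rwa [commutatorElement_def, inv_mul_cancel_right] at this

theorem cj_qs {Q : Subgroup G} (q : QS D Q) {h : G} (hh : h ∈ D.H) : QS D (cj h Q) := by
  obtain ⟨h1, h2⟩ := D.mem_H.1 hh
  refine ⟨cj_le_of_le q.le (f.nO hh), ?_, fun r hr => ?_, fun x hx => ?_⟩
  · rw [← cj_eq h1, ← cj_inf, q.inf, cj_eq (f.nB hh)]
  · obtain ⟨x, hx, e⟩ := q.sur _ (conj_mem' (f.nO hh) hr)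
    refine ⟨_, conj_mem_cj h hx, ?_⟩
    rw [show (h * x * h⁻¹)⁻¹ * r = h * (x⁻¹ * (h⁻¹ * r * h)) * h⁻¹ by group]
    exact conj_mem h1 e
  · rw [show x * x = h * (h⁻¹ * x * h * (h⁻¹ * x * h)) * h⁻¹ by group]
    rcases D.mem_Z.1 (q.sq _ (mem_cj.1 hx)) with e | e <;> rw [e]
    · rw [mul_one, mul_inv_cancel]; exact one_mem _
    · rw [h2, mul_inv_cancel_right]; exact mem_zpowers _

theorem uq {τ : ℕ} (c1 : qk1 τ = true) (c2 : qk2 (ccols τ) = true) {x : G} (hx : x ∈ D.H) (hτ : Rep τ (D.p x))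
    {Q₁ Q₂ : Subgroup G} (q₁ : QS D Q₁) (q₂ : QS D Q₂) (n₁ : x ∈ 𝒩(Q₁)) (n₂ : x ∈ 𝒩(Q₂)) : Q₂ ≤ Q₁ := fun s hs2 => by
  have xN := (D.mem_H.1 hx).1
  have hp : ∀ {y}, y ∈ D.N → ∀ {K}, Rep K (D.p y) → Rep (pconj τ K) (D.p (x * y * x⁻¹)) := fun hy _ hK => by
    rw [D.ms.p_mul (mul_mem xN hy) (inv_mem xN), D.ms.p_mul xN hy, D.ms.p_inv xN]
    exact hτ.conj hK
  have key : ∀ {Q}, QS D Q → x ∈ 𝒩(Q) → ∀ r ∈ Q, r * (x * r * x⁻¹) * (x * (x * r * x⁻¹) * x⁻¹) ∈ D.B :=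
    fun q n r hr => by
    obtain ⟨K, rN, hK, e⟩ := D.all_pre chainKT c1 (q.le hr)
    have m1 := mul_mem (mul_mem xN rN) (inv_mem xN)
    have m2 := mul_mem (mul_mem xN m1) (inv_mem xN)
    refine q.inf.le ⟨mul_mem (mul_mem hr (conj_mem n hr)) (conj_mem n (conj_mem n hr)),
      (D.ms.p_ker (mul_mem (mul_mem rN m1) m2)).1 ?_⟩
    rw [D.ms.p_mul (mul_mem rN m1) m2, D.ms.p_mul rN m1]
    exact ((hK.mul (hp rN hK)).mul (hp m1 (hp rN hK))).eq_one_iff.2 (Nat.eq_of_beq_eq_true e)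
  obtain ⟨r, hr, hy⟩ := q₁.sur s (q₂.le hs2)
  obtain ⟨a, ha, e⟩ := D.ms.mem_V.1 hy
  obtain rfl : s = r * D.v a := by rw [e, mul_inv_cancel_left]
  have rO := q₁.le hr
  have aO : ∀ {b}, b < 2048 → D.v b ∈ D.O := fun hb => D.ms.V_le_pre _ (D.ms.v_V hb)
  by_cases hV : r ∈ D.V
  · exact (q₁.inf.ge (q₂.inf.le ⟨hs2, mul_mem hV (D.ms.v_V ha)⟩)).1
  refine mul_mem hr (q₁.inf.ge ((D.v_mem_ks ha).2 ?_)).1
  have k1 := key q₂ n₂ _ hs2
  have e1 : ∀ u w : G, x * (u * w) * x⁻¹ = x * u * x⁻¹ * (x * w * x⁻¹) := fun u w => by group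
  rw [e1 r, e1 (x * r * x⁻¹), D.ms.conj xN hτ ha, D.ms.conj xN hτ (D.ms.lt _ _)] at k1
  have k2 := mulmod ((OH f hs).trans f.nB) (comm_mem f hs) rO (conj_mem (f.nO hx) rO)
    (conj_mem (f.nO hx) (conj_mem (f.nO hx) rO)) (aO ha) (aO (D.ms.lt _ _)) (key q₁ n₁ r hr) k1
  rw [← D.ms.v_xor ha (D.ms.lt _ _), ← D.ms.v_xor (xor_lt11 ha (D.ms.lt _ _)) (D.ms.lt _ _),
    D.v_mem_ks (xor_lt11 (xor_lt11 ha (D.ms.lt _ _)) (D.ms.lt _ _))] at k2
  have k3 := all2_spec c2 a ha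
  simp only [Bool.or_eq_true, Bool.not_eq_true', Nat.beq_eq] at k3
  rcases k3 with (k3 | k3) | k3
  · exact k3
  · exact absurd k2 (Nat.ne_of_beq_eq_false k3)
  obtain ⟨K, rN, hK, k4⟩ := D.all_pre chainKT k3 (inv_mem rO)
  simp only [Bool.or_eq_true, Bool.not_eq_true', Nat.beq_eq] at k4
  refine absurd (inv_mem_iff.1 ((D.memV rN hK).2 (k4.resolve_right fun k5 => ?_))) hV
  have k6 := inv_mem (mul_mem (inv_mem (q₁.sq r hr)) (q₂.sq _ hs2))
  rw [show ((r * r)⁻¹ * (r * D.v a * (r * D.v a)))⁻¹ = ⁅(D.v a)⁻¹, r⁻¹⁆ * (r⁻¹ * ((D.v a * D.v a)⁻¹) * r) by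
    simp [commutatorElement_def, mul_assoc], D.ms.v_sq ha, D.ms.v_inv ha, inv_one, mul_one, inv_mul_cancel, mul_one,
    D.c_Z rN hK ha, k5] at k6
  exact absurd k6 (by decide)

omit f hs in
theorem good_H {S : List ℕ} (h : allL (fun P => inM24 P && Nat.beq (ap (ccols P) 47) 47) S = true) :
    ∀ P ∈ S, Good (stabilizer M24 oct0) P := fun P hP => by
  have := (allL_iff _ _).1 h P hP
  rw [Bool.and_eq_true, Nat.beq_eq] at this
  exact ⟨_, (mem_stab_oct0 (rep_m24 this.1)).2 this.2, rep_m24 this.1⟩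

/-- evaluation of a word -/
def wd (S : List ℕ) : List ℕ → ℕ
  | [] => pone
  | i :: w => pmul (S.getD i pone) (wd S w)

omit f hs in
theorem good_wd {H : Subgroup M24} {S : List ℕ} (h : ∀ P ∈ S, Good H P) : ∀ w, Good H (wd S w)
  | [] => good_one H
  | i :: w => Good.mul (by
    by_cases e : i < S.length
    · rw [List.getD_eq_getElem _ _ e]; exact h _ (List.getElem_mem e)
    · rw [List.getD_eq_default _ _ (not_lt.1 e)]; exact good_one H) (good_wd h w)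

end Qe3

open Qe3 in
theorem qe3 : QE3.{u} := fun G _ _ D Q f hs q h15 => by
  have VN : D.V ≤ 𝒩(Q) := (D.ms.V_le_pre _).trans (O_norm f hs q)
  let S : Subgroup M24 := ((𝒩(Q)).subgroupOf D.N).map D.ms.hom
  have hS : ∀ x ∈ D.N, D.p x ∈ S ↔ x ∈ 𝒩(Q) := fun x hx => ⟨fun ⟨y, hy, e⟩ => by
    obtain ⟨a, ha, rfl⟩ := D.ms.p_eq y.2 hx e
    exact mul_mem hy (VN (D.ms.v_V ha)), fun h => ⟨⟨x, hx⟩, h, rfl⟩⟩
  have hH := good_H (S := e16G ++ [g15, 725895487971383339971559185675552800, 718264397225011938954477809914909792,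
    972876580985834619574089616508158978]) (by decide +kernel)
  have step : ∀ {τ C : ℕ}, qk1 τ = true → qk2 (ccols τ) = true → Good S τ → Good (stabilizer M24 oct0) τ →
      Good (stabilizer M24 oct0) C → pmul τ C = pmul C τ → Good S C := fun c1 c2 g1 g2 g3 e => by
    obtain ⟨x, xH, xN, hx⟩ := D.ex_pre g2
    obtain ⟨c, cH, cN, hc⟩ := D.ex_pre g3
    have n1 : x ∈ 𝒩(Q) := (hS x xN).1 (let ⟨_, a, b⟩ := g1; b.unique hx ▸ a)
    have n2 : x ∈ 𝒩(cj c Q) := by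
      rw [← cj_norm, mem_cj, ← hS _ (mul_mem (mul_mem (inv_mem cN) xN) cN), D.ms.p_mul (mul_mem (inv_mem cN) xN) cN,
        D.ms.p_mul (inv_mem cN) xN, D.ms.p_inv cN, mul_assoc, ((hx.mul hc).eq_iff (hc.mul hx)).2 e,
        inv_mul_cancel_left]
      exact (hS x xN).2 n1
    exact ⟨_, (hS c cN).2 (mem_norm_of_cj_le (uq f hs c1 c2 xH hx q (cj_qs f hs q cH) n1 n2)), hc⟩
  have g1 : Good S g15 := by
    obtain ⟨x, -, xN, hx⟩ := D.ex_pre (hH g15 (by simp))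
    exact ⟨_, (hS x xN).2 (h15 x xN hx), hx⟩
  have g2 : Good S 972876580985834619574089616508158978 :=
    let ⟨g, a, b⟩ := g1
    ⟨_, pow_mem a 5, (show ppow g15 5 = 972876580985834619574089616508158978 by decide +kernel) ▸ b.pow 5⟩
  have g3 := step (by decide +kernel) (by decide +kernel) g2 (hH _ (by simp))
    (hH 725895487971383339971559185675552800 (by simp)) (by decide +kernel)
  have g4 := step (by decide +kernel) (by decide +kernel) g3 (hH _ (by simp))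
    (hH 718264397225011938954477809914909792 (by simp)) (by decide +kernel)
  have g5 : ∀ P ∈ e16G ++ [g15, 725895487971383339971559185675552800, 718264397225011938954477809914909792,
      972876580985834619574089616508158978], Good S P := fun P hP => by
    rcases List.mem_append.1 hP with h | h
    · obtain ⟨x, xO, xN, hx⟩ := D.ex_pre (e16G_good P h)
      exact ⟨_, (hS x xN).2 (O_norm f hs q xO), hx⟩
    · simp only [List.mem_cons, List.not_mem_nil, or_false] at h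
      rcases h with rfl | rfl | rfl | rfl
      exacts [g1, g3, g4, g2]
  have hle : stabilizer M24 oct0 ≤ S := octG_eq ▸ gen_le fun P hP => by
    have e : octG = [[7, 7, 5, 5, 4, 5, 4, 4, 2, 5], [7, 6, 4, 6, 5, 4, 4, 3, 6, 5, 5, 4]].map (wd (e16G ++ [g15,
        725895487971383339971559185675552800, 718264397225011938954477809914909792,
        972876580985834619574089616508158978])) := by decide +kernel
    rw [e] at hP
    obtain ⟨w, -, rfl⟩ := List.mem_map.1 hP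
    exact good_wd g5 w
  exact fun x hx => (hS x (D.ms.mem_pre.1 hx).1).1 (hle (D.ms.mem_pre.1 hx).2)

end CL.M11.C
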