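/-
Project M11, the code case: certificates on the involutions of `P2` for `VC1` and `VC2`.
-/
import Cfsg.Agent.M11.FF
import Cfsg.Agent.M11.ModB

set_option autoImplicit false

namespace CL.M11.C.Vc

open Cfsg CL.Spor
open CL.F24 (ap)

def cm4 (s t : ℕ) : Bool := allL (fun k => Nat.beq (pf s (pf t k)) (pf t (pf s k))) [4, 3, 1, 23]

theorem cm4_of {P Q : ℕ} {g x : M24} (r : Rep P g) (r' : Rep Q x) (c : g * x = x * g) : cm4 P Q = true :=
  (allL_iff _ _).2 fun k hk => by
    have hk : k < 24 := by revert k; decide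
    have := congrArg (fun y : M24 => gIdx (y • gPt k)) c
    simp only [mul_smul, r.apply, r'.apply, gIdx_gPt hk] at this
    exact Nat.beq_eq.mpr this

def adjL (P : ℕ) (l : List ℕ) : ℕ := List.rec (motive := fun _ => ℕ) 0
  (fun s _ ih => cond (cm4 P s) (Nat.lor ih (Nat.shiftLeft 1 (Nat.mod s 2283))) ih) l

theorem adjL_spec {P s : ℕ} (h : cm4 P s = true) : ∀ l, s ∈ l → (adjL P l).testBit (Nat.mod s 2283) = true
  | t :: l, m => by
    change (cond (cm4 P t) (adjL P l ||| 1 <<< Nat.mod t 2283) (adjL P l)).testBit _ = true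
    rcases List.mem_cons.1 m with rfl | m
    · simp [h, Nat.one_shiftLeft]
    · cases cm4 P t <;> simp [adjL_spec h l m]

abbrev Rc := ℕ × ℕ × ℕ

/-- the record of an involution: fixed vectors and commuting involutions -/
noncomputable def rc (P : ℕ) : Rc := (P, fm (ccols P), adjL P invL)

noncomputable def mk3 (l : List ℕ) : (List Rc → Bool) → Bool :=
  List.rec (motive := fun _ => (List Rc → Bool) → Bool) (fun k => k [])
    (fun P _ ih k => frc (fm (ccols P)) fun F => frc (adjL P invL) fun C => ih fun r => k ((P, F, C) :: r)) l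

theorem mk3_eq : ∀ l k, mk3 l k = k (l.map rc)
  | [], _ => rfl
  | P :: l, k => (frc_eq (fm (ccols P)) fun F => frc (adjL P invL) fun C => mk3 l fun r => k ((P, F, C) :: r)).trans
      ((frc_eq (adjL P invL) fun C => mk3 l fun r => k ((P, fm (ccols P), C) :: r)).trans (mk3_eq l _))

def ad (s t : Rc) : Bool := Nat.testBit s.2.2 (Nat.mod t.1 2283)

def spanL (l : List ℕ) : List ℕ := List.rec (motive := fun _ => List ℕ) [0]
  (fun c _ ih => cond (anyL (Nat.beq c) ih) ih (ih ++ ih.map (Nat.xor c))) l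

theorem spanL_spec {C : ℕ → Prop} (h0 : C 0) (hx : ∀ a b, C a → C b → C (a ^^^ b)) :
    ∀ l, (∀ c ∈ l, C c) → ∀ x ∈ spanL l, C x
  | [], _, x, m => List.mem_singleton.1 m ▸ h0
  | c :: l, h, x, m => by
    have ih := spanL_spec h0 hx l fun d m => h d (List.mem_cons_of_mem _ m)
    change x ∈ cond (anyL (Nat.beq c) (spanL l)) (spanL l) (spanL l ++ (spanL l).map (Nat.xor c)) at m
    cases e : anyL (Nat.beq c) (spanL l) <;> rw [e] at m
    · rcases List.mem_append.1 m with m | m
      · exact ih x m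
      · obtain ⟨y, m', rfl⟩ := List.mem_map.1 m
        exact hx _ _ (h c (by simp)) (ih y m')
    · exact ih x m

/-- the commutator space -/
noncomputable def rg (P : ℕ) : ℕ := MH.orL (spanL ([1, 2, 4, 8, 16, 32, 64, 128, 256, 512, 1024].map (cm P)))

theorem rg_spec {P a : ℕ} (h : (rg P).testBit a = true) : ∃ y < 2048, cm P y = a :=
  spanL_spec (C := fun a => ∃ y < 2048, cm P y = a) ⟨0, by norm_num, (Nat.zero_xor _).trans (J4.ap_zero _)⟩
    (fun _ _ ⟨y, a, b⟩ ⟨w, c, d⟩ => ⟨_, xor_lt11 a c, by rw [cm_xor, b, d]⟩) _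
    (fun c m => by
      obtain ⟨y, m', rfl⟩ := List.mem_map.1 m
      exact ⟨y, by clear * - m'; revert y; decide, rfl⟩) a (MH.orL_spec _ h)

theorem msk_spec' {f : ℕ → Bool} {x : ℕ} : ∀ k b : ℕ, (msk f k b).testBit x = true → f x = true
  | 0, b, h => by
    change (cond (f b) (1 <<< b) 0).testBit x = true at h
    cases e : f b <;> rw [e] at h
    · simp at h
    · rw [cond_true, Nat.one_shiftLeft, Nat.testBit_two_pow, decide_eq_true_eq] at h
      exact h ▸ e
  | k + 1, b, h => by
    change (msk f k b ||| msk f k (b + 1 <<< k)).testBit _ = true at h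
    rw [Nat.testBit_or, Bool.or_eq_true] at h
    exact h.elim (msk_spec' k _) (msk_spec' k _)

theorem fm_iff (P : ℕ) {a : ℕ} (ha : a < 2048) : (fm (ccols P)).testBit a = true ↔ cm P a = 0 := by
  refine ⟨fun h => ?_, fun h => fm_spec rfl (ccols_lt P) ha (Nat.xor_eq_zero_iff.1 h).symm⟩
  rw [fm, frc_eq] at h
  have := Nat.eq_of_beq_eq_true (msk_spec' (f := fun a => Nat.beq (lin (linTab (ccols P ++ [0])) a) a) 11 0 h)
  rw [lin_linTab rfl ?_ (by omega), xorSel_append, show (ccols P).length = 11 from rfl,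
    Nat.mod_eq_of_lt (b := 2 ^ 11) ha, J4.xorSel_eq_ap] at this
  · exact Nat.xor_eq_zero_iff.2 (by simpa [xorSel_cons, xorSel_nil, eq_comm] using this)
  · intro c hc
    simp only [ccols, List.cons_append, List.nil_append, List.mem_cons, List.not_mem_nil, or_false] at hc
    rcases hc with h | h | h | h | h | h | h | h | h | h | h | h <;> rw [h]
    on_goal 12 => norm_num
    all_goals exact (nrm_spec (Nat.and_lt_two_pow (n := 12) _ (by norm_num))).1.trans (by norm_num)

noncomputable def dd (d X Y F : ℕ) : Bool :=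
  Nat.ble (Nat.mul d (PG.pop 11 2048 (Nat.land Y F))) (PG.pop 11 2048 (Nat.land X F))

noncomputable def rel (d X Y : ℕ) (s t : Rc) : Bool := and (ad s t) (dd d X Y t.2.1)

def go {α : Type} (p : α → Bool) (l : List α) : ℕ → Bool :=
  List.rec (motive := fun _ => ℕ → Bool) (fun c => Nat.blt c 31)
    (fun s _ ih c => or (Nat.blt c 31) (cond (p s) (ih c) (ih (Nat.pred c)))) l

theorem go_spec {α : Type} {p : α → Bool} : ∀ (l : List α) (c m : ℕ), go p l c = true → m + l.length ≤ c →
    m + (l.filter p).length < 31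
  | [], c, m, h, k => by have := Nat.blt_eq.mp h; simp at k ⊢; omega
  | s :: l, c, m, h, k => by
    change (Nat.blt c 31 || cond (p s) (go p l c) (go p l (c - 1))) = true at h
    rw [Bool.or_eq_true, Nat.blt_eq] at h
    rcases h with h | h
    · have := List.length_filter_le p (s :: l); omega
    rw [List.length_cons] at k
    rw [List.filter_cons]
    cases e : p s <;> rw [e] at h
    · simpa using go_spec l _ m h (by omega)
    · have := go_spec l _ (m + 1) h (by omega)
      simp only [if_true, List.length_cons]; omega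

noncomputable def big (d X Y : ℕ) (J : List Rc) (s : Rc) : Bool :=
  frc (Nat.land X s.2.1) fun X' => frc (Nat.land Y s.2.1) fun Y' => Nat.ble 31 (cntL (rel d X' Y' s) J)

noncomputable def chkT (J : List Rc) (T : Rc) : Bool :=
  frc (rg T.1) fun M => frc (PG.pop 11 2048 T.2.1) fun n =>
    and (and (or (Nat.beq n 64) (Nat.beq n 128)) (Nat.blt 2 (PG.pop 11 2048 (Nat.land M T.2.1))))
      (fltK (rel (Nat.div n 32) T.2.1 M T) J fun J1 => and (go (big (Nat.div n 32) T.2.1 M J1) J1 J1.length)
        (Nat.ble (cntL (rel (Nat.div n 16) T.2.1 M T) J1) 1))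

theorem cert1 : mk3 invL (fun J => allL (chkT J) (J.take 80)) = true := by decide +kernel
theorem cert2 : mk3 invL (fun J => allL (chkT J) (J.drop 80)) = true := by decide +kernel

theorem cert (P : ℕ) (h : P ∈ invL) : chkT (invL.map rc) (rc P) = true := by
  have m := List.mem_map_of_mem (f := rc) h
  rw [← List.take_append_drop 80 (invL.map rc), List.mem_append] at m
  exact m.elim ((allL_iff _ _).1 ((mk3_eq invL fun J => allL (chkT J) (J.take 80)).symm.trans cert1) _)
    ((allL_iff _ _).1 ((mk3_eq invL fun J => allL (chkT J) (J.drop 80)).symm.trans cert2) _)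

noncomputable def mk2 (l : List ℕ) : (List (ℕ × ℕ) → Bool) → Bool :=
  List.rec (motive := fun _ => (List (ℕ × ℕ) → Bool) → Bool) (fun k => k [])
    (fun P _ ih k => frc (adjL P invL) fun C => ih fun r => k ((P, C) :: r)) l

theorem mk2_eq : ∀ l k, mk2 l k = k (l.map fun P => (P, adjL P invL))
  | [], _ => rfl
  | P :: l, k => (frc_eq (adjL P invL) fun C => mk2 l fun r => k ((P, C) :: r)).trans (mk2_eq l _)

def ad2 (s t : ℕ × ℕ) : Bool := Nat.testBit s.2 (Nat.mod t.1 2283)

theorem cert3 : mk2 invL (fun J => fltK (fun s => Nat.ble 63 (cntL (ad2 s) J)) J fun J1 =>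
    fltK (fun s => not (sift levTR s.1)) J1 fun A => fltK (fun s => not (sift levHX s.1)) J1 fun B =>
      allL (fun s => allL (fun t => not (ad2 s t)) B) A) = true := by decide +kernel

end CL.M11.C.Vc
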