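/-
Project M11, the code case: `VC1`.
-/
import Cfsg.Agent.M11.VcC

set_option autoImplicit false

namespace CL.M11.C

open Cfsg Subgroup MulAction CL.Spor CL.Grp CL.Even
open CL.F24 (ap)
open scoped commutatorElement

universe u

attribute [local irreducible] fm PG.pop invL P2 Vc.rg Vc.adjL

namespace Vc
variable {G : Type u} [Group G] {D : Dat G} {J V0 : Subgroup G} {t y : G}

theorem cn {α : Type} {A : Subgroup M24} (π : α → ℕ) (L : List α) (h : ∀ g ∈ A, g ≠ 1 → ∃ s ∈ L, Rep (π s) g) :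
    Nat.card A ≤ L.length + 1 := by
  classical
  rw [← SetLike.coe_sort_coe, Nat.card_coe_set_eq]
  refine le_trans (Set.ncard_le_ncard (t := ((1 :: L.map fun s => m24 (π s)).toFinset : Set M24)) fun g hg => ?_) ?_
  · by_cases e : g = 1
    · simp [e]
    obtain ⟨s, m, r⟩ := h g hg e
    simpa using .inr ⟨s, m, r.m24_eq⟩
  · rw [Set.ncard_coe_finset]; exact (List.toFinset_card_le _).trans (by simp)

theorem card_of (K L : Subgroup G) : Nat.card (K.subgroupOf L) = Nat.card (K ⊓ L : Subgroup G) := by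
  rw [← inf_subgroupOf_right, Nat.card_congr (subgroupOfEquivOfLe inf_le_right).toEquiv]

variable (h : VH D.T D.V J V0 t y)
include h

theorem JN : J ≤ D.N := h.JS.trans D.ms.T_le

theorem comm {a b : G} (ha : a ∈ J) (hb : b ∈ J) : a * b = b * a := by
  rw [← inv_eq_of_mul_eq_one_left (h.sq _ (mul_mem ha hb)), mul_inv_rev, inv_eq_of_mul_eq_one_left (h.sq _ ha),
    inv_eq_of_mul_eq_one_left (h.sq _ hb)]

/-- the map to `M₂₄` -/
noncomputable def fJ : J →* M24 := D.ms.hom.comp (inclusion (JN h))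

theorem card_fJ : Nat.card (J ⊓ D.V : Subgroup G) * Nat.card (fJ h).range = Nat.card J := by
  rw [← index_ker, ← card_mul_index (fJ h).ker, inf_comm, ← card_of]
  congr 3
  ext x
  exact (D.ms.p_ker (JN h x.2)).symm

theorem rep_fJ {g : M24} (hg : g ∈ (fJ h).range) (e : g ≠ 1) : ∃ P ∈ invL, Rep P g := by
  obtain ⟨x, rfl⟩ := hg
  exact invL_spec (D.ms.mem_T.1 (h.JS x.2)).2 e
    (by rw [← map_mul, show x * x = 1 from Subtype.ext (h.sq _ x.2), map_one])

theorem cm4_fJ {g x : M24} {P Q : ℕ} (hg : g ∈ (fJ h).range) (hx : x ∈ (fJ h).range) (r : Rep P g) (r' : Rep Q x)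
    (m : Q ∈ invL) : (adjL P invL).testBit (Nat.mod Q 2283) = true := by
  obtain ⟨a, rfl⟩ := hg
  obtain ⟨b, rfl⟩ := hx
  exact adjL_spec (cm4_of r r' (by rw [← map_mul, ← map_mul, show a * b = b * a from Subtype.ext (comm h a.2 b.2)])) _ m

end Vc
open Vc

theorem vc1 : VC1.{u} := fun G _ _ D J V0 t y h => by
  classical
  have tN := JN h h.tJ
  have t1 : D.p t ≠ 1 := fun e => h.tV ((D.ms.p_ker tN).1 e)
  have tA : D.p t ∈ (fJ h).range := ⟨⟨t, h.tJ⟩, rfl⟩
  obtain ⟨T, mT, rT⟩ := rep_fJ h tA t1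
  let φ : D.V →* G := MonoidHom.mk' (fun a => ⁅a.1, t⁆) fun ⟨_, a⟩ ⟨_, b⟩ => by
    obtain ⟨i, hi, rfl⟩ := D.ms.mem_V.1 a
    obtain ⟨j, hj, rfl⟩ := D.ms.mem_V.1 b
    change ⁅D.v i * D.v j, t⁆ = ⁅D.v i, t⁆ * ⁅D.v j, t⁆
    rw [← D.ms.v_xor hi hj, D.comm_v tN rT hi, D.comm_v tN rT hj, D.comm_v tN rT (xor_lt11 hi hj)]
    exact (congrArg D.v (cm_xor T i j)).trans (D.ms.v_xor (cm_lt T hi) (cm_lt T hj))
  have cp : ∀ K ≤ D.V, Nat.card K = ((Finset.range 2048).filter fun a => D.v a ∈ K).card := fun K hK =>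
    D.card_list _ (fun x => ⟨fun hx => by
      obtain ⟨a, l, rfl⟩ := D.ms.mem_V.1 (hK hx)
      exact ⟨a, by simp [l, hx], l, rfl⟩, fun ⟨a, m, _, e⟩ => e ▸ (Finset.mem_filter.1 m).2⟩)
      fun a m => Finset.mem_range.1 (Finset.mem_filter.1 m).1
  have fx : ∀ {x P a}, x ∈ J → Rep P (D.p x) → a < 2048 →
      ((fm (ccols P)).testBit a = true ↔ D.v a ∈ centralizer {x}) := fun hx r l => by
    rw [fm_iff _ l, mem_centralizer_singleton_iff, D.c_one (JN h hx) r l]
  have e1 : Nat.card (centralizer {t} ⊓ D.V : Subgroup G) * Nat.card (φ.range ⊓ (J ⊓ D.V) : Subgroup G) = Nat.card V0 := by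
    have k1 : (φ.comp (inclusion h.le)).ker = (centralizer {t} ⊓ D.V).subgroupOf V0 := by
      ext x
      exact commutatorElement_eq_one_iff_mul_comm.trans (mem_centralizer_singleton_iff.symm.trans
        (and_iff_left (h.le x.2)).symm)
    have k2 : (φ.comp (inclusion h.le)).range = φ.range ⊓ (J ⊓ D.V) := by
      refine le_antisymm ?_ ?_
      · rintro _ ⟨x, rfl⟩
        exact ⟨⟨_, rfl⟩, h.cm _ x.2 _ h.tJ, by
          change x.1 * t * x.1⁻¹ * t⁻¹ ∈ _
          rw [mul_assoc, mul_assoc, ← mul_assoc t]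
          exact mul_mem (h.le x.2) (D.ms.conj_V tN (inv_mem (h.le x.2)))⟩
      · rintro _ ⟨⟨x, rfl⟩, k, -⟩
        exact ⟨⟨x, h.tY _ x.2 k⟩, rfl⟩
    rw [← card_mul_index (φ.comp (inclusion h.le)).ker, index_ker, k1, k2, Nat.card_congr (subgroupOfEquivOfLe
      (H := centralizer {t} ⊓ D.V) fun x hx => h.tY _ hx.2 (by
        rw [commutatorElement_eq_one_iff_mul_comm.2 (mem_centralizer_singleton_iff.1 hx.1)]; exact one_mem _)).toEquiv]
  have e3 : ∀ K, Nat.card (φ.range ⊓ K : Subgroup G) * φ.range.relIndex K = Nat.card K := fun K => by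
    rw [← card_of]; exact card_mul_index _
  have e4 : φ.range.relIndex (J ⊓ D.V) * Nat.card (fJ h).range = PG.pop 11 2048 (fm (ccols T)) := by
    refine Nat.eq_of_mul_eq_mul_left (Nat.card_pos (α := (φ.range ⊓ (J ⊓ D.V) : Subgroup G))) ?_
    rw [← mul_assoc, e3, card_fJ h, ← h.card, ← e1, mul_comm, cp _ inf_le_right, PG.pop_eq (by norm_num), PG.cnt]
    rw [Finset.filter_congr fun a m => by
      rw [mem_inf, and_iff_left (D.ms.v_V (Finset.mem_range.1 m)), ← fx h.tJ rT (Finset.mem_range.1 m)]]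
  generalize hd : φ.range.relIndex (J ⊓ D.V) = d at e4
  have key : ∀ {g x P Q}, g ∈ (fJ h).range → x ∈ (fJ h).range → Rep P g → Rep Q x → ∀ c ≤ d,
      dd c (Nat.land (fm (ccols T)) (fm (ccols P))) (Nat.land (rg T) (fm (ccols P))) (fm (ccols Q)) = true := by
    rintro _ _ P Q ⟨g, rfl⟩ ⟨x, rfl⟩ r r' c hc
    let K := centralizer {t} ⊓ centralizer {g.1} ⊓ centralizer {x.1} ⊓ D.V
    have k1 : d ≤ φ.range.relIndex K := hd ▸ relIndex_le_of_le_right (fun a ha => ⟨⟨⟨?_, ?_⟩, ?_⟩, ha.2⟩)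
      index_ne_zero_of_finite
    rotate_left
    · exact mem_centralizer_singleton_iff.2 (comm h ha.1 h.tJ)
    · exact mem_centralizer_singleton_iff.2 (comm h ha.1 g.2)
    · exact mem_centralizer_singleton_iff.2 (comm h ha.1 x.2)
    refine Nat.ble_eq.mpr ?_
    rw [PG.pop_eq (by norm_num), PG.pop_eq (by norm_num)]
    refine (Nat.mul_le_mul (hc.trans k1) (?_ : _ ≤ Nat.card (φ.range ⊓ K : Subgroup G))).trans
      (((mul_comm _ _).trans (e3 K)).trans_le ?_)
    · rw [cp _ (inf_le_right.trans inf_le_right)]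
      refine Finset.card_le_card (Finset.monotone_filter_right _ fun a m k => ?_)
      rw [Finset.mem_range] at m
      change (rg T &&& _ &&& _).testBit a = true at k
      rw [Nat.testBit_and, Nat.testBit_and, Bool.and_eq_true, Bool.and_eq_true, fx g.2 r m, fx x.2 r' m] at k
      obtain ⟨b, l, e⟩ := rg_spec k.1.1
      have e' : ⁅D.v b, t⁆ = D.v a := (D.comm_v tN rT l).trans (congrArg D.v e)
      refine ⟨⟨⟨_, D.ms.v_V l⟩, e'⟩, ⟨⟨mem_centralizer_singleton_iff.2 ?_, k.1.2⟩, k.2⟩, D.ms.v_V m⟩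
      have t2 := inv_eq_of_mul_eq_one_left (h.sq _ h.tJ)
      conv_rhs => rw [← D.ms.v_inv m]
      rw [← e', commutatorElement_inv, commutatorElement_def, commutatorElement_def, D.ms.v_inv l, t2]
      simp only [← mul_assoc, h.sq _ h.tJ, one_mul, mul_assoc _ t t, mul_one]
    · rw [cp _ inf_le_right]
      refine Finset.card_le_card (Finset.monotone_filter_right _ fun a m k => ?_)
      rw [Finset.mem_range] at m
      change (_ &&& _ &&& _ : ℕ).testBit a = true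
      rw [Nat.testBit_and, Nat.testBit_and, (fx g.2 r m).2 k.1.1.2, (fx x.2 r' m).2 k.1.2, (fx h.tJ rT m).2 k.1.1.1]
      rfl
  have key1 : ∀ {x Q}, x ∈ (fJ h).range → Rep Q x → Q ∈ invL → ∀ c ≤ d,
      Vc.rel c (fm (ccols T)) (rg T) (rc T) (rc Q) = true := fun hx r m c hc => by
    have := key hx hx r r c hc
    rw [dd, show ∀ a b : ℕ, Nat.land (Nat.land a b) b = Nat.land a b from fun a b => (Nat.and_assoc a b b).trans
      (congrArg _ (Nat.and_self b)), show ∀ a b : ℕ, Nat.land (Nat.land a b) b = Nat.land a b from fun a b =>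
      (Nat.and_assoc a b b).trans (congrArg _ (Nat.and_self b))] at this
    exact Bool.and_eq_true_iff.2 ⟨cm4_fJ h tA hx rT r m, this⟩
  have c := cert T mT
  rw [chkT, frc_eq, frc_eq, fltK_eq] at c
  simp only [Bool.and_eq_true, Bool.or_eq_true, Nat.beq_eq, Nat.blt_eq, Nat.ble_eq, cntL_eq,
    List.countP_eq_length_filter, show (rc T).2.1 = fm (ccols T) from rfl, show (rc T).1 = T from rfl,
    show ∀ a b, Nat.div a b = a / b from fun _ _ => rfl] at c
  obtain ⟨⟨c1, c2⟩, c3, c4⟩ := c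
  rw [← card_fJ h, mul_comm]
  refine Nat.mul_le_mul_left _ (not_lt.1 fun lt => ?_)
  have k5 := key1 tA rT mT d le_rfl
  replace k5 : d * PG.pop 11 2048 (Nat.land (rg T) (fm (ccols T))) ≤ PG.pop 11 2048 (fm (ccols T) &&& fm (ccols T)) :=
    Nat.ble_eq.mp (Bool.and_eq_true_iff.1 k5).2
  rw [Nat.and_self] at k5
  generalize PG.pop 11 2048 (fm (ccols T)) = n at c1 c3 c4 k5 e4
  have d1 : n / 32 ≤ d := by
    by_contra q
    obtain rfl | rfl | rfl | rfl : d = 0 ∨ d = 1 ∨ d = 2 ∨ d = 3 := by omega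
    all_goals omega
  have i1 : ∀ g ∈ (fJ h).range, g ≠ 1 → ∃ P ∈ invL, Rep P g ∧
      rc P ∈ (invL.map rc).filter (Vc.rel (n / 32) (fm (ccols T)) (rg T) (rc T)) := fun g hg e =>
    let ⟨P, m, r⟩ := rep_fJ h hg e
    ⟨P, m, r, List.mem_filter.2 ⟨List.mem_map_of_mem m, key1 hg r m _ d1⟩⟩
  generalize (invL.map rc).filter _ = L at i1 c3 c4
  have a1 : Nat.card (fJ h).range < 32 := not_le.1 fun q => by
    have := cn (A := (fJ h).range) (fun s : Rc => s.1) (L.filter (Vc.big (n / 32) (fm (ccols T)) (rg T) L)) fun g hg e => by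
      obtain ⟨P, m, r, k⟩ := i1 g hg e
      refine ⟨_, List.mem_filter.2 ⟨k, ?_⟩, r⟩
      rw [Vc.big, frc_eq, frc_eq, Nat.ble_eq, cntL_eq, List.countP_eq_length_filter]
      refine Nat.le_of_succ_le_succ (q.trans (cn (fun s : Rc => s.1) _ fun x hx e' => ?_))
      obtain ⟨Q, m', r', k'⟩ := i1 x hx e'
      exact ⟨_, List.mem_filter.2 ⟨k', Bool.and_eq_true_iff.2 ⟨cm4_fJ h hg hx r r' m', key hg hx r r' _ d1⟩⟩, r'⟩
    have := go_spec L _ 0 c3 (by simp)
    omega
  have d2 : n / 16 ≤ d := by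
    by_contra q
    obtain rfl | rfl | rfl | rfl | rfl | rfl | rfl | rfl : d = 0 ∨ d = 1 ∨ d = 2 ∨ d = 3 ∨ d = 4 ∨ d = 5 ∨ d = 6 ∨ d = 7 := by
      omega
    all_goals omega
  have a2 := (cn (A := (fJ h).range) (fun s : Rc => s.1) _ fun g hg e =>
    let ⟨P, m, r, k⟩ := i1 g hg e
    ⟨_, List.mem_filter.2 ⟨k, key1 hg r m _ d2⟩, r⟩).trans (Nat.succ_le_succ c4)
  have := (Nat.mul_le_mul_left d c2).trans k5
  have := e4.ge.trans (Nat.mul_le_mul_left d a2)
  omega

end CL.M11.C
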