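/-
Project M11, the code case: `VC2`.
-/
import Cfsg.Agent.M11.Vc1

set_option autoImplicit false

namespace CL.M11.C

open Cfsg Subgroup MulAction CL.Spor CL.Grp CL.Even
open CL.F24 (ap all2 all2_spec)
open scoped commutatorElement

universe u

attribute [local irreducible] invL P2 Vc.adjL

namespace Vc
variable {G : Type u} [Group G] {D : Dat G} {J V0 : Subgroup G} {t y : G} (h : VH D.T D.V J V0 t y)
include h

theorem cases (hc : 64 ≤ Nat.card (fJ h).range) : (fJ h).range = HX ∨ (fJ h).range = TR := by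
  have c := cert3
  rw [mk2_eq, fltK_eq, fltK_eq, fltK_eq] at c
  have i1 : ∀ g ∈ (fJ h).range, g ≠ 1 → ∃ P ∈ invL, Rep P g ∧ (P, adjL P invL) ∈ (invL.map fun P => (P, adjL P invL)).filter
      fun s => Nat.ble 63 (cntL (ad2 s) (invL.map fun P => (P, adjL P invL))) := fun g hg e => by
    obtain ⟨P, m, r⟩ := rep_fJ h hg e
    refine ⟨P, m, r, List.mem_filter.2 ⟨List.mem_map.2 ⟨P, m, rfl⟩, Nat.ble_eq.mpr ?_⟩⟩
    rw [cntL_eq, List.countP_eq_length_filter]
    refine Nat.le_of_succ_le_succ (hc.trans (cn (fun s : ℕ × ℕ => s.1) _ fun x hx e' => ?_))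
    obtain ⟨Q, m', r'⟩ := rep_fJ h hx e'
    exact ⟨(Q, _), List.mem_filter.2 ⟨List.mem_map.2 ⟨Q, m', rfl⟩, cm4_fJ h hg hx r r' m'⟩, r'⟩
  generalize List.filter _ (invL.map _) = L at c i1
  suffices (fJ h).range ≤ HX ∨ (fJ h).range ≤ TR from
    this.imp (eq_of_le_of_card_ge · (card_HX ▸ hc)) (eq_of_le_of_card_ge · (card_TR ▸ hc))
  by_contra! n
  obtain ⟨x, hx, x1⟩ := SetLike.not_le_iff_exists.1 n.1
  obtain ⟨g, hg, g1⟩ := SetLike.not_le_iff_exists.1 n.2
  obtain ⟨P, m, r, k⟩ := i1 g hg fun e => g1 (e ▸ one_mem _)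
  obtain ⟨Q, m', r', k'⟩ := i1 x hx fun e => x1 (e ▸ one_mem _)
  have := (allL_iff _ _).1 ((allL_iff _ _).1 c _ (List.mem_filter.2 ⟨k, by simpa [chainTR.mem_iff_sift r] using g1⟩)) _
    (List.mem_filter.2 ⟨k', by simpa [chainHX.mem_iff_sift r'] using x1⟩)
  rw [show ad2 (P, adjL P invL) (Q, adjL Q invL) = true from cm4_fJ h hg hx r r' m'] at this
  exact absurd this (by simp)

theorem exJ {P : ℕ} (hP : Good (fJ h).range P) : ∃ x ∈ J, Rep P (D.p x) :=
  let ⟨_, ⟨x, e⟩, r⟩ := hP; ⟨x, x.2, (e ▸ r :)⟩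

theorem spanJ {K : Subgroup M24} {lv : List (ℕ × List ℕ)} (c : SChain K lv) (hK : (fJ h).range = K) (S Y us : List ℕ)
    (hS : ∀ P ∈ S, Good K P) (hY : ∀ a ∈ Y, a < 2048)
    (e : allProds (fun T => or (Nat.beq T pone) (allL (fun u => anyL (Nat.beq u)
      (spanL (Y.flatMap fun a => cond (Nat.beq (cm T a) 0) (S.map (cm · a)) []))) us)) lv pone = true) :
    ∀ u ∈ us, D.v u ∈ J := fun u hu => by
  have tN := JN h h.tJ
  obtain ⟨T, r, k⟩ := c.forall_mem e (D.p t) (hK.le ⟨⟨t, h.tJ⟩, rfl⟩)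
  simp only [Bool.or_eq_true, Nat.beq_eq, ← D.memV tN r, h.tV, false_or, allL_iff, anyL_iff] at k
  obtain ⟨_, m, rfl⟩ := k u hu
  refine (spanL_spec (C := fun a => a < 2048 ∧ D.v a ∈ J) ⟨by norm_num, D.ms.v_zero ▸ one_mem _⟩
    (fun a b k l => ⟨xor_lt11 k.1 l.1, D.ms.v_xor k.1 l.1 ▸ mul_mem k.2 l.2⟩) _ (fun c m => ?_) u m).2
  obtain ⟨a, ha, m⟩ := List.mem_flatMap.1 m
  have l := hY a ha
  cases q : Nat.beq (cm T a) 0 <;> rw [q] at m
  · simp at m
  obtain ⟨s, hs, rfl⟩ := List.mem_map.1 m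
  obtain ⟨x, hx, r'⟩ := exJ h (hK ▸ hS s hs)
  refine ⟨cm_lt s l, (D.comm_v (JN h hx) r' l).subst (motive := (· ∈ J)) (h.cm _ (h.tY _ (D.ms.v_V l) ?_) x hx)⟩
  rw [commutatorElement_eq_one_iff_mul_comm.2 ((D.c_one tN r l).2 (Nat.eq_of_beq_eq_true q))]
  exact one_mem _

theorem not_TR (hK : (fJ h).range = TR) : False := by
  have z := spanJ h chainTR hK [979121071158219704299181131031480352, 971592882964418941354553515258775584,
    970499966350631336865513127433832480, 112424983097229755092343687492459521, 70351105155508323366877919011341026,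
    236664407677519277425755142460815907] [1, 256, 34, 257, 290] [0, 47, 1728, 1775]
    (chainTR.good_of_sift (good_top_of_all (by decide +kernel)) (by decide +kernel)) (by decide) (by decide +kernel)
  obtain ⟨a, l, e⟩ := D.ms.mem_V.1 h.yV
  have g : ∀ P ∈ [979121071158219704299181131031480352, 971592882964418941354553515258775584,
      970499966350631336865513127433832480, 976448692869377735270425038196672544, 972512676110088067912772961567868960,
      966182099583441531322624363496310816, 961365507626256404119956257276790816], Good TR P :=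
    chainTR.good_of_sift (good_top_of_all (by decide +kernel)) (by decide +kernel)
  obtain ⟨s, hs, q⟩ := (anyL_iff _ _).1 (all2_spec (f := fun a => anyL (fun s => anyL (Nat.beq (cm s a)) [0, 47, 1728, 1775])
    [979121071158219704299181131031480352, 971592882964418941354553515258775584,
      970499966350631336865513127433832480, 976448692869377735270425038196672544, 972512676110088067912772961567868960,
      966182099583441531322624363496310816, 961365507626256404119956257276790816]) (k := 11) (by decide +kernel) a l)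
  obtain ⟨_, m, q⟩ := (anyL_iff _ _).1 q
  obtain rfl := Nat.eq_of_beq_eq_true q
  obtain ⟨x, hx, r⟩ := exJ h (hK ▸ g s hs)
  have := (D.memV (JN h hx) r).1 (h.inj x hx (by rw [← e, D.comm_v' (JN h hx) r l]; exact z _ m))
  clear * - hs this
  revert s
  decide +kernel

end Vc
open Vc

theorem vc2 : VC2.{u} := fun G _ _ D J V0 t y h hc => by
  have hK := (cases h (Nat.le_of_mul_le_mul_left (((mul_comm _ _).trans_le hc).trans (card_fJ h).ge)
    Nat.card_pos)).resolve_right (not_TR h)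
  have f := ff2 G D
  have JR : J ≤ D.R := fun x hx => D.ms.mem_pre.2 ⟨JN h hx, hK.le ⟨⟨x, hx⟩, rfl⟩⟩
  have UJ : D.U ≤ J := fun x hx => by
    obtain ⟨a, m, -, rfl⟩ := D.memU.1 hx
    exact spanJ h chainHX hK hxG [1, 256, 290, 608, 644, 12, 864, 900, 34, 257, 516, 97, 388, 578, 128, 1026, 512, 96, 769,
      586, 640, 353] UL hxG_good (by decide) (by decide +kernel) a m
  have IU : J ⊓ D.V ≤ D.U := fun x hx => by
    obtain ⟨a, l, rfl⟩ := D.ms.mem_V.1 hx.2
    have e := all2_spec (f := fun a => or (Nat.beq (ap mU a) 0) (anyL (fun P => not (Nat.beq (cm P a) 0)) hxG)) (k := 11)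
      (by decide +kernel) a l
    rw [Bool.or_eq_true, anyL_iff, Nat.beq_eq] at e
    refine (D.v_mem_ks l).2 (e.resolve_right fun ⟨P, m, q⟩ => ?_)
    obtain ⟨r, c, k⟩ := exJ h (hK ▸ hxG_good P m)
    simp [(D.c_one (JN h c) k l).1 (comm h hx.1 c)] at q
  refine ⟨le_antisymm IU (le_inf UJ (D.ks_le _)), le_antisymm (fun x hx => ?_) fun x hx =>
    h.tY x (D.ks_le _ hx) (UJ (f.WR x hx t (JR h.tJ))), le_antisymm (sup_le JR (D.ms.V_le_pre _)) fun r hr => ?_⟩
  · refine f.n2 x (h.le hx) t (JR h.tJ) h.tV (IU ⟨h.cm x hx t h.tJ, ?_⟩)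
    rw [commutatorElement_def, mul_assoc, mul_assoc, ← mul_assoc t]
    exact mul_mem (h.le hx) (D.ms.conj_V (JN h h.tJ) (inv_mem (h.le hx)))
  · obtain ⟨n, k⟩ := D.ms.mem_pre.1 hr
    obtain ⟨x, e⟩ := hK.ge k
    obtain ⟨a, l, rfl⟩ := D.ms.p_eq (JN h x.2) n e
    exact mul_mem_sup x.2 (D.ms.v_V l)

end CL.M11.C
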