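/-
Project M11 (S3318), the code case: `B ^ w ≤ Q`.
-/
import Cfsg.Agent.M11.DC

set_option autoImplicit false

namespace CL.M11.C

open Cfsg Subgroup CL.Grp CL.Even
open scoped commutatorElement

universe u

theorem wn1 : WN1.{u} := by
  intro G _ _ D Q X P v w f wf qi k ⟨eU, eW, eR⟩
  set J := cj w (D.V ⊓ P) with hJ
  have UJ : D.U ≤ J := eU.ge.trans inf_le_left
  have UV : D.U ≤ D.V := D.ks_le _
  have JR : J ≤ D.R := le_sup_left.trans eR.le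
  have VR : D.V ≤ D.R := le_sup_right.trans eR.le
  have RH : D.R ≤ D.H := D.R_le_T.trans D.T_le_H
  have HN : D.H ≤ D.N := D.ms.pre_le _
  have BQ : D.B ≤ Q := qi.inf.ge.trans inf_le_left
  have wU : ∀ i ∈ D.U, w * i * w⁻¹ = i := fun i hi => mul_inv_eq_iff_eq_mul.2 (k.wI i (UV hi) (UJ hi))
  have Jc : ∀ x ∈ J, ∀ y ∈ J, x * y = y * x := fun x hx y hy => by
    have := D.ms.comm (mem_cj.1 hx).1 (mem_cj.1 hy).1
    calc x * y = w * (w⁻¹ * x * w * (w⁻¹ * y * w)) * w⁻¹ := by group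
      _ = y * x := by rw [this]; group
  have Jsq : ∀ x ∈ J, x * x = 1 := fun x hx => by
    calc x * x = w * (w⁻¹ * x * w * (w⁻¹ * x * w)) * w⁻¹ := by group
      _ = 1 := by rw [D.ms.sq (mem_cj.1 hx).1]; group
  have bJ : ∀ b ∈ D.B, w * b * w⁻¹ ∈ J := fun b hb => conj_mem_cj w (eW.ge (f.BW hb))
  have bV : ∀ b ∈ D.B, w * b * w⁻¹ ∈ D.V → b ∈ D.U ∧ w * b * w⁻¹ = b := fun b hb h => by
    have h1 : w * b * w⁻¹ ∈ D.U := eU.le ⟨bJ b hb, h⟩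
    have h2 : w * b * w⁻¹ = b := by
      have := wU _ h1
      calc w * b * w⁻¹ = w⁻¹ * (w * (w * b * w⁻¹) * w⁻¹) * w := by group
        _ = b := by rw [this]; group
    exact ⟨h2 ▸ h1, h2⟩
  have wR0 : w ∈ 𝒩((D.V ⊓ P) ⊔ J) := mem_norm_of_cj_le (by
    rintro _ ⟨x, hx, rfl⟩
    have hxP : x ∈ P := (sup_le inf_le_right (cj_le_of_le inf_le_right k.wN) : (D.V ⊓ P) ⊔ J ≤ P) hx
    have := mul_mem (k.wR x hxP) hx
    rwa [commutatorElement_def, inv_mul_cancel_right] at this)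
  have s1 : ∀ b ∈ D.B, w * b * w⁻¹ ∈ Q ∨ w * b * w⁻¹ * D.u ∈ Q := by
    intro b hb
    by_cases hV : w * b * w⁻¹ ∈ D.V
    · exact .inl ((bV b hb hV).2.symm ▸ BQ hb)
    have hO : w * b * w⁻¹ ∈ D.O := f.n1 _ (JR (bJ b hb)) fun y hy => by
      have hr : w⁻¹ * y * w ∈ D.R := (sup_le (inf_le_left.trans VR) JR : (D.V ⊓ P) ⊔ J ≤ D.R)
        (conj_mem' wR0 (mem_sup_left (eW.ge hy)))
      have h1 : ⁅w⁻¹ * y * w, b⁆ ∈ D.B := mul_mem (conj_mem (f.nB (RH hr)) hb) (inv_mem hb)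
      have h2 : ⁅w⁻¹ * y * w, b⁆ ∈ D.U := commutatorElement_inv b _ ▸ inv_mem (f.WR b (f.BW hb) _ hr)
      have h3 : ⁅y, w * b * w⁻¹⁆ = w * ⁅w⁻¹ * y * w, b⁆ * w⁻¹ := by simp only [commutatorElement_def]; group
      rw [h3, wU _ h2]; exact h1
    obtain ⟨q, hq, hy⟩ := qi.sur _ hO
    have hb' := bJ b hb
    generalize w * b * w⁻¹ = c at hV hO hy hb'
    obtain ⟨y, rfl⟩ : ∃ y, c = q * y := ⟨q⁻¹ * c, by group⟩
    rw [inv_mul_cancel_left] at hy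
    have yy := D.ms.sq hy
    have yi : y⁻¹ = y := inv_eq_of_mul_eq_one_right yy
    have ci : (q * y)⁻¹ = q * y := inv_eq_of_mul_eq_one_right (Jsq _ hb')
    have hW : y ∈ D.W := f.n2 y hy _ (JR hb') hV (by
      have : ⁅y, q * y⁆ = (q * q)⁻¹ := by
        calc ⁅y, q * y⁆ = y * (q * y) * y⁻¹ * (q * y)⁻¹ := rfl
          _ = y * (q * y)⁻¹ * y * (q * y)⁻¹ := by rw [yi]; nth_rewrite 1 [← ci]; rfl
          _ = (q * q)⁻¹ := by group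
      rw [this]
      exact inv_mem (zpowers_le.2 D.zU (qi.sq q hq)))
    rcases f.n3 y hW (fun r hr => by
      obtain ⟨x, hx, y1, hy1, rfl⟩ := (mem_sup_nr (JR.trans (RH.trans HN))).1 (eR.ge hr)
      have h1 : ⁅y, x * y1⁆ = y * (x * y⁻¹ * x⁻¹) := by
        calc ⁅y, x * y1⁆ = y * x * (y1 * y⁻¹) * y1⁻¹ * x⁻¹ := by rw [commutatorElement_def]; group
          _ = _ := by rw [D.ms.comm hy1 (inv_mem hy)]; group
      have h2 : y * (x * y⁻¹ * x⁻¹) = q⁻¹ * (x * q * x⁻¹) := by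
        calc y * (x * y⁻¹ * x⁻¹) = q⁻¹ * (q * y * x) * y⁻¹ * x⁻¹ := by group
          _ = _ := by rw [Jc _ hb' x hx]; group
      rw [h1]
      exact qi.inf.le ⟨h2 ▸ Q.mul_mem (Q.inv_mem hq) (conj_mem (qi.nH (RH (JR hx))) hq),
        D.V.mul_mem hy (conj_mem (HN (RH (JR hx))) (D.V.inv_mem hy))⟩) with h | h
    · exact .inl (mul_mem hq (BQ h))
    · exact .inr (mul_assoc q y _ ▸ mul_mem hq (BQ h))
  rintro _ ⟨b2, hb2, rfl⟩
  change w * b2 * w⁻¹ ∈ Q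
  by_contra h2
  have h2U : b2 ∉ D.U := fun e => h2 ((wU _ e).symm ▸ BQ hb2)
  have h2V : w * b2 * w⁻¹ ∉ D.V := fun e => h2U (bV b2 hb2 e).1
  have q2Q := (s1 b2 hb2).resolve_left h2
  have uJ := UJ D.uU
  obtain ⟨b1, hb1, h1U, q1Q⟩ : ∃ b ∈ D.B, b ∉ D.U ∧ w * b * w⁻¹ ∈ Q := by
    by_contra hc
    have hc' : ∀ b ∈ D.B, w * b * w⁻¹ ∈ Q → b ∈ D.U := fun b hb e => by_contra fun e' => hc ⟨b, hb, e', e⟩
    have hi : D.U.relIndex D.B = 2 := index_eq_two_iff_exists_notMem_and.2 ⟨⟨b2, hb2⟩, h2U, fun b => by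
      rcases s1 b b.2 with e | e
      · exact .inr (hc' b b.2 e)
      · refine .inl (hc' _ (mul_mem b.2 hb2) ?_)
        have : w * (b * b2) * w⁻¹ = (w * b * w⁻¹ * D.u) * (w * b2 * w⁻¹ * D.u) := by
          calc w * (b * b2) * w⁻¹ = w * b * w⁻¹ * (w * b2 * w⁻¹) * (D.u * D.u) := by rw [D.uu]; group
            _ = w * b * w⁻¹ * (w * b2 * w⁻¹ * D.u) * D.u := by group
            _ = _ := by rw [Jc _ (bJ b2 hb2) _ uJ, mul_assoc _ _ D.u, Jc _ (mul_mem uJ (bJ b2 hb2)) _ uJ,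
                Jc _ uJ _ (bJ b2 hb2)]; group
        exact this ▸ mul_mem e q2Q⟩
    have := card_inf_mul_relIndex D.U D.B
    rw [hi, inf_comm, f.cF, f.cB] at this
    omega
  have q1V : w * b1 * w⁻¹ ∉ D.V := fun e => h1U (bV b1 hb1 e).1
  have q2V : w * b2 * w⁻¹ * D.u ∉ D.V := fun e => h2V ((mul_mem_cancel_right (UV D.uU)).1 e)
  obtain ⟨h, hh, hb⟩ := f.m4 _ (qi.le q1Q) q1V _ (qi.le q2Q) q2V
  have q3Q := conj_mem (qi.nH hh) q1Q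
  have q3V : h * (w * b1 * w⁻¹) * h⁻¹ ∉ D.V := fun e => q1V (by simpa [mul_assoc] using conj_mem' (HN hh) e)
  have q3s : h * (w * b1 * w⁻¹) * h⁻¹ * (h * (w * b1 * w⁻¹) * h⁻¹) = 1 := by
    rw [conj_mul, Jsq _ (bJ b1 hb1)]; group
  have q2s := Jsq _ (mul_mem (bJ b2 hb2) uJ)
  obtain ⟨n, -, hn⟩ := f.oc b1 hb1 fun e => h1U (e ▸ one_mem _)
  obtain ⟨y, e⟩ : ∃ y : G, y * (h * (w * b1 * w⁻¹) * h⁻¹) * y⁻¹ = w * b2 * w⁻¹ * D.u := by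
    generalize h * (w * b1 * w⁻¹) * h⁻¹ = q3 at hb q3Q q3V q3s
    generalize w * b2 * w⁻¹ * D.u = q2 at hb q2Q q2s
    obtain ⟨b, rfl⟩ : ∃ b, q2 = q3 * b := ⟨q3⁻¹ * q2, by group⟩
    rw [inv_mul_cancel_left] at hb
    have hB : b ∈ D.B := qi.inf.le ⟨(mul_mem_cancel_left q3Q).1 q2Q, hb⟩
    have hc : b * q3 = q3 * b := by
      rw [← inv_eq_of_mul_eq_one_right q2s, mul_inv_rev, inv_eq_of_mul_eq_one_right q3s,
        inv_eq_of_mul_eq_one_right (D.ms.sq hb)]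
    obtain ⟨y, -, e⟩ := f.m5 q3 (qi.le q3Q) q3V b hB hc
    exact ⟨y, by rw [← hc, ← e, commutatorElement_def]; group⟩
  have hg : (w⁻¹ * y * h * w * n) * D.z * (w⁻¹ * y * h * w * n)⁻¹ = b2 * D.u := by
    calc _ = w⁻¹ * (y * (h * (w * (n * D.z * n⁻¹) * w⁻¹) * h⁻¹) * y⁻¹) * w := by group
      _ = w⁻¹ * (w * b2 * w⁻¹ * (w * D.u * w⁻¹)) * w := by rw [hn, e, wU _ D.uU]
      _ = _ := by group
  obtain ⟨m, hm, e'⟩ := wf.fus _ D.z (UV D.zU) (hg ▸ mul_mem (D.ks_le _ hb2) (UV D.uU))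
  exact f.nd b2 hb2 h2U m hm (e'.trans hg)

end CL.M11.C
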