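/-
Project M11 (S3318), the code case: the odd element `w` normalises `P ⊓ Q` (step `WN2`).
-/
import Cfsg.Agent.M11.DC

set_option autoImplicit false

namespace CL.M11.C

open Cfsg Subgroup CL.Grp CL.Even
open scoped commutatorElement Pointwise

universe u

namespace Wn2

variable {G : Type u} [Group G]

theorem conjZ (D : Dat G) {c x : G} (hc : c * D.z = D.z * c) (hx : x ∈ D.Z) : c * x * c⁻¹ = x := by
  rcases D.mem_Z.1 hx with rfl | rfl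
  · simp
  · rw [hc, mul_inv_cancel_right]

/-- The elements centralising `z` and `A` modulo `Z`. -/
def C0 (D : Dat G) (A : Subgroup G) : Subgroup G where
  carrier := {c | c * D.z = D.z * c ∧ ∀ q ∈ A, ⁅q, c⁆ ∈ D.Z}
  one_mem' := ⟨by simp, fun q _ => by simp⟩
  mul_mem' := fun {a b} ha hb => ⟨by rw [mul_assoc, hb.1, ← mul_assoc, ha.1, mul_assoc], fun q hq => by
    rw [show ⁅q, a * b⁆ = ⁅q, a⁆ * (a * ⁅q, b⁆ * a⁻¹) by simp only [commutatorElement_def]; group,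
      conjZ D ha.1 (hb.2 q hq)]
    exact mul_mem (ha.2 q hq) (hb.2 q hq)⟩
  inv_mem' := fun {a} ha => by
    have h : a⁻¹ * D.z = D.z * a⁻¹ := (Commute.inv_left ha.1 :)
    refine ⟨h, fun q hq => ?_⟩
    rw [show ⁅q, a⁻¹⁆ = a⁻¹ * ⁅q, a⁆⁻¹ * a⁻¹⁻¹ by simp only [commutatorElement_def]; group,
      conjZ D h (inv_mem (ha.2 q hq))]
    exact inv_mem (ha.2 q hq)

theorem Q_le_C0 {D : Dat G} {Q A : Subgroup G} (qi : QI D Q) (hA : A ≤ Q) : Q ≤ C0 D A := fun c hc => by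
  have cz : ∀ c ∈ Q, c * D.z = D.z * c := fun c hc => (D.mem_H.1 (D.T_le_H (D.O_le_T (qi.le hc)))).2
  refine ⟨cz c hc, fun q hq => ?_⟩
  rw [show ⁅q, c⁆ = q * c * (q * c) * (c⁻¹ * (q * q)⁻¹ * c⁻¹⁻¹) * (c * c)⁻¹ by simp only [commutatorElement_def]; group,
    conjZ D (cz _ (inv_mem hc)) (inv_mem (qi.sq q (hA hq)))]
  exact mul_mem (mul_mem (qi.sq _ (mul_mem (hA hq) hc)) (inv_mem (qi.sq q (hA hq)))) (inv_mem (qi.sq c hc))

theorem conj_C0 {D : Dat G} {A : Subgroup G} {w c : G} (hz : w * D.z = D.z * w) (hw : w ∈ 𝒩(A)) (hc : c ∈ C0 D A) :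
    w * c * w⁻¹ ∈ C0 D A := by
  refine ⟨((Commute.mul_left hz hc.1).mul_left (Commute.inv_left hz) :), fun q hq => ?_⟩
  rw [show ⁅q, w * c * w⁻¹⁆ = w * ⁅w⁻¹ * q * w, c⁆ * w⁻¹ by simp only [commutatorElement_def]; group,
    conjZ D hz (hc.2 _ (conj_mem' hw hq))]
  exact hc.2 _ (conj_mem' hw hq)

theorem iter {A : Subgroup G} {w u d q : G} (hw : w ∈ 𝒩(A)) (wu : Commute u w) (uA : ∀ a ∈ A, Commute u a)
    (hq : q ∈ A) (e : w * d * w⁻¹ = q * u * d) (k : ℕ) : ∃ a ∈ A, w ^ k * d * (w ^ k)⁻¹ = a * u ^ k * d := by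
  induction k with
  | zero => exact ⟨1, one_mem _, by simp⟩
  | succ k ih =>
    obtain ⟨a, ha, h⟩ := ih
    refine ⟨w * a * w⁻¹ * q, mul_mem (conj_mem hw ha) hq, ?_⟩
    calc w ^ (k + 1) * d * (w ^ (k + 1))⁻¹ = w * (w ^ k * d * (w ^ k)⁻¹) * w⁻¹ := by group
      _ = w * a * w⁻¹ * (w * u ^ k * w⁻¹) * (w * d * w⁻¹) := by rw [h]; group
      _ = w * a * w⁻¹ * (u ^ k * q) * u * d := by rw [← (wu.pow_left k).eq, e]; group
      _ = _ := by rw [((uA q hq).pow_left k).eq]; group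

end Wn2

open Wn2 in
theorem wn2 : WN2.{u} := by
  intro G _ _ D Q X P v w f qi kb ⟨c1, c2, c3⟩ hB
  have vv : v * v = 1 := D.ms.sq kb.vV
  have vi : v⁻¹ = v := inv_eq_of_mul_eq_one_left vv
  have wU : ∀ i ∈ D.U, w * i = i * w := fun i hi => kb.wI i (c1.ge hi).2 (c1.ge hi).1
  have BV : D.B ≤ D.V := D.ks_le _
  have VR : D.V ≤ D.R := D.ms.V_le_pre _
  have RN : D.R ≤ D.N := D.ms.pre_le _
  have BJ : cj w D.B ≤ cj w (D.V ⊓ P) := cj_mono w (f.BW.trans c2.ge)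
  have BR : cj w D.B ≤ D.R := BJ.trans (le_sup_left.trans c3.le)
  have BQ : D.B ≤ Q := qi.inf.ge.trans inf_le_left
  obtain ⟨A, hA⟩ : ∃ A, A = D.B ⊔ cj w D.B := ⟨_, rfl⟩
  have A1 : D.B ≤ A := hA ▸ le_sup_left
  have A2 : cj w D.B ≤ A := hA ▸ le_sup_right
  have AQ : A ≤ Q := hA ▸ sup_le BQ hB
  have AR : A ≤ D.R := hA ▸ sup_le (BV.trans VR) BR
  have vA : ∀ a ∈ A, ⁅v, a⁆ ∈ D.B := fun a ha => qi.inf.le <| mem_inf.2
    ⟨mul_mem (conj_mem (qi.nH (D.T_le_H (D.ms.V_le_T kb.vV))) (AQ ha)) (inv_mem (AQ ha)), by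
      have := mul_mem kb.vV (conj_mem (RN (AR ha)) (inv_mem kb.vV))
      simpa only [commutatorElement_def, mul_assoc] using this⟩
  have vN : v ∈ 𝒩(A) := mem_norm_of_cj_le fun x hx => by
    have h := mem_cj.1 hx
    have := mul_mem (A1 (vA _ h)) h
    rwa [show ⁅v, v⁻¹ * x * v⁆ * (v⁻¹ * x * v) = x by simp only [commutatorElement_def]; group] at this
  have vB : ∀ b ∈ D.B, v * b * v⁻¹ = b := fun b hb => by rw [D.ms.comm kb.vV (BV hb), mul_inv_cancel_right]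
  have w' : w⁻¹ = v * w * v⁻¹ := by rw [vi, kb.inv]
  have wN : w ∈ 𝒩(A) := by
    have h1 : w * v * w⁻¹ ∈ 𝒩(A) := mem_norm_of_cj_le (by
      conv_lhs => rw [hA, cj_sup]
      refine sup_le (cj_le_iff.2 fun b hb => mem_cj.2 ?_) ?_
      · have h2 : w⁻¹ * b * w ∈ A := by
          have := conj_mem vN (A2 (conj_mem_cj w hb))
          rwa [show v * (w * b * w⁻¹) * v⁻¹ = (v * w * v⁻¹) * (v * b * v⁻¹) * (v * w * v⁻¹)⁻¹ by group, vB b hb, ← w',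
            inv_inv] at this
        have := mul_mem (A2 (conj_mem_cj w (vA _ h2))) (A1 hb)
        rwa [show w * ⁅v, w⁻¹ * b * w⁆ * w⁻¹ * b = (w * v * w⁻¹)⁻¹⁻¹ * b * (w * v * w⁻¹)⁻¹ by
          simp only [commutatorElement_def]; group] at this
      · rw [← cj_mul, inv_mul_cancel_right, cj_mul, cj_eq (f.nB (D.T_le_H (D.ms.V_le_T kb.vV)))]
        exact A2)
    have h2 : w ^ 2 ∈ 𝒩(A) := by
      have := mul_mem h1 vN
      rwa [show w * v * w⁻¹ * v = w ^ 2 by rw [w', vi, ← mul_assoc, ← mul_assoc, mul_assoc w v v, vv, mul_one,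
        mul_assoc, vv, mul_one, pow_two]] at this
    exact mem_of_pow_mem_of_coprime (Nat.coprime_two_right.2 kb.odd) h2
  have L : D.V ⊔ cj w D.B = D.O ⊓ D.R := by
    refine eq_of_le_of_card_ge (sup_le (le_inf (D.ms.V_le_pre _) VR) (le_inf (hB.trans qi.le) BR)) ?_
    have h1 := card_sup_mul_card_inf (BR.trans RN)
    have h2 : Nat.card (cj w D.B ⊓ D.V : Subgroup G) ≤ 8 := f.cF ▸ card_le_of_le fun b hb => by
      have hU : b ∈ D.U := c1.le ⟨BJ hb.1, hb.2⟩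
      have := mem_cj.1 hb.1
      rw [mul_assoc, ← wU b hU, inv_mul_cancel_left] at this
      exact ⟨this, hU⟩
    rw [card_cj, f.cB, D.ms.card_V, sup_comm] at h1
    rw [f.cL]
    nlinarith
  have dec : ∀ r ∈ D.O ⊓ D.R, ∃ y ∈ D.V, ∃ b ∈ cj w D.B, y * b = r := fun r hr =>
    (mem_sup_nl (BR.trans RN)).1 (L.ge hr)
  have uA : ∀ a ∈ A, Commute D.u a := fun a ha => f.UR _ D.uU a (AR ha)
  refine kb.nD (mem_norm_of_cj_le (cj_le_iff.2 fun d hd => mem_cj.2 ?_))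
  rw [inv_inv]
  refine ⟨conj_mem kb.wN hd.1, ?_⟩
  have QC := Q_le_C0 qi AQ
  have e1 : ⁅w, d⁆ ∈ C0 D A := mul_mem (conj_C0 (wU _ D.zU) wN (QC hd.2)) (inv_mem (QC hd.2))
  have e2 : ⁅w, d⁆ ∈ D.R := (sup_le (inf_le_left.trans VR) (le_sup_left.trans c3.le) :) (kb.wR d hd.1)
  obtain ⟨y, hy, b, hb, e⟩ := dec _ ⟨f.m6 _ (D.R_le_T e2) fun b hb => e1.2 b (A1 hb), e2⟩
  have yC : y ∈ C0 D A := by
    have := mul_mem e1 (inv_mem (QC (hB hb)))
    rwa [← e, mul_inv_cancel_right] at this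
  have e3 : w * d * w⁻¹ = y * b * d := by rw [e, commutatorElement_def, inv_mul_cancel_right]
  rcases f.n4 y hy (fun r hr => by
    obtain ⟨y', hy', b', hb', rfl⟩ := dec r hr
    rw [show ⁅y, y' * b'⁆ = y * y' * (y' * y)⁻¹ * (y' * ⁅b', y⁆⁻¹ * y'⁻¹) by simp only [commutatorElement_def]; group,
      D.ms.comm hy hy', mul_inv_cancel, one_mul, conjZ D (D.ms.comm hy' (BV D.zB)) (inv_mem (yC.2 _ (A2 hb')))]
    exact inv_mem (yC.2 _ (A2 hb'))) with k | k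
  · exact e3 ▸ mul_mem (mul_mem (BQ k) (hB hb)) hd.2
  · obtain ⟨a, ha, h⟩ := iter wN (wU _ D.uU).symm uA (mul_mem (A1 k) (A2 hb)) (show w * d * w⁻¹ = _ by
      rw [e3, mul_assoc _ b D.u, ← (uA b (A2 hb)).eq, ← mul_assoc, mul_assoc y D.u, D.uu, mul_one]) (orderOf w)
    obtain ⟨m, hm⟩ := kb.odd
    rw [pow_orderOf_eq_one, hm, pow_succ, pow_mul, pow_two, D.uu] at h
    have : D.u = a⁻¹ := eq_inv_of_mul_eq_one_right (by simpa using h.symm)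
    exact (D.uB (qi.inf.le ⟨this ▸ AQ (inv_mem ha), D.ks_le _ D.uU⟩)).elim

end CL.M11.C
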